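import Cfsg.Agent.Lib.Helper80.AS.Defs
import Cfsg.Agent.Lib.Helper11.AschO.GBURN

/-! Ladder ASCHS (helper80), rung BURN (helper1): same statement as the ASCHO port. -/

set_option autoImplicit false

namespace Cfsg.Agent.Lib.Helper80.AS

open Cfsg Cfsg.Geo
open Cfsg.Agent.Lib.Helper77.Asch (NormBy MinOver)
open scoped MatrixGroups Matrix Kronecker

variable {ι : Type} [Fintype ι] [DecidableEq ι] {F : Type*} [Field F]

theorem span_eq_top [Nonempty ι] (P : Subgroup (GL ι F))
    (hP : ActsAbsolutelyIrreducibly (matrixSet P)) :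
    Submodule.span F (matrixSet P) = ⊤ :=
  Cfsg.Agent.Lib.Helper11.AschO.span_eq_top P hP

end Cfsg.Agent.Lib.Helper80.AS
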