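import Cfsg.Agent.Lib.Helper80.AS.Defs
import Cfsg.Agent.Lib.Helper80.AS.BURN

/-! Ladder ASCHS (helper80), rung CL2A (helper1): an absolutely irreducible group of class two modulo scalars
has `|N/Z| = n²`. -/

set_option autoImplicit false

namespace Cfsg.Agent.Lib.Helper80.AS

open Cfsg Cfsg.Geo
open Cfsg.Agent.Lib.Helper77.Asch (NormBy MinOver)
open scoped MatrixGroups Matrix Kronecker

variable {ι : Type} [Fintype ι] [DecidableEq ι] {F : Type*} [Field F]

/-- simultaneous weight space of a family of operators -/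
def cl2aV {Y V : Type*} [AddCommGroup V] [Module F V] (T : Y → V →ₗ[F] V) (χ : Y → F) :
    Submodule F V where
  carrier := {u | ∀ x : Y, T x u = χ x • u}
  add_mem' := by
    intro a b ha hb x
    rw [map_add, ha x, hb x, smul_add]
  zero_mem' := by
    intro x
    rw [map_zero, smul_zero]
  smul_mem' := by
    intro c a ha x
    rw [map_smul, ha x, smul_comm]

theorem cl2a_indep {Y V : Type*} [AddCommGroup V] [Module F V] (T : Y → V →ₗ[F] V) :
    iSupIndep (cl2aV T) := by
  classical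
  rw [iSupIndep_iff_finsetSum_eq_zero_imp_eq_zero]
  intro s
  induction s using Finset.induction_on with
  | empty => intro v _ _ i hi; exact absurd hi (Finset.notMem_empty i)
  | insert χ₀ s hχ₀ ih =>
    intro u hu hsum
    rw [Finset.sum_insert hχ₀] at hsum
    have hs : ∀ χ ∈ s, u χ = 0 := by
      intro χ hχ
      have hne : χ ≠ χ₀ := fun h => hχ₀ (h ▸ hχ)
      obtain ⟨x, hx⟩ := Function.ne_iff.mp hne
      have h1 : ∑ χ' ∈ s, (χ' x - χ₀ x) • u χ' = 0 := by
        have h2 := congrArg (T x) hsum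
        rw [map_add, map_sum, map_zero, hu χ₀ (Finset.mem_insert_self _ _) x] at h2
        have h3 : ∑ χ' ∈ s, T x (u χ') = ∑ χ' ∈ s, χ' x • u χ' :=
          Finset.sum_congr rfl fun χ' hχ' => hu χ' (Finset.mem_insert_of_mem hχ') x
        rw [h3] at h2
        have h4 : χ₀ x • (u χ₀ + ∑ χ' ∈ s, u χ') = 0 := by rw [hsum, smul_zero]
        rw [smul_add, Finset.smul_sum] at h4
        simp only [sub_smul, Finset.sum_sub_distrib]
        have h5 : ∑ χ' ∈ s, χ' x • u χ' - ∑ χ' ∈ s, χ₀ x • u χ' =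
            (χ₀ x • u χ₀ + ∑ χ' ∈ s, χ' x • u χ') - (χ₀ x • u χ₀ + ∑ χ' ∈ s, χ₀ x • u χ') := by abel
        rw [h5, h2, h4, sub_zero]
      have h6 := ih (fun χ' => (χ' x - χ₀ x) • u χ')
        (fun χ' hχ' => Submodule.smul_mem _ _ (hu χ' (Finset.mem_insert_of_mem hχ'))) h1 χ hχ
      rcases smul_eq_zero.mp h6 with h7 | h7
      · exact absurd (sub_eq_zero.mp h7) hx
      · exact h7
    intro i hi
    rcases Finset.mem_insert.mp hi with rfl | hi
    · rw [Finset.sum_eq_zero hs, add_zero] at hsum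
      exact hsum
    · exact hs i hi

theorem cl2a_grp {G : Type*} [Group G] (a b y : G)
    (h : y * a * y⁻¹ * a⁻¹ = y * b * y⁻¹ * b⁻¹) : a⁻¹ * b * y = y * (a⁻¹ * b) := by
  have h' : a * y⁻¹ * a⁻¹ = b * y⁻¹ * b⁻¹ := by
    apply mul_left_cancel (a := y)
    simpa only [mul_assoc] using h
  calc a⁻¹ * b * y = y * (y⁻¹ * (a⁻¹ * b)) * y := by group
    _ = y * (a⁻¹ * (a * y⁻¹ * a⁻¹) * b) * y := by group
    _ = y * (a⁻¹ * (b * y⁻¹ * b⁻¹) * b) * y := by rw [h']
    _ = y * (a⁻¹ * b) := by group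

theorem card_quot_eq_sq [Finite F] [Nonempty ι] (N : Subgroup (GL ι F)) (hZ : scalars ι F ≤ N)
    (habs : ActsAbsolutelyIrreducibly (matrixSet N)) (hab : ⁅N, N⁆ ≤ scalars ι F) :
    Nat.card (N ⧸ (scalars ι F).subgroupOf N) = Fintype.card ι ^ 2 := by
  classical
  have hfinF : Fintype F := Fintype.ofFinite F
  have hfinQ : Fintype (N ⧸ (scalars ι F).subgroupOf N) := Fintype.ofFinite _
  -- the characters
  have hex : ∀ x y : N, ∃ c : F,
      (((y : GL ι F) * (x : GL ι F) * (y : GL ι F)⁻¹ * (x : GL ι F)⁻¹ : GL ι F) : Matrix ι ι F) =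
        c • (1 : Matrix ι ι F) := by
    intro x y
    obtain ⟨c, hc⟩ := (mem_scalars_iff _).1 (hab (Subgroup.commutator_mem_commutator y.2 x.2))
    exact ⟨c, hc⟩
  choose χ hχ using hex
  -- the conjugation operators
  let C : N → Matrix ι ι F →ₗ[F] Matrix ι ι F := fun y =>
    (LinearMap.mulLeft F ((y : GL ι F) : Matrix ι ι F)) ∘ₗ
      (LinearMap.mulRight F (((y : GL ι F)⁻¹ : GL ι F) : Matrix ι ι F))
  have hC : ∀ x y : N, C y ((x : GL ι F) : Matrix ι ι F) = χ x y • ((x : GL ι F) : Matrix ι ι F) := by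
    intro x y
    have h1 : C y ((x : GL ι F) : Matrix ι ι F) =
        (((y : GL ι F) * (x : GL ι F) * (y : GL ι F)⁻¹ * (x : GL ι F)⁻¹ * (x : GL ι F) : GL ι F) :
          Matrix ι ι F) := by
      rw [inv_mul_cancel_right]
      simp [C, mul_assoc]
    rw [h1, Units.val_mul, hχ, Matrix.smul_mul, one_mul]
  let t : N ⧸ (scalars ι F).subgroupOf N → N := Quotient.out
  have ht : ∀ q, (QuotientGroup.mk (t q) : N ⧸ (scalars ι F).subgroupOf N) = q := fun q =>
    QuotientGroup.out_eq' q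
  let tm : N ⧸ (scalars ι F).subgroupOf N → Matrix ι ι F := fun q => ((t q : GL ι F) : Matrix ι ι F)
  have hinj : Function.Injective (fun q => χ (t q)) := by
    intro q q' h
    have h' : χ (t q) = χ (t q') := h
    rw [← ht q, ← ht q', QuotientGroup.eq, Subgroup.mem_subgroupOf]
    obtain ⟨c, hc⟩ := habs.2 (((t q : GL ι F)⁻¹ * (t q' : GL ι F) : GL ι F) : Matrix ι ι F) (by
      rintro _ ⟨y, hy, rfl⟩
      rw [← Units.val_mul, ← Units.val_mul]
      congr 1
      apply cl2a_grp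
      apply Units.ext
      rw [hχ (t q) ⟨y, hy⟩, hχ (t q') ⟨y, hy⟩, h'])
    rw [mem_scalars_iff]
    have hc0 : c ≠ 0 := by
      rintro rfl
      rw [zero_smul] at hc
      exact (Units.ne_zero _) hc
    exact ⟨Units.mk0 c hc0, hc⟩
  have hli : LinearIndependent F tm := by
    refine iSupIndep.linearIndependent (fun q => cl2aV C (χ (t q))) ((cl2a_indep C).comp hinj) ?_ ?_
    · intro q y
      exact hC (t q) y
    · intro q
      exact Units.ne_zero _
  have hspan : Submodule.span F (Set.range tm) = ⊤ := by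
    rw [eq_top_iff, ← span_eq_top N habs, Submodule.span_le]
    rintro _ ⟨x, hx, rfl⟩
    have h1 : (t (QuotientGroup.mk ⟨x, hx⟩))⁻¹ * ⟨x, hx⟩ ∈ (scalars ι F).subgroupOf N := by
      rw [← QuotientGroup.eq, ht]
    rw [Subgroup.mem_subgroupOf, mem_scalars_iff] at h1
    obtain ⟨c, hc⟩ := h1
    have h2 : (x : Matrix ι ι F) = (c : F) • tm (QuotientGroup.mk ⟨x, hx⟩) := by
      have h3 : x = (t (QuotientGroup.mk ⟨x, hx⟩) : GL ι F) *
          (((t (QuotientGroup.mk ⟨x, hx⟩))⁻¹ * ⟨x, hx⟩ : N) : GL ι F) := by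
        simp
      conv_lhs => rw [h3]
      rw [Units.val_mul, hc, Matrix.mul_smul, mul_one]
    show (x : Matrix ι ι F) ∈ Submodule.span F (Set.range tm)
    rw [h2]
    exact Submodule.smul_mem _ _ (Submodule.subset_span ⟨_, rfl⟩)
  have h4 := finrank_span_eq_card hli
  rw [hspan, finrank_top, Module.finrank_matrix] at h4
  rw [Nat.card_eq_fintype_card, ← h4]
  simp [sq]

end Cfsg.Agent.Lib.Helper80.AS
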