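import Mathlib
import Cfsg.Prelude.Def_GeometricClasses
import Cfsg.Agent.Lib.Helper77.Asch.Defs

/-! Ladder ASCHS: Aschbacher's theorem for Sp_{2m}(q), m an odd prime (definitions). -/

set_option autoImplicit false

namespace Cfsg.Agent.Lib.Helper80.AS

open Cfsg Cfsg.Geo
open scoped MatrixGroups Matrix Kronecker

variable {ι : Type} [Fintype ι] [DecidableEq ι] {F : Type*} [Field F]

/-- the enveloping algebra of a matrix group. -/
def env (N : Subgroup (GL ι F)) : Subalgebra F (Matrix ι ι F) :=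
  Algebra.adjoin F (matrixSet N)

/-- the centre of a subalgebra of the matrix algebra, again as a subalgebra of the matrix algebra. -/
def cen (B : Subalgebra F (Matrix ι ι F)) : Subalgebra F (Matrix ι ι F) :=
  B ⊓ Subalgebra.centralizer F (B : Set (Matrix ι ι F))

/-- the subalgebra consists of scalar matrices. -/
def IsScal (E : Subalgebra F (Matrix ι ι F)) : Prop :=
  ∀ x ∈ E, ∃ c : F, x = c • (1 : Matrix ι ι F)

/-- the subalgebra is commutative. -/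
def IsComm (E : Subalgebra F (Matrix ι ι F)) : Prop :=
  ∀ x ∈ E, ∀ y ∈ E, x * y = y * x

/-- the matrix `x` is self-adjoint for `f`. -/
def SelfAdj (f : (ι → F) → (ι → F) → F) (x : Matrix ι ι F) : Prop :=
  ∀ u v : ι → F, f (x *ᵥ u) v = f u (x *ᵥ v)

/-- the projections onto the members of the decomposition `D` lie in `E`. -/
def Projs (E : Subalgebra F (Matrix ι ι F)) {t : ℕ} (D : Fin t → Submodule F (ι → F)) : Prop :=
  ∀ j, ∃ e ∈ E, (∀ v ∈ D j, e *ᵥ v = v) ∧ ∀ i, i ≠ j → ∀ u ∈ D i, e *ᵥ u = 0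

/-- transport of a matrix indexed by `Fin s × Fin k` to `ι` along `e`, conjugated by `P`
(the shape of the elements of `tensorProductSubgroup s k e P`). -/
def tmat {s k : ℕ} (e : ι ≃ Fin s × Fin k) (P : GL ι F)
    (X : Matrix (Fin s × Fin k) (Fin s × Fin k) F) : Matrix ι ι F :=
  (P : Matrix ι ι F) * Matrix.reindexAlgEquiv F F e.symm X * ((P⁻¹ : GL ι F) : Matrix ι ι F)

/-- `B` is the left factor `M_s(F) ⊗ 1` of the tensor decomposition `(e, P)`. -/
def IsLeftFactor {s k : ℕ} (B : Subalgebra F (Matrix ι ι F)) (e : ι ≃ Fin s × Fin k) (P : GL ι F) : Prop :=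
  ∀ y : Matrix ι ι F, y ∈ B ↔
    ∃ x : Matrix (Fin s) (Fin s) F, y = tmat e P (x ⊗ₖ (1 : Matrix (Fin k) (Fin k) F))

/-- in the basis `(e, P)` the form `f` has Gram matrix `J₁ ⊗ J₂`. -/
def GramTensor {s k : ℕ} (f : (ι → F) → (ι → F) → F) (e : ι ≃ Fin s × Fin k) (P : GL ι F)
    (J₁ : Matrix (Fin s) (Fin s) F) (J₂ : Matrix (Fin k) (Fin k) F) : Prop :=
  ∀ x y : Fin s × Fin k → F,
    f ((P : Matrix ι ι F) *ᵥ (x ∘ e)) ((P : Matrix ι ι F) *ᵥ (y ∘ e)) = formOfGram id (J₁ ⊗ₖ J₂) x y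

/-- `H` lies in a member of one of the geometric classes of the symplectic group in dimension `2m`, `m` an odd prime. -/
def InGeoS [Fintype F] (m : ℕ) (f : (ι → F) → (ι → F) → F) (H : Subgroup (GL ι F)) : Prop :=
  (∃ W : Submodule F (ι → F), W ≠ ⊥ ∧ IsTotallySingularFor f W ∧ H ≤ subspaceStabilizer W) ∨
  (∃ W : Submodule F (ι → F), W ≠ ⊥ ∧ IsNondegenerateOn f W ∧ Module.finrank F W < m ∧
      H ≤ subspaceStabilizer W) ∨
  (3 ≤ Fintype.card F ∧ ∃ D : Fin m → Submodule F (ι → F), IsNondegenerateMDecomposition f 2 D ∧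
      H ≤ decompositionStabilizer D) ∨
  (Odd (Fintype.card F) ∧ ∃ D : Fin 2 → Submodule F (ι → F), IsMDecomposition m D ∧
      (∀ i, IsTotallySingularFor f (D i)) ∧ H ≤ decompositionStabilizer D) ∨
  (∃ K : Subalgebra F (Matrix ι ι F), IsFieldSubalgebra m K ∧ IsSelfAdjointFor f K ∧
      (∀ k ∈ K, ∀ v : ι → F, f (k *ᵥ v) v = 0) ∧ H ≤ subalgebraNormalizer K) ∨
  (Odd (Fintype.card F) ∧ ∃ K : Subalgebra F (Matrix ι ι F), IsFieldSubalgebra 2 K ∧
      IsAdjointClosedFor f K ∧ ¬ IsSelfAdjointFor f K ∧ H ≤ subalgebraNormalizer K) ∨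
  (Odd (Fintype.card F) ∧ (m = 3 → 5 ≤ Fintype.card F) ∧
      ∃ (e : ι ≃ Fin 2 × Fin m) (P : GL ι F) (f₁ : (Fin 2 → F) → (Fin 2 → F) → F)
        (f₂ : (Fin m → F) → (Fin m → F) → F), IsSymplecticForm f₁ ∧ IsSymmetricForm f₂ ∧
        IsTensorFormStructure id f f₁ f₂ e P ∧ H ≤ tensorProductSubgroup 2 m e P) ∨
  (∃ (F₀ : Subfield F) (r : ℕ) (P : GL ι F) (ζ : F), r.Prime ∧ Fintype.card F = Nat.card F₀ ^ r ∧ ζ ≠ 0 ∧
      IsFormRationalStructure f F₀ ζ P ∧ H ≤ subfieldSubgroup F₀ P) ∨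
  (¬ Odd (Fintype.card F) ∧ ∃ Q : (ι → F) → F, IsNondegenerateQuadraticForm Q ∧
      (∀ u v : ι → F, QuadraticMap.polar Q u v = f u v) ∧ H ≤ quadSimilarityGroup Q)

end Cfsg.Agent.Lib.Helper80.AS
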