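import Cfsg.Agent.Lib.Helper80.AS.Defs

set_option autoImplicit false

namespace Cfsg.Agent.Lib.Helper80.AS

open Cfsg Cfsg.Geo
open scoped MatrixGroups Matrix Kronecker

variable {F : Type*} [Field F]

/-- PAR. -/
theorem odd_card_iff [Fintype F] : Odd (Fintype.card F) ↔ (2 : F) ≠ 0 := by
  rw [← Nat.not_even_iff_odd, Nat.even_iff, ← FiniteField.even_card_iff_char_two, Ne, not_iff_not]
  constructor
  · intro h
    have : CharP F 2 := ringChar.of_eq h
    exact CharTwo.two_eq_zero
  · intro h
    have h2 : ((2 : ℕ) : F) = 0 := by exact_mod_cast h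
    have h3 : ringChar F ∣ 2 := (ringChar.spec F 2).1 h2
    rcases (Nat.dvd_prime Nat.prime_two).1 h3 with h4 | h4
    · exact absurd h4 (CharP.ringChar_ne_one)
    · exact h4

end Cfsg.Agent.Lib.Helper80.AS
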