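import Cfsg.Agent.Lib.Helper80.AS.Defs

set_option autoImplicit false

namespace Cfsg.Agent.Lib.Helper80.AS

open Cfsg Cfsg.Geo
open Cfsg.Agent.Lib.Helper77.Asch (NormBy MinOver)
open scoped MatrixGroups Matrix Kronecker

variable {ι : Type} [Fintype ι] [DecidableEq ι] {F : Type*} [Field F]

/-- TMEM. -/
theorem mem_tensor_iff {s k : ℕ} (e : ι ≃ Fin s × Fin k) (P g : GL ι F) :
    g ∈ tensorProductSubgroup s k e P ↔ ∃ (a : GL (Fin s) F) (b : GL (Fin k) F),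
      (g : Matrix ι ι F) = tmat e P ((a : Matrix (Fin s) (Fin s) F) ⊗ₖ (b : Matrix (Fin k) (Fin k) F)) := by
  constructor
  · rintro ⟨_, ⟨x, ⟨a, b, hx⟩, rfl⟩, rfl⟩
    refine ⟨a, b, ?_⟩
    rw [← hx]
    rfl
  · rintro ⟨a, b, hg⟩
    have h1 : ((a : Matrix (Fin s) (Fin s) F) ⊗ₖ (b : Matrix (Fin k) (Fin k) F)) *
        (((a⁻¹ : GL (Fin s) F) : Matrix (Fin s) (Fin s) F) ⊗ₖ
          ((b⁻¹ : GL (Fin k) F) : Matrix (Fin k) (Fin k) F)) = 1 := by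
      rw [← Matrix.mul_kronecker_mul, ← Units.val_mul, ← Units.val_mul, mul_inv_cancel,
        mul_inv_cancel, Units.val_one, Units.val_one, Matrix.one_kronecker_one]
    have h2 : (((a⁻¹ : GL (Fin s) F) : Matrix (Fin s) (Fin s) F) ⊗ₖ
          ((b⁻¹ : GL (Fin k) F) : Matrix (Fin k) (Fin k) F)) *
        ((a : Matrix (Fin s) (Fin s) F) ⊗ₖ (b : Matrix (Fin k) (Fin k) F)) = 1 := by
      rw [← Matrix.mul_kronecker_mul, ← Units.val_mul, ← Units.val_mul, inv_mul_cancel,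
        inv_mul_cancel, Units.val_one, Units.val_one, Matrix.one_kronecker_one]
    refine ⟨glReindex e.symm (⟨_, _, h1, h2⟩ : GL (Fin s × Fin k) F),
      ⟨⟨_, _, h1, h2⟩, ⟨a, b, rfl⟩, rfl⟩, Units.ext ?_⟩
    rw [hg]
    rfl

end Cfsg.Agent.Lib.Helper80.AS
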