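import Cfsg.Agent.Lib.Helper80.AS.Defs
import Cfsg.Agent.Lib.Helper80.AS.TMEM

/-! Ladder ASCHS, rung SWAP. -/

set_option autoImplicit false

namespace Cfsg.Agent.Lib.Helper80.AS

open Cfsg Cfsg.Geo
open Cfsg.Agent.Lib.Helper77.Asch (NormBy MinOver)
open scoped MatrixGroups Matrix Kronecker

variable {ι : Type} [Fintype ι] [DecidableEq ι] {F : Type*} [Field F]

theorem swap_tmat {s k : ℕ} (e : ι ≃ Fin s × Fin k) (P : GL ι F) (a : Matrix (Fin s) (Fin s) F)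
    (b : Matrix (Fin k) (Fin k) F) :
    tmat e P (a ⊗ₖ b) = tmat (e.trans (Equiv.prodComm _ _)) P (b ⊗ₖ a) := by
  have h : Matrix.reindexAlgEquiv F F e.symm (a ⊗ₖ b)
      = Matrix.reindexAlgEquiv F F (e.trans (Equiv.prodComm _ _)).symm (b ⊗ₖ a) := by
    ext i j
    simp [Matrix.coe_reindexAlgEquiv, Matrix.reindex_apply, Matrix.kroneckerMap_apply, mul_comm]
  simp only [tmat, h]

/-- SWAP.  `a ⊗ b` reindexed by `Prod.swap` is `b ⊗ a`; `mem_tensor_iff`. -/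
theorem tensor_swap {s k : ℕ} (e : ι ≃ Fin s × Fin k) (P : GL ι F) :
    tensorProductSubgroup s k e P = tensorProductSubgroup k s (e.trans (Equiv.prodComm _ _)) P := by
  ext g
  rw [mem_tensor_iff, mem_tensor_iff]
  constructor
  · rintro ⟨a, b, h⟩
    exact ⟨b, a, by rw [h, swap_tmat]⟩
  · rintro ⟨b, a, h⟩
    exact ⟨a, b, by rw [h, ← swap_tmat]⟩

/-- SWAP. -/
theorem gram_swap (f : (ι → F) → (ι → F) → F) {s k : ℕ} (e : ι ≃ Fin s × Fin k) (P : GL ι F)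
    (J₁ : Matrix (Fin s) (Fin s) F) (J₂ : Matrix (Fin k) (Fin k) F) (hJ : GramTensor f e P J₁ J₂) :
    GramTensor f (e.trans (Equiv.prodComm _ _)) P J₂ J₁ := by
  intro x y
  have h := hJ (x ∘ Prod.swap) (y ∘ Prod.swap)
  have hx : x ∘ ⇑(e.trans (Equiv.prodComm (Fin s) (Fin k))) = (x ∘ Prod.swap) ∘ e := by
    ext i
    simp
  have hy : y ∘ ⇑(e.trans (Equiv.prodComm (Fin s) (Fin k))) = (y ∘ Prod.swap) ∘ e := by
    ext i
    simp
  rw [hx, hy, h]
  simp only [formOfGram]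
  rw [← Equiv.sum_comp (Equiv.prodComm (Fin s) (Fin k))]
  refine Finset.sum_congr rfl fun a _ => ?_
  rw [← Equiv.sum_comp (Equiv.prodComm (Fin s) (Fin k))]
  refine Finset.sum_congr rfl fun b _ => ?_
  simp [Matrix.kroneckerMap_apply, mul_comm]

end Cfsg.Agent.Lib.Helper80.AS
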