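import Cfsg.Agent.Lib.Helper80.AS.TODD
import Cfsg.Agent.Lib.Helper80.AS.TFORM
import Cfsg.Agent.Lib.Helper80.AS.TMEM
import Cfsg.Agent.Lib.Helper77.Asch.ODD

/-! Ladder ASCHS, rung TCH2: in characteristic two a tensor decomposition `2 ⊗ m`, `m` odd, forces reducibility. -/

set_option autoImplicit false

namespace Cfsg.Agent.Lib.Helper80.AS

open Cfsg Cfsg.Geo
open scoped MatrixGroups Matrix Kronecker

variable {ι : Type} [Fintype ι] [DecidableEq ι] {F : Type*} [Field F]

theorem tch2_add (h2 : (2 : F) = 0) {m : ℕ} (J : Matrix (Fin m) (Fin m) F) (hs : Jᵀ = J) (u v : Fin m → F) :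
    toddForm J (u + v) (u + v) = toddForm J u u + toddForm J v v := by
  have hb := todd_bilinear J
  rw [hb.add_left, hb.add_right, hb.add_right, todd_swap J v u, hs]
  have : toddForm J u v + toddForm J u v = 0 := by rw [← two_mul, h2, zero_mul]
  linear_combination this

theorem tch2_smul {m : ℕ} (J : Matrix (Fin m) (Fin m) F) (c : F) (u : Fin m → F) :
    toddForm J (c • u) (c • u) = c * c * toddForm J u u := by
  have hb := todd_bilinear J
  rw [hb.smul_left, hb.smul_right, mul_assoc]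

/-- the subspace of vectors with `vᵀ J v = 0`. -/
def tch2U (h2 : (2 : F) = 0) {m : ℕ} (J : Matrix (Fin m) (Fin m) F) (hs : Jᵀ = J) : Submodule F (Fin m → F) where
  carrier := {v | toddForm J v v = 0}
  add_mem' := by
    intro u v hu hv
    change toddForm J (u + v) (u + v) = 0
    rw [tch2_add h2 J hs, show toddForm J u u = 0 from hu, show toddForm J v v = 0 from hv, add_zero]
  zero_mem' := by
    change toddForm J 0 0 = 0
    simp [toddForm]
  smul_mem' := by
    intro c v hv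
    change toddForm J (c • v) (c • v) = 0
    rw [tch2_smul, show toddForm J v v = 0 from hv, mul_zero]

theorem tch2_slice {m : ℕ} (a : Matrix (Fin 2) (Fin 2) F) (b : Matrix (Fin m) (Fin m) F) (x : Fin 2 × Fin m → F)
    (i : Fin 2) :
    (fun j => ((a ⊗ₖ b) *ᵥ x) (i, j)) = ∑ l, a i l • (b *ᵥ (fun n => x (l, n))) := by
  funext j
  simp only [Matrix.mulVec, dotProduct, Fintype.sum_prod_type, Matrix.kroneckerMap_apply, Finset.sum_apply,
    Pi.smul_apply, smul_eq_mul, Finset.mul_sum, mul_assoc]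

theorem tensor_char_two [Finite F] [Nonempty ι] (h2 : (2 : F) = 0) (m : ℕ) (hm : Odd m) (hm1 : 1 < m)
    (f : (ι → F) → (ι → F) → F) (hf : IsSymplecticForm f) (e : ι ≃ Fin 2 × Fin m) (P : GL ι F)
    (J₁ : Matrix (Fin 2) (Fin 2) F) (J₂ : Matrix (Fin m) (Fin m) F) (hJ : GramTensor f e P J₁ J₂)
    (Γ : Subgroup (GL ι F)) (hΓ : Γ ≤ similarityGroup f) (hΓt : Γ ≤ tensorProductSubgroup 2 m e P) :
    ¬ ActsIrreducibly (matrixSet Γ) := by
  classical
  have hneg : ∀ M : Matrix (Fin m) (Fin m) F, -M = M := by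
    intro M
    ext i j
    have : M i j + M i j = 0 := by rw [← two_mul, h2, zero_mul]
    rw [Matrix.neg_apply]
    linear_combination -this
  obtain ⟨hd1, hd2, hsg⟩ := tensor_sign f hf e P J₁ J₂ hJ
  have hs2 : J₂ᵀ = J₂ := by
    rcases hsg with ⟨-, h⟩ | ⟨-, h⟩
    · rw [h, hneg]
    · exact h
  set U := tch2U h2 J₂ hs2 with hU
  have hmemU : ∀ v, v ∈ U ↔ toddForm J₂ v v = 0 := fun v => Iff.rfl
  -- a vector outside `U`
  obtain ⟨v₁, hv₁⟩ : ∃ v₁, v₁ ∉ U := by
    by_contra hcon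
    push_neg at hcon
    apply Cfsg.Agent.Lib.Helper77.Asch.no_symplectic_odd hm (toddForm J₂)
    refine ⟨todd_bilinear J₂, ?_, fun v => hcon v, todd_nondeg J₂ hd2⟩
    intro v w
    rw [todd_swap J₂ v w, hs2]
    have : toddForm J₂ w v + toddForm J₂ w v = 0 := by rw [← two_mul, h2, zero_mul]
    linear_combination this
  -- a nonzero vector inside `U`
  obtain ⟨v₀, hv₀, hv₀U⟩ : ∃ v₀, v₀ ≠ 0 ∧ v₀ ∈ U := by
    let j0 : Fin m := ⟨0, by omega⟩
    let j1 : Fin m := ⟨1, hm1⟩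
    have hj : j1 ≠ j0 := by
      intro h
      have := congrArg Fin.val h
      simp [j0, j1] at this
    by_cases h0 : toddForm J₂ (Pi.single j0 1) (Pi.single j0 1) = 0
    · refine ⟨Pi.single j0 1, ?_, h0⟩
      intro h
      have := congrFun h j0
      simp at this
    · haveI : CharP F 2 := CharTwo.of_one_ne_zero_of_two_eq_zero one_ne_zero h2
      haveI : Fintype F := Fintype.ofFinite F
      obtain ⟨a, ha⟩ := FiniteField.isSquare_of_char_two (ringChar.eq F 2)
        (toddForm J₂ (Pi.single j1 1) (Pi.single j1 1) / toddForm J₂ (Pi.single j0 1) (Pi.single j0 1))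
      refine ⟨Pi.single j1 1 + a • Pi.single j0 1, ?_, ?_⟩
      · intro h
        have := congrFun h j1
        simp [Pi.single_eq_of_ne hj] at this
      · rw [hmemU, tch2_add h2 J₂ hs2, tch2_smul, ← ha, div_mul_cancel₀ _ h0, ← two_mul, h2, zero_mul]
  -- the big subspace
  let T : (Fin 2 × Fin m → F) →ₗ[F] (ι → F) := (Matrix.toLin' (P : Matrix ι ι F)).comp (LinearMap.funLeft F F e)
  have hT : ∀ x, T x = (P : Matrix ι ι F) *ᵥ (x ∘ e) := fun x => rfl
  have hTinj : Function.Injective T := by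
    rw [injective_iff_map_eq_zero]
    intro x hx
    by_contra hne
    exact tform_ne_zero e P x hne hx
  let W' : Submodule F (Fin 2 × Fin m → F) :=
    ⨅ i : Fin 2, U.comap (LinearMap.funLeft F F (fun j : Fin m => (i, j)))
  have hmemW' : ∀ x, x ∈ W' ↔ ∀ i : Fin 2, (fun j => x (i, j)) ∈ U := by
    intro x
    simp only [W', Submodule.mem_iInf, Submodule.mem_comap]
    rfl
  let W : Submodule F (ι → F) := W'.map T
  intro hirr
  have hinv : ∀ s ∈ matrixSet Γ, W.map (Matrix.toLin' s) ≤ W := by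
    rintro s ⟨g, hg, rfl⟩ _ ⟨_, ⟨x, hx, rfl⟩, rfl⟩
    obtain ⟨a, b, hab⟩ := (mem_tensor_iff e P g).mp (hΓt hg)
    obtain ⟨c, hc⟩ := hΓ hg
    -- the matrix identity
    set X : Matrix (Fin 2 × Fin m) (Fin 2 × Fin m) F :=
      (a : Matrix (Fin 2) (Fin 2) F) ⊗ₖ (b : Matrix (Fin m) (Fin m) F) with hX
    have hform : ∀ x y : Fin 2 × Fin m → F, formOfGram id (J₁ ⊗ₖ J₂) x y = x ⬝ᵥ ((J₁ ⊗ₖ J₂) *ᵥ y) := by
      intro x y
      rw [tsign_mulVec]
      rfl
    have hmat : Xᵀ * (J₁ ⊗ₖ J₂) * X = (c : F) • (J₁ ⊗ₖ J₂) := by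
      apply uniq_ext
      intro x y
      rw [← uniq_dot, ← hform, ← hJ, ← tmat_mulVec, ← tmat_mulVec, ← hab, hc, hJ, hform, Matrix.smul_mulVec,
        dotProduct_smul, smul_eq_mul]
    have hmat2 : ((a : Matrix (Fin 2) (Fin 2) F)ᵀ * J₁ * (a : Matrix (Fin 2) (Fin 2) F)) ⊗ₖ
        ((b : Matrix (Fin m) (Fin m) F)ᵀ * J₂ * (b : Matrix (Fin m) (Fin m) F)) = (c : F) • (J₁ ⊗ₖ J₂) := by
      rw [← hmat, hX, ← Matrix.kroneckerMap_transpose, ← Matrix.mul_kronecker_mul, ← Matrix.mul_kronecker_mul]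
    set A := (a : Matrix (Fin 2) (Fin 2) F)ᵀ * J₁ * (a : Matrix (Fin 2) (Fin 2) F) with hA
    have hAdet : A.det ≠ 0 := by
      rw [hA, Matrix.det_mul, Matrix.det_mul, Matrix.det_transpose]
      have hadet : (a : Matrix (Fin 2) (Fin 2) F).det ≠ 0 :=
        ((Matrix.isUnit_iff_isUnit_det _).mp a.isUnit).ne_zero
      exact mul_ne_zero (mul_ne_zero hadet hd1) hadet
    obtain ⟨i, l, hil⟩ : ∃ i l, A i l ≠ 0 := by
      by_contra hcon
      push_neg at hcon
      apply hAdet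
      have : A = 0 := by
        ext i l
        exact hcon i l
      rw [this, Matrix.det_zero]
    have hb : (b : Matrix (Fin m) (Fin m) F)ᵀ * J₂ * (b : Matrix (Fin m) (Fin m) F) =
        ((c : F) * J₁ i l / A i l) • J₂ := by
      ext j n
      have h1 := congrFun (congrFun hmat2 (i, j)) (l, n)
      rw [Matrix.kroneckerMap_apply, Matrix.smul_apply, Matrix.kroneckerMap_apply, smul_eq_mul] at h1
      rw [Matrix.smul_apply, smul_eq_mul]
      field_simp
      linear_combination h1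
    have hbU : ∀ v ∈ U, (b : Matrix (Fin m) (Fin m) F) *ᵥ v ∈ U := by
      intro v hv
      rw [hmemU] at hv ⊢
      unfold toddForm at hv ⊢
      rw [uniq_dot, hb, Matrix.smul_mulVec, dotProduct_smul, hv, smul_zero]
    refine ⟨X *ᵥ x, ?_, ?_⟩
    · rw [SetLike.mem_coe, hmemW']
      intro i'
      rw [hX, tch2_slice]
      apply Submodule.sum_mem
      intro l' _
      apply Submodule.smul_mem
      exact hbU _ ((hmemW' x).mp hx l')
    · rw [hT, hT, Matrix.toLin'_apply]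
      change _ = (g : Matrix ι ι F) *ᵥ _
      rw [hab, tmat_mulVec]
  rcases hirr W hinv with h | h
  · -- `W ≠ ⊥`
    have hx : (fun p : Fin 2 × Fin m => v₀ p.2) ∈ W' := (hmemW' _).mpr (fun _ => hv₀U)
    have hTx : T (fun p : Fin 2 × Fin m => v₀ p.2) ∈ W := ⟨_, hx, rfl⟩
    rw [h, Submodule.mem_bot] at hTx
    have h0 := hTinj (hTx.trans (map_zero T).symm)
    apply hv₀
    funext j
    exact congrFun h0 (0, j)
  · -- `W ≠ ⊤`
    have hTx : T (fun p : Fin 2 × Fin m => v₁ p.2) ∈ W := by rw [h]; trivial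
    obtain ⟨x, hx, hxe⟩ := hTx
    have := hTinj hxe
    rw [this] at hx
    exact hv₁ ((hmemW' _).mp hx 0)

end Cfsg.Agent.Lib.Helper80.AS
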