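import Cfsg.Agent.Lib.Helper80.AS.Defs12
import Cfsg.Agent.Lib.Helper80.AS.TCH2

/-! Ladder ASCHS12 (S5868), rung TNA: characteristic two, a tensor decomposition whose second Gram matrix
is not alternating forces reducibility (generalises TCH2). -/

set_option autoImplicit false

namespace Cfsg.Agent.Lib.Helper80.AS

open Cfsg Cfsg.Geo
open scoped MatrixGroups Matrix Kronecker

variable {ι : Type} [Fintype ι] [DecidableEq ι] {F : Type*} [Field F]

theorem tna_slice {s k : ℕ} (a : Matrix (Fin s) (Fin s) F) (b : Matrix (Fin k) (Fin k) F) (x : Fin s × Fin k → F)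
    (i : Fin s) :
    (fun j => ((a ⊗ₖ b) *ᵥ x) (i, j)) = ∑ l, a i l • (b *ᵥ (fun n => x (l, n))) := by
  funext j
  simp only [Matrix.mulVec, dotProduct, Fintype.sum_prod_type, Matrix.kroneckerMap_apply, Finset.sum_apply,
    Pi.smul_apply, smul_eq_mul, Finset.mul_sum, mul_assoc]

/-- TNA. -/
theorem tensor_nonalt [Finite F] [Nonempty ι] (h2 : (2 : F) = 0) {s k : ℕ} (hk : 1 < k)
    (f : (ι → F) → (ι → F) → F) (hf : IsSymplecticForm f) (e : ι ≃ Fin s × Fin k) (P : GL ι F)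
    (J₁ : Matrix (Fin s) (Fin s) F) (J₂ : Matrix (Fin k) (Fin k) F) (hJ : GramTensor f e P J₁ J₂)
    (hna : ∃ i, J₂ i i ≠ 0)
    (Γ : Subgroup (GL ι F)) (hΓ : Γ ≤ similarityGroup f) (hΓt : Γ ≤ tensorProductSubgroup s k e P) :
    ¬ ActsIrreducibly (matrixSet Γ) := by
  classical
  obtain ⟨i0⟩ : Nonempty (Fin s) := by
    obtain ⟨i⟩ := ‹Nonempty ι›
    exact ⟨(e i).1⟩
  haveI : Nonempty (Fin s) := ⟨i0⟩
  have hneg : ∀ M : Matrix (Fin k) (Fin k) F, -M = M := by
    intro M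
    ext i j
    have : M i j + M i j = 0 := by rw [← two_mul, h2, zero_mul]
    rw [Matrix.neg_apply]
    linear_combination -this
  obtain ⟨hd1, hd2, hsg⟩ := tensor_sign f hf e P J₁ J₂ hJ
  have hs2 : J₂ᵀ = J₂ := by
    rcases hsg with ⟨-, h⟩ | ⟨-, h⟩
    · rw [h, hneg]
    · exact h
  set U := tch2U h2 J₂ hs2 with hU
  have hmemU : ∀ v, v ∈ U ↔ toddForm J₂ v v = 0 := fun v => Iff.rfl
  -- a vector outside `U`
  obtain ⟨v₁, hv₁⟩ : ∃ v₁, v₁ ∉ U := by
    obtain ⟨i, hi⟩ := hna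
    refine ⟨Pi.single i 1, ?_⟩
    rw [hmemU]
    simpa [toddForm] using hi
  -- a nonzero vector inside `U`
  obtain ⟨v₀, hv₀, hv₀U⟩ : ∃ v₀, v₀ ≠ 0 ∧ v₀ ∈ U := by
    let j0 : Fin k := ⟨0, by omega⟩
    let j1 : Fin k := ⟨1, hk⟩
    have hj : j1 ≠ j0 := by
      intro h
      have := congrArg Fin.val h
      simp [j0, j1] at this
    by_cases h0 : toddForm J₂ (Pi.single j0 1) (Pi.single j0 1) = 0
    · refine ⟨Pi.single j0 1, ?_, h0⟩
      intro h
      have := congrFun h j0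
      simp at this
    · haveI : CharP F 2 := CharTwo.of_one_ne_zero_of_two_eq_zero one_ne_zero h2
      haveI : Fintype F := Fintype.ofFinite F
      obtain ⟨a, ha⟩ := FiniteField.isSquare_of_char_two (ringChar.eq F 2)
        (toddForm J₂ (Pi.single j1 1) (Pi.single j1 1) / toddForm J₂ (Pi.single j0 1) (Pi.single j0 1))
      refine ⟨Pi.single j1 1 + a • Pi.single j0 1, ?_, ?_⟩
      · intro h
        have := congrFun h j1
        simp [Pi.single_eq_of_ne hj] at this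
      · rw [hmemU, tch2_add h2 J₂ hs2, tch2_smul, ← ha, div_mul_cancel₀ _ h0, ← two_mul, h2, zero_mul]
  -- the big subspace
  let T : (Fin s × Fin k → F) →ₗ[F] (ι → F) := (Matrix.toLin' (P : Matrix ι ι F)).comp (LinearMap.funLeft F F e)
  have hT : ∀ x, T x = (P : Matrix ι ι F) *ᵥ (x ∘ e) := fun x => rfl
  have hTinj : Function.Injective T := by
    rw [injective_iff_map_eq_zero]
    intro x hx
    by_contra hne
    exact tform_ne_zero e P x hne hx
  let W' : Submodule F (Fin s × Fin k → F) :=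
    ⨅ i : Fin s, U.comap (LinearMap.funLeft F F (fun j : Fin k => (i, j)))
  have hmemW' : ∀ x, x ∈ W' ↔ ∀ i : Fin s, (fun j => x (i, j)) ∈ U := by
    intro x
    simp only [W', Submodule.mem_iInf, Submodule.mem_comap]
    rfl
  let W : Submodule F (ι → F) := W'.map T
  intro hirr
  have hinv : ∀ s ∈ matrixSet Γ, W.map (Matrix.toLin' s) ≤ W := by
    rintro s ⟨g, hg, rfl⟩ _ ⟨_, ⟨x, hx, rfl⟩, rfl⟩
    obtain ⟨a, b, hab⟩ := (mem_tensor_iff e P g).mp (hΓt hg)
    obtain ⟨c, hc⟩ := hΓ hg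
    -- the matrix identity
    set X : Matrix (Fin s × Fin k) (Fin s × Fin k) F :=
      (a : Matrix (Fin s) (Fin s) F) ⊗ₖ (b : Matrix (Fin k) (Fin k) F) with hX
    have hform : ∀ x y : Fin s × Fin k → F, formOfGram id (J₁ ⊗ₖ J₂) x y = x ⬝ᵥ ((J₁ ⊗ₖ J₂) *ᵥ y) := by
      intro x y
      rw [tsign_mulVec]
      rfl
    have hmat : Xᵀ * (J₁ ⊗ₖ J₂) * X = (c : F) • (J₁ ⊗ₖ J₂) := by
      apply uniq_ext
      intro x y
      rw [← uniq_dot, ← hform, ← hJ, ← tmat_mulVec, ← tmat_mulVec, ← hab, hc, hJ, hform, Matrix.smul_mulVec,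
        dotProduct_smul, smul_eq_mul]
    have hmat2 : ((a : Matrix (Fin s) (Fin s) F)ᵀ * J₁ * (a : Matrix (Fin s) (Fin s) F)) ⊗ₖ
        ((b : Matrix (Fin k) (Fin k) F)ᵀ * J₂ * (b : Matrix (Fin k) (Fin k) F)) = (c : F) • (J₁ ⊗ₖ J₂) := by
      rw [← hmat, hX, ← Matrix.kroneckerMap_transpose, ← Matrix.mul_kronecker_mul, ← Matrix.mul_kronecker_mul]
    set A := (a : Matrix (Fin s) (Fin s) F)ᵀ * J₁ * (a : Matrix (Fin s) (Fin s) F) with hA
    have hAdet : A.det ≠ 0 := by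
      rw [hA, Matrix.det_mul, Matrix.det_mul, Matrix.det_transpose]
      have hadet : (a : Matrix (Fin s) (Fin s) F).det ≠ 0 :=
        ((Matrix.isUnit_iff_isUnit_det _).mp a.isUnit).ne_zero
      exact mul_ne_zero (mul_ne_zero hadet hd1) hadet
    obtain ⟨i, l, hil⟩ : ∃ i l, A i l ≠ 0 := by
      by_contra hcon
      push Not at hcon
      apply hAdet
      have : A = 0 := by
        ext i l
        exact hcon i l
      rw [this, Matrix.det_zero]
    have hb : (b : Matrix (Fin k) (Fin k) F)ᵀ * J₂ * (b : Matrix (Fin k) (Fin k) F) =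
        ((c : F) * J₁ i l / A i l) • J₂ := by
      ext j n
      have h1 := congrFun (congrFun hmat2 (i, j)) (l, n)
      rw [Matrix.kroneckerMap_apply, Matrix.smul_apply, Matrix.kroneckerMap_apply, smul_eq_mul] at h1
      rw [Matrix.smul_apply, smul_eq_mul]
      field_simp
      linear_combination h1
    have hbU : ∀ v ∈ U, (b : Matrix (Fin k) (Fin k) F) *ᵥ v ∈ U := by
      intro v hv
      rw [hmemU] at hv ⊢
      unfold toddForm at hv ⊢
      rw [uniq_dot, hb, Matrix.smul_mulVec, dotProduct_smul, hv, smul_zero]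
    refine ⟨X *ᵥ x, ?_, ?_⟩
    · rw [SetLike.mem_coe, hmemW']
      intro i'
      rw [hX, tna_slice]
      apply Submodule.sum_mem
      intro l' _
      apply Submodule.smul_mem
      exact hbU _ ((hmemW' x).mp hx l')
    · rw [hT, hT, Matrix.toLin'_apply]
      change _ = (g : Matrix ι ι F) *ᵥ _
      rw [hab, tmat_mulVec]
  rcases hirr W hinv with h | h
  · -- `W ≠ ⊥`
    have hx : (fun p : Fin s × Fin k => v₀ p.2) ∈ W' := (hmemW' _).mpr (fun _ => hv₀U)
    have hTx : T (fun p : Fin s × Fin k => v₀ p.2) ∈ W := ⟨_, hx, rfl⟩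
    rw [h, Submodule.mem_bot] at hTx
    have h0 := hTinj (hTx.trans (map_zero T).symm)
    apply hv₀
    funext j
    exact congrFun h0 (i0, j)
  · -- `W ≠ ⊤`
    have hTx : T (fun p : Fin s × Fin k => v₁ p.2) ∈ W := by rw [h]; trivial
    obtain ⟨x, hx, hxe⟩ := hTx
    have := hTinj hxe
    rw [this] at hx
    exact hv₁ ((hmemW' _).mp hx i0)

end Cfsg.Agent.Lib.Helper80.AS
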