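import Cfsg.Agent.Lib.Helper80.AS.Defs

/-! Ladder ASCHS, rung TMUL: `tmat` is an algebra isomorphism; its action in coordinates. -/

set_option autoImplicit false

namespace Cfsg.Agent.Lib.Helper80.AS

open Cfsg Cfsg.Geo
open scoped MatrixGroups Matrix Kronecker

variable {ι : Type} [Fintype ι] [DecidableEq ι] {F : Type*} [Field F]

theorem tmul_inv_mul (P : GL ι F) : ((P⁻¹ : GL ι F) : Matrix ι ι F) * (P : Matrix ι ι F) = 1 := by
  rw [← Units.val_mul, inv_mul_cancel, Units.val_one]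

theorem tmul_mul_inv (P : GL ι F) : (P : Matrix ι ι F) * ((P⁻¹ : GL ι F) : Matrix ι ι F) = 1 := by
  rw [← Units.val_mul, mul_inv_cancel, Units.val_one]

theorem tmat_mul {s k : ℕ} (e : ι ≃ Fin s × Fin k) (P : GL ι F)
    (X Y : Matrix (Fin s × Fin k) (Fin s × Fin k) F) : tmat e P (X * Y) = tmat e P X * tmat e P Y := by
  unfold tmat
  rw [map_mul]
  calc (P : Matrix ι ι F) * (Matrix.reindexAlgEquiv F F e.symm X * Matrix.reindexAlgEquiv F F e.symm Y) *
        ((P⁻¹ : GL ι F) : Matrix ι ι F)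
      = (P : Matrix ι ι F) * Matrix.reindexAlgEquiv F F e.symm X * 1 * Matrix.reindexAlgEquiv F F e.symm Y *
        ((P⁻¹ : GL ι F) : Matrix ι ι F) := by simp only [mul_one, mul_assoc]
    _ = _ := by rw [← tmul_inv_mul P]; simp only [mul_assoc]

theorem tmat_one {s k : ℕ} (e : ι ≃ Fin s × Fin k) (P : GL ι F) : tmat e P 1 = 1 := by
  unfold tmat
  rw [map_one, mul_one, tmul_mul_inv]

theorem tmat_add {s k : ℕ} (e : ι ≃ Fin s × Fin k) (P : GL ι F)
    (X Y : Matrix (Fin s × Fin k) (Fin s × Fin k) F) : tmat e P (X + Y) = tmat e P X + tmat e P Y := by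
  unfold tmat
  rw [map_add, mul_add, add_mul]

theorem tmat_smul {s k : ℕ} (e : ι ≃ Fin s × Fin k) (P : GL ι F) (c : F)
    (X : Matrix (Fin s × Fin k) (Fin s × Fin k) F) : tmat e P (c • X) = c • tmat e P X := by
  unfold tmat
  rw [map_smul, Matrix.mul_smul, Matrix.smul_mul]

theorem tmat_injective {s k : ℕ} (e : ι ≃ Fin s × Fin k) (P : GL ι F) : Function.Injective (tmat e P) := by
  intro X Y h
  unfold tmat at h
  have h1 : ((P⁻¹ : GL ι F) : Matrix ι ι F) * ((P : Matrix ι ι F) * Matrix.reindexAlgEquiv F F e.symm X *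
      ((P⁻¹ : GL ι F) : Matrix ι ι F)) * (P : Matrix ι ι F) =
      ((P⁻¹ : GL ι F) : Matrix ι ι F) * ((P : Matrix ι ι F) * Matrix.reindexAlgEquiv F F e.symm Y *
      ((P⁻¹ : GL ι F) : Matrix ι ι F)) * (P : Matrix ι ι F) := by rw [h]
  have h2 : ∀ Z : Matrix ι ι F, ((P⁻¹ : GL ι F) : Matrix ι ι F) * ((P : Matrix ι ι F) * Z *
      ((P⁻¹ : GL ι F) : Matrix ι ι F)) * (P : Matrix ι ι F) = Z := by
    intro Z
    calc _ = (((P⁻¹ : GL ι F) : Matrix ι ι F) * (P : Matrix ι ι F)) * Z *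
        (((P⁻¹ : GL ι F) : Matrix ι ι F) * (P : Matrix ι ι F)) := by simp only [mul_assoc]
      _ = Z := by rw [tmul_inv_mul, one_mul, mul_one]
  rw [h2, h2] at h1
  exact (Matrix.reindexAlgEquiv F F e.symm).injective h1

theorem tmat_surjective {s k : ℕ} (e : ι ≃ Fin s × Fin k) (P : GL ι F) : Function.Surjective (tmat e P) := by
  intro y
  refine ⟨(Matrix.reindexAlgEquiv F F e.symm).symm (((P⁻¹ : GL ι F) : Matrix ι ι F) * y * (P : Matrix ι ι F)), ?_⟩
  unfold tmat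
  rw [AlgEquiv.apply_symm_apply]
  calc _ = ((P : Matrix ι ι F) * ((P⁻¹ : GL ι F) : Matrix ι ι F)) * y *
        ((P : Matrix ι ι F) * ((P⁻¹ : GL ι F) : Matrix ι ι F)) := by simp only [mul_assoc]
    _ = y := by rw [tmul_mul_inv, one_mul, mul_one]

/-- TMUL: the action in coordinates. -/
theorem tmat_mulVec {s k : ℕ} (e : ι ≃ Fin s × Fin k) (P : GL ι F)
    (X : Matrix (Fin s × Fin k) (Fin s × Fin k) F) (x : Fin s × Fin k → F) :
    tmat e P X *ᵥ ((P : Matrix ι ι F) *ᵥ (x ∘ e)) = (P : Matrix ι ι F) *ᵥ ((X *ᵥ x) ∘ e) := by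
  unfold tmat
  rw [Matrix.mulVec_mulVec, mul_assoc, tmul_inv_mul, mul_one, ← Matrix.mulVec_mulVec]
  congr 1
  funext i
  simp only [Matrix.reindexAlgEquiv_apply, Matrix.reindex_apply, Equiv.symm_symm, Matrix.mulVec, dotProduct,
    Matrix.submatrix_apply, Function.comp_apply]
  exact Fintype.sum_equiv e _ _ (fun _ => rfl)

end Cfsg.Agent.Lib.Helper80.AS
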