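import Cfsg.Agent.Lib.Helper80.AS.Defs

set_option autoImplicit false

namespace Cfsg.Agent.Lib.Helper80.AS

open Cfsg Cfsg.Geo
open Cfsg.Agent.Lib.Helper77.Asch (NormBy MinOver)
open scoped MatrixGroups Matrix Kronecker

variable {ι : Type} [Fintype ι] [DecidableEq ι] {F : Type*} [Field F]

theorem tsign_single {κ : Type} [Fintype κ] [DecidableEq κ] (G : Matrix κ κ F) (a b : κ) :
    formOfGram id G (Pi.single a 1) (Pi.single b 1) = G a b := by
  unfold formOfGram
  rw [Finset.sum_eq_single a, Finset.sum_eq_single b]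
  · simp
  · intro c _ hc
    simp [Pi.single_apply, hc]
  · intro h; exact absurd (Finset.mem_univ _) h
  · intro c _ hc
    apply Finset.sum_eq_zero
    intro d _
    simp [Pi.single_apply, hc]
  · intro h; exact absurd (Finset.mem_univ _) h

theorem tsign_mulVec {κ : Type} [Fintype κ] (G : Matrix κ κ F) (x y : κ → F) :
    formOfGram id G x y = ∑ a, x a * (G *ᵥ y) a := by
  unfold formOfGram
  apply Finset.sum_congr rfl
  intro a _
  rw [Matrix.mulVec, dotProduct, Finset.mul_sum]
  apply Finset.sum_congr rfl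
  intro b _
  simp [mul_assoc]

theorem tsign_det [Nonempty ι] (f : (ι → F) → (ι → F) → F) (hf : IsSymplecticForm f) {s k : ℕ}
    (e : ι ≃ Fin s × Fin k) (P : GL ι F) (J₁ : Matrix (Fin s) (Fin s) F)
    (J₂ : Matrix (Fin k) (Fin k) F) (hJ : GramTensor f e P J₁ J₂) : (J₁ ⊗ₖ J₂).det ≠ 0 := by
  intro hdet
  obtain ⟨y, hy0, hy⟩ := Matrix.exists_mulVec_eq_zero_iff.2 hdet
  have hv : (P : Matrix ι ι F) *ᵥ (y ∘ e) ≠ 0 := by
    intro h
    apply hy0
    have h1 : ((P⁻¹ : GL ι F) : Matrix ι ι F) *ᵥ ((P : Matrix ι ι F) *ᵥ (y ∘ e)) = 0 := by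
      rw [h, Matrix.mulVec_zero]
    rw [Matrix.mulVec_mulVec, ← Units.val_mul, inv_mul_cancel, Units.val_one,
      Matrix.one_mulVec] at h1
    funext a
    have := congrFun h1 (e.symm a)
    simpa using this
  obtain ⟨⟨w, hw⟩, -⟩ := hf.nondegenerate _ hv
  apply hw
  have hwx : w = (P : Matrix ι ι F) *ᵥ (((((P⁻¹ : GL ι F) : Matrix ι ι F) *ᵥ w) ∘ e.symm) ∘ e) := by
    have : ((((P⁻¹ : GL ι F) : Matrix ι ι F) *ᵥ w) ∘ e.symm) ∘ e =
        ((P⁻¹ : GL ι F) : Matrix ι ι F) *ᵥ w := by
      funext i; simp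
    rw [this, Matrix.mulVec_mulVec, ← Units.val_mul, mul_inv_cancel, Units.val_one,
      Matrix.one_mulVec]
  rw [hwx, hJ, tsign_mulVec, hy]
  simp

/-- TSIGN. -/
theorem tensor_sign [Nonempty ι] (f : (ι → F) → (ι → F) → F) (hf : IsSymplecticForm f) {s k : ℕ}
    (e : ι ≃ Fin s × Fin k) (P : GL ι F) (J₁ : Matrix (Fin s) (Fin s) F) (J₂ : Matrix (Fin k) (Fin k) F)
    (hJ : GramTensor f e P J₁ J₂) :
    J₁.det ≠ 0 ∧ J₂.det ≠ 0 ∧ ((J₁ᵀ = J₁ ∧ J₂ᵀ = -J₂) ∨ (J₁ᵀ = -J₁ ∧ J₂ᵀ = J₂)) := by
  have hdet := tsign_det f hf e P J₁ J₂ hJ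
  rw [Matrix.det_kronecker] at hdet
  have hd1 : J₁.det ≠ 0 := by
    intro h
    apply hdet
    obtain ⟨i⟩ := ‹Nonempty ι›
    have hk : Fintype.card (Fin k) ≠ 0 := by
      rw [Fintype.card_fin]
      have := (e i).2.2
      omega
    rw [h, zero_pow hk, zero_mul]
  have hd2 : J₂.det ≠ 0 := by
    intro h
    apply hdet
    obtain ⟨i⟩ := ‹Nonempty ι›
    have hs : Fintype.card (Fin s) ≠ 0 := by
      rw [Fintype.card_fin]
      have := (e i).1.2
      omega
    rw [h, zero_pow hs, mul_zero]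
  refine ⟨hd1, hd2, ?_⟩
  -- skew-symmetry of the Gram matrix
  have hskew : ∀ (a b : Fin s) (i j : Fin k), J₁ a b * J₂ i j = - (J₁ b a * J₂ j i) := by
    intro a b i j
    have h1 := hJ (Pi.single (a, i) 1) (Pi.single (b, j) 1)
    have h2 := hJ (Pi.single (b, j) 1) (Pi.single (a, i) 1)
    rw [tsign_single] at h1 h2
    rw [hf.skew, h2] at h1
    simpa [Matrix.kroneckerMap_apply] using h1.symm
  have hJ1 : ∃ a b, J₁ a b ≠ 0 := by
    by_contra hcon
    push Not at hcon
    apply hd1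
    have : J₁ = 0 := by ext a b; exact hcon a b
    obtain ⟨i⟩ := ‹Nonempty ι›
    have : Nonempty (Fin s) := ⟨(e i).1⟩
    rw [‹J₁ = 0›, Matrix.det_zero]
  have hJ2 : ∃ i j, J₂ i j ≠ 0 := by
    by_contra hcon
    push Not at hcon
    apply hd2
    have : J₂ = 0 := by ext a b; exact hcon a b
    obtain ⟨i⟩ := ‹Nonempty ι›
    have : Nonempty (Fin k) := ⟨(e i).2⟩
    rw [‹J₂ = 0›, Matrix.det_zero]
  obtain ⟨a, b, hab⟩ := hJ1
  obtain ⟨i, j, hij⟩ := hJ2
  -- lam = - J₁ b a / J₁ a b
  obtain ⟨lam, hlam⟩ : ∃ lam : F, ∀ i j, J₂ i j = lam * J₂ j i := by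
    refine ⟨- (J₁ b a / J₁ a b), fun i j => ?_⟩
    have := hskew a b i j
    field_simp
    linear_combination this
  have hl2 : lam * lam = 1 := by
    have h1 := hlam i j
    rw [hlam j i, ← mul_assoc] at h1
    have h2 : (lam * lam - 1) * J₂ i j = 0 := by linear_combination -h1
    rcases mul_eq_zero.1 h2 with h | h
    · linear_combination h
    · exact absurd h hij
  have hl : lam = 1 ∨ lam = -1 := by
    have : (lam - 1) * (lam + 1) = 0 := by linear_combination hl2
    rcases mul_eq_zero.1 this with h | h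
    · left; linear_combination h
    · right; linear_combination h
  rcases hl with rfl | rfl
  · right
    constructor
    · ext a' b'
      have h1 := hskew b' a' i j
      rw [hlam j i, one_mul] at h1
      have h2 : (J₁ b' a' + J₁ a' b') * J₂ i j = 0 := by linear_combination h1
      rcases mul_eq_zero.1 h2 with h | h
      · simp only [Matrix.transpose_apply, Matrix.neg_apply]
        linear_combination h
      · exact absurd h hij
    · ext i' j'
      simp only [Matrix.transpose_apply]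
      rw [hlam j' i', one_mul]
  · left
    constructor
    · ext a' b'
      have h1 := hskew b' a' i j
      rw [hlam j i] at h1
      have h2 : (J₁ b' a' - J₁ a' b') * J₂ i j = 0 := by linear_combination h1
      rcases mul_eq_zero.1 h2 with h | h
      · simp only [Matrix.transpose_apply]
        linear_combination h
      · exact absurd h hij
    · ext i' j'
      simp only [Matrix.transpose_apply, Matrix.neg_apply]
      rw [hlam j' i']
      ring

end Cfsg.Agent.Lib.Helper80.AS
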