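import Cfsg.Agent.Lib.Helper80.AS.Defs

/-! Ladder ASCHS, rung UNIQ: an invariant bilinear form of an absolutely irreducible group is unique up to a scalar. -/

set_option autoImplicit false

namespace Cfsg.Agent.Lib.Helper80.AS

open Cfsg Cfsg.Geo
open scoped MatrixGroups Matrix Kronecker

variable {ι : Type} [Fintype ι] [DecidableEq ι] {F : Type*} [Field F]

/-- a bilinear form is given by its Gram matrix. -/
theorem uniq_gram (f : (ι → F) → (ι → F) → F) (hf : IsBilinearForm f) (u v : ι → F) :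
    f u v = u ⬝ᵥ (gramMatrix f *ᵥ v) := by
  let B : LinearMap.BilinForm F (ι → F) :=
    LinearMap.mk₂ F f hf.add_left hf.smul_left hf.add_right hf.smul_right
  have h1 : Matrix.toBilin' (LinearMap.BilinForm.toMatrix' B) = B := Matrix.toBilin'_toMatrix' B
  have hG : LinearMap.BilinForm.toMatrix' B = gramMatrix f := by
    ext a b
    rw [LinearMap.BilinForm.toMatrix'_apply]
    rfl
  have h2 : f u v = B u v := rfl
  rw [h2, ← h1, hG, Matrix.toBilin'_apply']

theorem uniq_det (f : (ι → F) → (ι → F) → F) (hf : IsBilinearForm f) (hfn : IsNondegenerateForm f) :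
    (gramMatrix f).det ≠ 0 := by
  intro h0
  obtain ⟨v, hv, h1⟩ := Matrix.exists_mulVec_eq_zero_iff.mpr h0
  obtain ⟨x, hx⟩ := (hfn v hv).1
  apply hx
  rw [uniq_gram f hf, h1, dotProduct_zero]

theorem uniq_ext (M M' : Matrix ι ι F) (h : ∀ u v : ι → F, u ⬝ᵥ (M *ᵥ v) = u ⬝ᵥ (M' *ᵥ v)) : M = M' := by
  ext a b
  have := h (Pi.single a 1) (Pi.single b 1)
  simpa using this

theorem uniq_dot (s G : Matrix ι ι F) (u v : ι → F) :
    (s *ᵥ u) ⬝ᵥ (G *ᵥ (s *ᵥ v)) = u ⬝ᵥ ((sᵀ * G * s) *ᵥ v) := by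
  rw [← Matrix.mulVec_mulVec, ← Matrix.mulVec_mulVec, Matrix.dotProduct_mulVec u sᵀ,
    Matrix.vecMul_transpose]

theorem uniq_inv (f : (ι → F) → (ι → F) → F) (hf : IsBilinearForm f) (s : Matrix ι ι F)
    (h : ∀ u v, f (s *ᵥ u) (s *ᵥ v) = f u v) : sᵀ * gramMatrix f * s = gramMatrix f := by
  apply uniq_ext
  intro u v
  rw [← uniq_dot, ← uniq_gram f hf, ← uniq_gram f hf, h]

/-- UNIQ. -/
theorem form_unique (P : Subgroup (GL ι F)) (hP : ActsAbsolutelyIrreducibly (matrixSet P))
    (f g : (ι → F) → (ι → F) → F) (hf : IsBilinearForm f) (hfn : IsNondegenerateForm f)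
    (hg : IsBilinearForm g) (h1 : FixesForm (matrixSet P) f) (h2 : FixesForm (matrixSet P) g) :
    ∃ c : F, ∀ u v, g u v = c * f u v := by
  set J := gramMatrix f with hJ
  set J' := gramMatrix g with hJ'
  have hJu : IsUnit J.det := isUnit_iff_ne_zero.2 (uniq_det f hf hfn)
  obtain ⟨c, hc⟩ := hP.2 (J⁻¹ * J') (by
    intro s hs
    have hs' := hs
    obtain ⟨x, hx, rfl⟩ := hs'
    set s : Matrix ι ι F := (x : Matrix ι ι F) with hsdef
    set t : Matrix ι ι F := ((x⁻¹ : GL ι F) : Matrix ι ι F) with htdef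
    have hst : s * t = 1 := by
      rw [hsdef, htdef, ← Units.val_mul, mul_inv_cancel, Units.val_one]
    have htsT : tᵀ * sᵀ = 1 := by
      rw [← Matrix.transpose_mul, hst, Matrix.transpose_one]
    have e0 : sᵀ * J * s = J := uniq_inv f hf s (h1 s hs)
    have e0' : sᵀ * J' * s = J' := uniq_inv g hg s (h2 s hs)
    have e1 : J * s = tᵀ * J := by
      have := congrArg (fun M : Matrix ι ι F => tᵀ * M) e0
      simp only [← Matrix.mul_assoc, htsT, Matrix.one_mul] at this
      exact this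
    have e2 : J' * s = tᵀ * J' := by
      have := congrArg (fun M : Matrix ι ι F => tᵀ * M) e0'
      simp only [← Matrix.mul_assoc, htsT, Matrix.one_mul] at this
      exact this
    have e3 : s * J⁻¹ = J⁻¹ * tᵀ := by
      have := congrArg (fun M : Matrix ι ι F => J⁻¹ * M * J⁻¹) e1
      simp only [← Matrix.mul_assoc, Matrix.nonsing_inv_mul J hJu, Matrix.one_mul] at this
      rw [Matrix.mul_assoc (J⁻¹ * tᵀ), Matrix.mul_nonsing_inv J hJu, Matrix.mul_one] at this
      exact this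
    rw [Matrix.mul_assoc, e2, ← Matrix.mul_assoc s, e3, Matrix.mul_assoc])
  refine ⟨c, fun u v => ?_⟩
  have h3 : J' = c • J := by
    have := congrArg (fun M : Matrix ι ι F => J * M) hc
    simp only [← Matrix.mul_assoc, Matrix.mul_nonsing_inv J hJu, Matrix.one_mul, Matrix.mul_smul,
      Matrix.mul_one] at this
    exact this
  rw [uniq_gram g hg, uniq_gram f hf, ← hJ', ← hJ, h3, Matrix.smul_mulVec, dotProduct_smul, smul_eq_mul]

end Cfsg.Agent.Lib.Helper80.AS
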