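import Cfsg.Agent.Lib.Helper80.AS.Defs

set_option autoImplicit false

namespace Cfsg.Agent.Lib.Helper80.AS

open Cfsg Cfsg.Geo
open scoped MatrixGroups Matrix Kronecker

variable {ι : Type} [Fintype ι] [DecidableEq ι] {F : Type*} [Field F]

/-- a finite field of even order has characteristic 2 -/
theorem uq_two_eq_zero [Fintype F] (h2 : ¬ Odd (Fintype.card F)) : (2 : F) = 0 := by
  have hev : Fintype.card F % 2 = 0 := by
    rcases Nat.even_or_odd (Fintype.card F) with h | h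
    · exact Nat.even_iff.1 h
    · exact absurd h h2
  have hch : ringChar F = 2 := FiniteField.even_card_iff_char_two.2 hev
  haveI : CharP F 2 := ringChar.of_eq hch
  exact CharTwo.two_eq_zero

/-- the self-adjoint elements of a 2-dimensional, not self-adjoint, subalgebra are scalars -/
theorem uq_scalar (f : (ι → F) → (ι → F) → F) (hb : IsBilinearForm f)
    (K : Subalgebra F (Matrix ι ι F)) (hK : Module.finrank F K = 2) (hnsa : ¬ IsSelfAdjointFor f K)
    (x : Matrix ι ι F) (hx : x ∈ K) (hxs : ∀ u v, f (x *ᵥ u) v = f u (x *ᵥ v)) :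
    ∃ s : F, x = s • (1 : Matrix ι ι F) := by
  classical
  let K₀ : Submodule F (Matrix ι ι F) :=
    { carrier := {x | x ∈ K ∧ ∀ u v, f (x *ᵥ u) v = f u (x *ᵥ v)}
      add_mem' := by
        rintro a b ⟨ha, ha'⟩ ⟨hb1, hb'⟩
        refine ⟨K.add_mem ha hb1, fun u v => ?_⟩
        rw [Matrix.add_mulVec, Matrix.add_mulVec, hb.add_left, hb.add_right, ha', hb']
      zero_mem' := ⟨K.zero_mem, fun u v => by
        rw [Matrix.zero_mulVec, Matrix.zero_mulVec]
        have h1 : f 0 v = 0 := by have := hb.smul_left 0 0 v; simpa using this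
        have h2 : f u 0 = 0 := by have := hb.smul_right 0 u 0; simpa using this
        rw [h1, h2]⟩
      smul_mem' := by
        rintro c a ⟨ha, ha'⟩
        refine ⟨K.smul_mem ha c, fun u v => ?_⟩
        rw [Matrix.smul_mulVec, Matrix.smul_mulVec, hb.smul_left, hb.smul_right, ha'] }
  have hle : K₀ ≤ Subalgebra.toSubmodule K := fun x hx => hx.1
  have hlt : K₀ < Subalgebra.toSubmodule K := by
    refine lt_of_le_of_ne hle (fun heq => hnsa (fun k hk => ?_))
    have : k ∈ K₀ := by rw [heq]; exact hk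
    exact this.2
  have hfr : Module.finrank F K₀ ≤ 1 := by
    have := Submodule.finrank_lt_finrank_of_lt hlt
    rw [Subalgebra.finrank_toSubmodule, hK] at this
    omega
  obtain ⟨v0, hv0⟩ := finrank_le_one_iff.1 hfr
  have h1mem : (1 : Matrix ι ι F) ∈ K₀ :=
    ⟨K.one_mem, fun u v => by rw [Matrix.one_mulVec, Matrix.one_mulVec]⟩
  obtain ⟨c1, hc1⟩ := hv0 ⟨1, h1mem⟩
  obtain ⟨c, hc⟩ := hv0 ⟨x, hx, hxs⟩
  have hc1' : c1 • (v0 : Matrix ι ι F) = 1 := congrArg Subtype.val hc1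
  have hc' : c • (v0 : Matrix ι ι F) = x := congrArg Subtype.val hc
  by_cases h0 : c1 = 0
  · refine ⟨0, ?_⟩
    rw [h0, zero_smul] at hc1'
    rw [zero_smul, ← mul_one x, ← hc1', mul_zero]
  · refine ⟨c * c1⁻¹, ?_⟩
    rw [← hc', ← hc1', smul_smul, mul_assoc, inv_mul_cancel₀ h0, mul_one]

/-- UQ. -/
theorem quad_of_unitary_field [Fintype F] (h2 : ¬ Odd (Fintype.card F)) (f : (ι → F) → (ι → F) → F)
    (hf : IsSymplecticForm f) (K : Subalgebra F (Matrix ι ι F)) (hK : IsFieldSubalgebra 2 K)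
    (hadj : IsAdjointClosedFor f K) (hnsa : ¬ IsSelfAdjointFor f K) :
    ∃ Q : (ι → F) → F, IsNondegenerateQuadraticForm Q ∧ (∀ u v, QuadraticMap.polar Q u v = f u v) ∧
      subalgebraNormalizer K ⊓ similarityGroup f ≤ quadSimilarityGroup Q := by
  classical
  have hb := hf.bilinear
  have h2F : (2 : F) = 0 := uq_two_eq_zero h2
  have hadd : ∀ a : F, a + a = 0 := fun a => by rw [← two_mul, h2F, zero_mul]
  have hneg : ∀ a : F, -a = a := fun a => neg_eq_of_add_eq_zero_left (hadd a)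
  have hsymm : ∀ u v, f u v = f v u := fun u v => by rw [hf.skew, hneg]
  have hscal := uq_scalar f hb K hK.finrank_eq hnsa
  -- an element which is not self-adjoint
  have hex : ∃ x ∈ K, ¬ ∀ u v, f (x *ᵥ u) v = f u (x *ᵥ v) := by
    by_contra hcon
    push Not at hcon
    exact hnsa hcon
  obtain ⟨x, hx, hxn⟩ := hex
  obtain ⟨x', hx', hxx'⟩ := hadj x hx
  have hx'x : ∀ u v, f (x' *ᵥ u) v = f u (x *ᵥ v) := fun u v => by
    rw [hsymm, ← hxx', hsymm]
  obtain ⟨s, hs⟩ := hscal (x + x') (K.add_mem hx hx') (fun u v => by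
    rw [Matrix.add_mulVec, Matrix.add_mulVec, hb.add_left, hb.add_right, hxx', hx'x, add_comm])
  have hs0 : s ≠ 0 := by
    intro h0
    apply hxn
    intro u v
    rw [hxx']
    have h1 : x *ᵥ v + x' *ᵥ v = 0 := by
      rw [← Matrix.add_mulVec, hs, h0, zero_smul, Matrix.zero_mulVec]
    have h3 : f u (x *ᵥ v) + f u (x' *ᵥ v) = 0 := by
      rw [← hb.add_right, h1]
      have := hb.smul_right 0 u 0; simpa using this
    have h4 : f u (x' *ᵥ v) = - f u (x *ᵥ v) := eq_neg_of_add_eq_zero_right h3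
    rw [h4, hneg]
  -- normalise
  obtain ⟨k, k', hk, hk', hkk', hsum⟩ : ∃ k k' : Matrix ι ι F, k ∈ K ∧ k' ∈ K ∧
      (∀ u v, f (k *ᵥ u) v = f u (k' *ᵥ v)) ∧ k + k' = 1 := by
    refine ⟨s⁻¹ • x, s⁻¹ • x', K.smul_mem hx _, K.smul_mem hx' _, fun u v => ?_, ?_⟩
    · rw [Matrix.smul_mulVec, Matrix.smul_mulVec, hb.smul_left, hb.smul_right, hxx']
    · rw [← smul_add, hs, smul_smul, inv_mul_cancel₀ hs0, one_smul]
  have hpolar : ∀ u v, QuadraticMap.polar (fun v => f (k *ᵥ v) v) u v = f u v := by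
    intro u v
    simp only [QuadraticMap.polar]
    rw [Matrix.mulVec_add, hb.add_left, hb.add_right, hb.add_right]
    have h1 : f (k *ᵥ v) u = f (k' *ᵥ u) v := by rw [hkk', hsymm]
    have h3 : f u v = f (k *ᵥ u) v + f (k' *ᵥ u) v := by
      rw [← hb.add_left, ← Matrix.add_mulVec, hsum, Matrix.one_mulVec]
    rw [h1, h3]; ring
  have hpf : QuadraticMap.polar (fun v => f (k *ᵥ v) v) = f := by
    funext u v; exact hpolar u v
  refine ⟨fun v => f (k *ᵥ v) v, ⟨fun c v => ?_, ?_, ?_⟩, hpolar, ?_⟩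
  · rw [Matrix.mulVec_smul, hb.smul_left, hb.smul_right]; ring
  · rw [hpf]; exact hb
  · rw [hpf]; exact hf.nondegenerate
  · rintro g ⟨hgK, c, hc⟩
    refine ⟨c, fun v => ?_⟩
    simp only
    have hgg : ((g⁻¹ : GL ι F) : Matrix ι ι F) * (g : Matrix ι ι F) = 1 := by
      rw [← Units.val_mul, inv_mul_cancel, Units.val_one]
    have hgg' : (g : Matrix ι ι F) * ((g⁻¹ : GL ι F) : Matrix ι ι F) = 1 := by
      rw [← Units.val_mul, mul_inv_cancel, Units.val_one]
    have hconj : ∀ z : Matrix ι ι F, (g : Matrix ι ι F) *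
        (((g⁻¹ : GL ι F) : Matrix ι ι F) * z * (g : Matrix ι ι F)) * ((g⁻¹ : GL ι F) : Matrix ι ι F)
        = z := by
      intro z
      calc _ = ((g : Matrix ι ι F) * ((g⁻¹ : GL ι F) : Matrix ι ι F)) * z *
            ((g : Matrix ι ι F) * ((g⁻¹ : GL ι F) : Matrix ι ι F)) := by simp only [mul_assoc]
        _ = z := by rw [hgg', one_mul, mul_one]
    have hmem : ∀ z ∈ K, ((g⁻¹ : GL ι F) : Matrix ι ι F) * z * (g : Matrix ι ι F) ∈ K := by
      intro z hz
      rw [hgK, hconj]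
      exact hz
    have hgy : ∀ (z : Matrix ι ι F) (w : ι → F), (g : Matrix ι ι F) *ᵥ
        ((((g⁻¹ : GL ι F) : Matrix ι ι F) * z * (g : Matrix ι ι F)) *ᵥ w)
        = z *ᵥ ((g : Matrix ι ι F) *ᵥ w) := by
      intro z w
      rw [Matrix.mulVec_mulVec, Matrix.mulVec_mulVec, ← mul_assoc, ← mul_assoc, hgg', one_mul]
    set y := ((g⁻¹ : GL ι F) : Matrix ι ι F) * k * (g : Matrix ι ι F) with hy
    set y' := ((g⁻¹ : GL ι F) : Matrix ι ι F) * k' * (g : Matrix ι ι F) with hy'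
    have hc0 : (c : F) ≠ 0 := c.ne_zero
    have hyy' : ∀ u w, f (y *ᵥ u) w = f u (y' *ᵥ w) := by
      intro u w
      apply mul_left_cancel₀ hc0
      rw [← hc, ← hc, hgy, hgy, hkk']
    have hysum : y + y' = 1 := by
      rw [hy, hy', ← add_mul, ← mul_add, hsum, mul_one, hgg]
    obtain ⟨s', hs'⟩ := hscal (y + k) (K.add_mem (hmem k hk) hk) (fun u w => by
      have e1 : f u w = f u (y *ᵥ w) + f u (y' *ᵥ w) := by
        rw [← hb.add_right, ← Matrix.add_mulVec, hysum, Matrix.one_mulVec]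
      have e2 : f u w = f u (k *ᵥ w) + f u (k' *ᵥ w) := by
        rw [← hb.add_right, ← Matrix.add_mulVec, hsum, Matrix.one_mulVec]
      rw [Matrix.add_mulVec, Matrix.add_mulVec, hb.add_left, hb.add_right, hyy', hkk']
      have e3 := hadd (f u w)
      have e4 := hadd (f u (y *ᵥ w))
      have e5 := hadd (f u (k *ᵥ w))
      linear_combination e3 - e1 - e2 - e4 - e5)
    have h5 : f (y *ᵥ v) v + f (k *ᵥ v) v = 0 := by
      rw [← hb.add_left, ← Matrix.add_mulVec, hs', Matrix.smul_mulVec, Matrix.one_mulVec,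
        hb.smul_left, hf.alternating, mul_zero]
    have h6 : f (y *ᵥ v) v = f (k *ᵥ v) v := by
      rw [eq_neg_of_add_eq_zero_left h5, hneg]
    rw [← hgy, hc, h6]

end Cfsg.Agent.Lib.Helper80.AS
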