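import Cfsg.Agent.Lib.Helper80.AS.Defs12
import Cfsg.Agent.Lib.Helper80.AS.TSIGN
import Cfsg.Agent.Lib.Helper80.AS.TFORM
import Cfsg.Agent.Lib.Helper80.AS.TMEM
import Cfsg.Agent.Lib.Helper80.AS.TMUL
import Cfsg.Agent.Lib.Helper80.AS.UNIQ
import Cfsg.Agent.Lib.Helper80.AS.UQ

/-! Ladder ASCHS12, rung TQ2: in characteristic two the tensor product of two alternating forms is the polar form of a
quadratic form vanishing on the pure tensors. -/

set_option autoImplicit false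

namespace Cfsg.Agent.Lib.Helper80.AS

open Cfsg Cfsg.Geo
open Cfsg.Agent.Lib.Helper77.Asch (NormBy MinOver)
open scoped MatrixGroups Matrix Kronecker

variable {ι : Type} [Fintype ι] [DecidableEq ι] {F : Type*} [Field F]

/-- the strictly upper triangular part. -/
def tq2U {m : ℕ} (J : Matrix (Fin m) (Fin m) F) : Matrix (Fin m) (Fin m) F :=
  fun i j => if i < j then J i j else 0

theorem tq2U_add {m : ℕ} (J : Matrix (Fin m) (Fin m) F) (hs : Jᵀ = J) (hd : ∀ i, J i i = 0) :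
    tq2U J + (tq2U J)ᵀ = J := by
  ext i j
  have hji : J j i = J i j := congrFun (congrFun hs i) j
  rw [Matrix.add_apply, Matrix.transpose_apply]
  unfold tq2U
  rcases lt_trichotomy i j with h | h | h
  · rw [if_pos h, if_neg (not_lt.mpr h.le), add_zero]
  · subst h
    rw [if_neg (lt_irrefl _), add_zero, hd]
  · rw [if_neg (not_lt.mpr h.le), if_pos h, zero_add, hji]

theorem tq2_swap {κ : Type} [Fintype κ] (G : Matrix κ κ F) (x y : κ → F) :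
    y ⬝ᵥ (G *ᵥ x) = x ⬝ᵥ (Gᵀ *ᵥ y) := by
  rw [Matrix.mulVec_transpose, dotProduct_comm x, Matrix.dotProduct_mulVec]

/-- a symmetric matrix with zero diagonal is alternating in characteristic two. -/
theorem tq2_alt (h2 : (2 : F) = 0) {m : ℕ} (J : Matrix (Fin m) (Fin m) F) (hs : Jᵀ = J) (hd : ∀ i, J i i = 0)
    (v : Fin m → F) : v ⬝ᵥ (J *ᵥ v) = 0 := by
  rw [← tq2U_add J hs hd, Matrix.add_mulVec, dotProduct_add, ← tq2_swap, ← two_mul, h2, zero_mul]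

theorem tq2_kron_mulVec {s k : ℕ} (A : Matrix (Fin s) (Fin s) F) (B : Matrix (Fin k) (Fin k) F)
    (a : Fin s → F) (b : Fin k → F) :
    (A ⊗ₖ B) *ᵥ (fun p : Fin s × Fin k => a p.1 * b p.2) =
      fun p => (A *ᵥ a) p.1 * (B *ᵥ b) p.2 := by
  ext ⟨i, j⟩
  simp only [Matrix.mulVec, dotProduct, Matrix.kroneckerMap_apply, Fintype.sum_prod_type]
  rw [Finset.sum_mul_sum]
  refine Finset.sum_congr rfl fun i' _ => Finset.sum_congr rfl fun j' _ => by ring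

theorem tq2_dot {s k : ℕ} (a a' : Fin s → F) (b b' : Fin k → F) :
    (fun p : Fin s × Fin k => a p.1 * b p.2) ⬝ᵥ (fun p : Fin s × Fin k => a' p.1 * b' p.2) =
      (a ⬝ᵥ a') * (b ⬝ᵥ b') := by
  simp only [dotProduct, Fintype.sum_prod_type]
  rw [Finset.sum_mul_sum]
  refine Finset.sum_congr rfl fun i' _ => Finset.sum_congr rfl fun j' _ => by ring

/-- the quadratic form in coordinates. -/
def tq2Q {s k : ℕ} (J₁ : Matrix (Fin s) (Fin s) F) (J₂ : Matrix (Fin k) (Fin k) F) (x : Fin s × Fin k → F) : F :=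
  x ⬝ᵥ ((tq2U J₁ ⊗ₖ J₂) *ᵥ x)

theorem tq2Q_pure (h2 : (2 : F) = 0) {s k : ℕ} (J₁ : Matrix (Fin s) (Fin s) F) (J₂ : Matrix (Fin k) (Fin k) F)
    (hs : J₂ᵀ = J₂) (hd : ∀ i, J₂ i i = 0) (a : Fin s → F) (b : Fin k → F) :
    tq2Q J₁ J₂ (fun p : Fin s × Fin k => a p.1 * b p.2) = 0 := by
  unfold tq2Q
  rw [tq2_kron_mulVec, tq2_dot, tq2_alt h2 J₂ hs hd, mul_zero]

theorem tq2Q_add {s k : ℕ} (J₁ : Matrix (Fin s) (Fin s) F) (J₂ : Matrix (Fin k) (Fin k) F)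
    (hs1 : J₁ᵀ = J₁) (hd1 : ∀ i, J₁ i i = 0) (hs : J₂ᵀ = J₂) (x y : Fin s × Fin k → F) :
    tq2Q J₁ J₂ (x + y) = tq2Q J₁ J₂ x + tq2Q J₁ J₂ y + x ⬝ᵥ ((J₁ ⊗ₖ J₂) *ᵥ y) := by
  unfold tq2Q
  have h : (J₁ ⊗ₖ J₂) = (tq2U J₁ ⊗ₖ J₂) + (tq2U J₁ ⊗ₖ J₂)ᵀ := by
    rw [← Matrix.kroneckerMap_transpose, hs, ← Matrix.add_kronecker, tq2U_add J₁ hs1 hd1]
  rw [h, Matrix.add_mulVec, dotProduct_add, ← tq2_swap, Matrix.mulVec_add, add_dotProduct, dotProduct_add,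
    dotProduct_add]
  ring

theorem tq2Q_smul {s k : ℕ} (J₁ : Matrix (Fin s) (Fin s) F) (J₂ : Matrix (Fin k) (Fin k) F) (c : F)
    (x : Fin s × Fin k → F) : tq2Q J₁ J₂ (c • x) = c ^ 2 * tq2Q J₁ J₂ x := by
  unfold tq2Q
  rw [Matrix.mulVec_smul, smul_dotProduct, dotProduct_smul, smul_eq_mul, smul_eq_mul]
  ring

theorem quad_of_tensor_alt [Fintype F] [Nonempty ι] (h2 : ¬ Odd (Fintype.card F)) {s k : ℕ}
    (f : (ι → F) → (ι → F) → F) (hf : IsSymplecticForm f) (e : ι ≃ Fin s × Fin k) (P : GL ι F)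
    (J₁ : Matrix (Fin s) (Fin s) F) (J₂ : Matrix (Fin k) (Fin k) F) (hJ : GramTensor f e P J₁ J₂)
    (h1 : ∀ i, J₁ i i = 0) (h2' : ∀ i, J₂ i i = 0) :
    ∃ Q : (ι → F) → F, IsNondegenerateQuadraticForm Q ∧ (∀ u v, QuadraticMap.polar Q u v = f u v) ∧
      tensorProductSubgroup s k e P ⊓ similarityGroup f ≤ quadSimilarityGroup Q := by
  classical
  have h2F : (2 : F) = 0 := uq_two_eq_zero h2
  have hneg : ∀ {m : ℕ} (M : Matrix (Fin m) (Fin m) F), -M = M := by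
    intro m M
    ext i j
    have : M i j + M i j = 0 := by rw [← two_mul, h2F, zero_mul]
    rw [Matrix.neg_apply]
    linear_combination -this
  obtain ⟨-, -, hsg⟩ := tensor_sign f hf e P J₁ J₂ hJ
  have hs1 : J₁ᵀ = J₁ := by
    rcases hsg with ⟨h, -⟩ | ⟨h, -⟩
    · exact h
    · rw [h, hneg]
  have hs2 : J₂ᵀ = J₂ := by
    rcases hsg with ⟨-, h⟩ | ⟨-, h⟩
    · rw [h, hneg]
    · exact h
  have hform : ∀ x y : Fin s × Fin k → F, formOfGram id (J₁ ⊗ₖ J₂) x y = x ⬝ᵥ ((J₁ ⊗ₖ J₂) *ᵥ y) := by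
    intro x y
    rw [tsign_mulVec]
    rfl
  let Q : (ι → F) → F := fun w => tq2Q J₁ J₂ ((((P⁻¹ : GL ι F) : Matrix ι ι F) *ᵥ w) ∘ e.symm)
  have hQ : ∀ x : Fin s × Fin k → F, Q ((P : Matrix ι ι F) *ᵥ (x ∘ e)) = tq2Q J₁ J₂ x := by
    intro x
    change tq2Q J₁ J₂ _ = _
    rw [Matrix.mulVec_mulVec, tmul_inv_mul, Matrix.one_mulVec]
    congr 1
    funext p
    simp
  have hpolar : ∀ u v, QuadraticMap.polar Q u v = f u v := by
    intro u v
    obtain ⟨x, rfl⟩ := tform_surj e P u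
    obtain ⟨y, rfl⟩ := tform_surj e P v
    have hadd : (P : Matrix ι ι F) *ᵥ (x ∘ e) + (P : Matrix ι ι F) *ᵥ (y ∘ e) =
        (P : Matrix ι ι F) *ᵥ ((x + y) ∘ e) := by
      rw [← Matrix.mulVec_add]
      rfl
    unfold QuadraticMap.polar
    rw [hadd, hQ, hQ, hQ, tq2Q_add J₁ J₂ hs1 h1 hs2, hJ, hform]
    ring
  have hpe : QuadraticMap.polar Q = f := by
    funext u v
    exact hpolar u v
  refine ⟨Q, ⟨?_, ?_, ?_⟩, hpolar, ?_⟩
  · intro c w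
    obtain ⟨x, rfl⟩ := tform_surj e P w
    have hsm : c • ((P : Matrix ι ι F) *ᵥ (x ∘ e)) = (P : Matrix ι ι F) *ᵥ ((c • x) ∘ e) := by
      rw [← Matrix.mulVec_smul]
      rfl
    rw [hsm, hQ, hQ, tq2Q_smul]
  · rw [hpe]
    exact hf.bilinear
  · rw [hpe]
    exact hf.nondegenerate
  · rintro g ⟨hgt, c, hc⟩
    obtain ⟨a, b, hab⟩ := (mem_tensor_iff e P g).mp hgt
    set X : Matrix (Fin s × Fin k) (Fin s × Fin k) F :=
      (a : Matrix (Fin s) (Fin s) F) ⊗ₖ (b : Matrix (Fin k) (Fin k) F) with hX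
    have hB : ∀ x y : Fin s × Fin k → F,
        (X *ᵥ x) ⬝ᵥ ((J₁ ⊗ₖ J₂) *ᵥ (X *ᵥ y)) = (c : F) * (x ⬝ᵥ ((J₁ ⊗ₖ J₂) *ᵥ y)) := by
      intro x y
      rw [← hform, ← hJ, ← tmat_mulVec, ← tmat_mulVec, ← hab, hc, hJ, hform]
    let D : (Fin s × Fin k → F) →+ F := AddMonoidHom.mk' (fun x => tq2Q J₁ J₂ (X *ᵥ x) - (c : F) * tq2Q J₁ J₂ x) (by
      intro x y
      rw [Matrix.mulVec_add, tq2Q_add J₁ J₂ hs1 h1 hs2, tq2Q_add J₁ J₂ hs1 h1 hs2, hB]
      ring)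
    have hD : ∀ x, D x = tq2Q J₁ J₂ (X *ᵥ x) - (c : F) * tq2Q J₁ J₂ x := fun x => rfl
    have hD0 : ∀ x, D x = 0 := by
      intro x
      rw [← Finset.univ_sum_single x, map_sum]
      apply Finset.sum_eq_zero
      rintro ⟨i, j⟩ -
      have hp : (Pi.single (i, j) (x (i, j)) : Fin s × Fin k → F) =
          fun p : Fin s × Fin k => (Pi.single i (x (i, j)) : Fin s → F) p.1 * (Pi.single j 1 : Fin k → F) p.2 := by
        funext ⟨i', j'⟩
        by_cases hi : i' = i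
        · subst hi
          by_cases hj : j' = j
          · subst hj
            simp
          · have : (i', j') ≠ (i', j) := fun h => hj (Prod.ext_iff.mp h).2
            simp [Pi.single_eq_of_ne this, Pi.single_eq_of_ne hj]
        · have : (i', j') ≠ (i, j) := fun h => hi (Prod.ext_iff.mp h).1
          simp [Pi.single_eq_of_ne this, Pi.single_eq_of_ne hi]
      rw [hD, hp, hX, tq2_kron_mulVec, tq2Q_pure h2F J₁ J₂ hs2 h2', tq2Q_pure h2F J₁ J₂ hs2 h2', mul_zero, sub_zero]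
    refine ⟨c, ?_⟩
    intro w
    obtain ⟨x, rfl⟩ := tform_surj e P w
    rw [hab, tmat_mulVec, hQ, hQ]
    have := hD0 x
    rw [hD] at this
    exact sub_eq_zero.mp this

end Cfsg.Agent.Lib.Helper80.AS
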