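import Cfsg.Agent.Lib.Helper80.AS.Defs

set_option autoImplicit false

namespace Cfsg.Agent.Lib.Helper80.AS

open Cfsg Cfsg.Geo
open Cfsg.Agent.Lib.Helper77.Asch (NormBy MinOver)
open scoped MatrixGroups Matrix Kronecker

variable {ι : Type} [Fintype ι] [DecidableEq ι] {F : Type*} [Field F]

/-- ENVS. -/
theorem le_scalars_of_env (N : Subgroup (GL ι F)) (h : IsScal (env N)) : N ≤ scalars ι F := by
  intro g hg
  rw [mem_scalars_iff]
  have hmem : (g : Matrix ι ι F) ∈ env N := Algebra.subset_adjoin ⟨g, hg, rfl⟩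
  obtain ⟨c, hc⟩ := h _ hmem
  by_cases hc0 : c = 0
  · -- then the matrix ring is trivial
    have h0 : (g : Matrix ι ι F) = 0 := by rw [hc, hc0, zero_smul]
    have h1 : (1 : Matrix ι ι F) = 0 := by
      rw [← Units.val_one, ← mul_inv_cancel g, Units.val_mul, h0, zero_mul]
    refine ⟨1, ?_⟩
    rw [h0, h1, smul_zero]
  · exact ⟨Units.mk0 c hc0, by rw [hc]; rfl⟩

theorem envs_inv (N : Subgroup (GL ι F)) (W : Submodule F (ι → F))
    (hW : ∀ s ∈ matrixSet N, W.map (Matrix.toLin' s) ≤ W) {k : Matrix ι ι F} (hk : k ∈ env N) :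
    ∀ w ∈ W, k *ᵥ w ∈ W := by
  unfold env at hk
  induction hk using Algebra.adjoin_induction with
  | mem x hx =>
    intro w hw
    have := hW x hx (Submodule.mem_map_of_mem hw)
    rwa [Matrix.toLin'_apply] at this
  | algebraMap r =>
    intro w hw
    rw [Algebra.algebraMap_eq_smul_one, Matrix.smul_mulVec, Matrix.one_mulVec]
    exact W.smul_mem r hw
  | add x y _ _ hx hy =>
    intro w hw
    rw [Matrix.add_mulVec]
    exact W.add_mem (hx w hw) (hy w hw)
  | mul x y _ _ hx hy =>
    intro w hw
    rw [← Matrix.mulVec_mulVec]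
    exact hx _ (hy w hw)

theorem envs_comm (N : Subgroup (GL ι F)) (M : Matrix ι ι F)
    (hM : ∀ s ∈ matrixSet N, M * s = s * M) {k : Matrix ι ι F} (hk : k ∈ env N) :
    M * k = k * M := by
  unfold env at hk
  induction hk using Algebra.adjoin_induction with
  | mem x hx => exact hM x hx
  | algebraMap r => exact (Algebra.commutes r M).symm
  | add x y _ _ hx hy => rw [mul_add, add_mul, hx, hy]
  | mul x y _ _ hx hy => rw [← mul_assoc, hx, mul_assoc, hy, mul_assoc]

/-- ENVS. -/
theorem absIrr_of_env_top (N : Subgroup (GL ι F)) (h : env N = ⊤) :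
    ActsAbsolutelyIrreducibly (matrixSet N) := by
  constructor
  · intro W hW
    by_cases hbot : W = ⊥
    · left; exact hbot
    · right
      obtain ⟨w, hw, hw0⟩ := (Submodule.ne_bot_iff W).1 hbot
      obtain ⟨i, hi⟩ : ∃ i, w i ≠ 0 := by
        by_contra hcon
        apply hw0
        funext i
        by_contra hne
        exact hcon ⟨i, hne⟩
      rw [eq_top_iff]
      intro v _
      have hk : Matrix.vecMulVec v (Pi.single i (w i)⁻¹) ∈ env N := by rw [h]; trivial
      have := envs_inv N W hW hk w hw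
      rw [Matrix.vecMulVec_mulVec] at this
      have e : (Pi.single i (w i)⁻¹ : ι → F) ⬝ᵥ w = 1 := by
        rw [single_dotProduct, inv_mul_cancel₀ hi]
      rw [e] at this
      simpa using this
  · intro M hM
    have hall : ∀ k : Matrix ι ι F, M * k = k * M := by
      intro k
      exact envs_comm N M hM (by rw [h]; trivial)
    have : M ∈ Set.range (Matrix.scalar ι) := by
      apply Matrix.mem_range_scalar_of_commute_single
      intro i j _
      exact (hall _).symm
    obtain ⟨c, rfl⟩ := this
    exact ⟨c, by rw [Matrix.scalar_apply, Matrix.smul_one_eq_diagonal]⟩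

end Cfsg.Agent.Lib.Helper80.AS
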