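import Cfsg.Agent.Lib.Helper80.AS.Defs
import Cfsg.Agent.Lib.Helper99.AltDerange

/-! Ladder ASCHS, rung EVENW: a non-degenerate subspace of a symplectic space has even dimension. -/

set_option autoImplicit false

namespace Cfsg.Agent.Lib.Helper80.AS

open Cfsg Cfsg.Geo
open scoped MatrixGroups Matrix Kronecker

variable {ι : Type} [Fintype ι] [DecidableEq ι] {F : Type*} [Field F]

/-- the bilinear form of Mathlib attached to a bilinear `f`. -/
def evenwB (f : (ι → F) → (ι → F) → F) (hf : IsBilinearForm f) : LinearMap.BilinForm F (ι → F) :=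
  LinearMap.mk₂ F f hf.add_left (fun c x v => by simpa using hf.smul_left c x v) hf.add_right
    (fun c v x => by simpa using hf.smul_right c v x)

omit [Fintype ι] [DecidableEq ι] in
theorem evenwB_apply (f : (ι → F) → (ι → F) → F) (hf : IsBilinearForm f) (u v : ι → F) :
    evenwB f hf u v = f u v := rfl

/-- EVENW. -/
theorem even_finrank_of_nondeg (f : (ι → F) → (ι → F) → F) (hf : IsSymplecticForm f)
    (W : Submodule F (ι → F)) (hW : IsNondegenerateOn f W) : Even (Module.finrank F W) := by
  have hB : (evenwB f hf.bilinear).IsAlt := fun v => hf.alternating v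
  have hnd : Cfsg.Agent.Lib.Helper99.NondegOn (evenwB f hf.bilinear) W := by
    intro v hvW hv
    obtain ⟨_, y, hyW, hy⟩ := hW v hvW hv
    exact ⟨y, hyW, hy⟩
  exact Cfsg.Agent.Lib.Helper99.even_finrank_of_nondegOn hB hnd

end Cfsg.Agent.Lib.Helper80.AS
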