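import Cfsg.Agent.Lib.Helper80.AS.Defs
import Cfsg.Agent.Lib.Helper11.AschO.GRED

/-! Ladder ASCHS (helper80), rung RED (helper1): same statement as the ASCHO port. -/

set_option autoImplicit false

namespace Cfsg.Agent.Lib.Helper80.AS

open Cfsg Cfsg.Geo
open Cfsg.Agent.Lib.Helper77.Asch (NormBy MinOver)
open scoped MatrixGroups Matrix Kronecker

variable {ι : Type} [Fintype ι] [DecidableEq ι] {F : Type*} [Field F]

theorem red (H : Subgroup (GL ι F)) (h : ¬ ActsIrreducibly (matrixSet H)) :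
    ∃ W : Submodule F (ι → F), W ≠ ⊥ ∧ W ≠ ⊤ ∧ H ≤ subspaceStabilizer W :=
  Cfsg.Agent.Lib.Helper11.AschO.red H h

end Cfsg.Agent.Lib.Helper80.AS
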