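import Cfsg.Agent.Lib.Helper80.AS.Defs
import Cfsg.Agent.Lib.Helper80.AS.RED
import Cfsg.Agent.Lib.Helper80.AS.EVENW

/-! Ladder ASCHS, rung T0: the reducible case. -/

set_option autoImplicit false

namespace Cfsg.Agent.Lib.Helper80.AS

open Cfsg Cfsg.Geo
open scoped MatrixGroups Matrix Kronecker

variable {ι : Type} [Fintype ι] [DecidableEq ι] {F : Type*} [Field F]

theorem t0_mem_stab (W : Submodule F (ι → F)) (g : GL ι F) :
    g ∈ subspaceStabilizer W ↔ ∀ v, v ∈ W ↔ (g : Matrix ι ι F) *ᵥ v ∈ W := Iff.rfl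

/-- the orthogonal complement. -/
def t0perp (f : (ι → F) → (ι → F) → F) (hf : IsBilinearForm f) (W : Submodule F (ι → F)) :
    Submodule F (ι → F) :=
  LinearMap.BilinForm.orthogonal (evenwB f hf) W

omit [Fintype ι] [DecidableEq ι] in
theorem t0_mem_perp (f : (ι → F) → (ι → F) → F) (hf : IsBilinearForm f) (W : Submodule F (ι → F))
    (v : ι → F) : v ∈ t0perp f hf W ↔ ∀ n ∈ W, f n v = 0 := by
  unfold t0perp
  rw [LinearMap.BilinForm.mem_orthogonal_iff]
  rfl

theorem t0_inv_mulVec (g : GL ι F) (v : ι → F) :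
    (g : Matrix ι ι F) *ᵥ (((g⁻¹ : GL ι F) : Matrix ι ι F) *ᵥ v) = v := by
  rw [Matrix.mulVec_mulVec, ← Units.val_mul, mul_inv_cancel, Units.val_one, Matrix.one_mulVec]

theorem t0_stab_perp (f : (ι → F) → (ι → F) → F) (hf : IsBilinearForm f) (H : Subgroup (GL ι F))
    (hH : H ≤ similarityGroup f) (W : Submodule F (ι → F)) (hW : H ≤ subspaceStabilizer W) :
    H ≤ subspaceStabilizer (t0perp f hf W) := by
  intro g hg
  rw [t0_mem_stab]
  obtain ⟨c, hc⟩ := hH hg
  have hgW := (t0_mem_stab W g).mp (hW hg)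
  have hgW' := (t0_mem_stab W g⁻¹).mp (hW (H.inv_mem hg))
  intro v
  rw [t0_mem_perp, t0_mem_perp]
  constructor
  · intro h n hn
    have h1 := h _ ((hgW' n).mp hn)
    have h2 := hc (((g⁻¹ : GL ι F) : Matrix ι ι F) *ᵥ n) v
    rw [t0_inv_mulVec, h1, mul_zero] at h2
    exact h2
  · intro h n hn
    have h1 := h _ ((hgW n).mp hn)
    rw [hc] at h1
    exact (mul_eq_zero.1 h1).resolve_left c.ne_zero

theorem t0_stab_inf (H : Subgroup (GL ι F)) (W W' : Submodule F (ι → F)) (hW : H ≤ subspaceStabilizer W)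
    (hW' : H ≤ subspaceStabilizer W') : H ≤ subspaceStabilizer (W ⊓ W') := by
  intro g hg
  rw [t0_mem_stab]
  intro v
  rw [Submodule.mem_inf, Submodule.mem_inf, ← (t0_mem_stab W g).mp (hW hg) v,
    ← (t0_mem_stab W' g).mp (hW' hg) v]

omit [Fintype ι] [DecidableEq ι] in
theorem t0_nondegB (f : (ι → F) → (ι → F) → F) (hf : IsSymplecticForm f) :
    (evenwB f hf.bilinear).Nondegenerate := by
  constructor
  · intro x hx
    by_contra hx0
    obtain ⟨_, y, hy⟩ := hf.nondegenerate x hx0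
    exact hy (hx y)
  · intro y hy
    by_contra hy0
    obtain ⟨⟨x, hx⟩, _⟩ := hf.nondegenerate y hy0
    exact hx (hy x)

omit [Fintype ι] [DecidableEq ι] in
theorem t0_isRefl (f : (ι → F) → (ι → F) → F) (hf : IsSymplecticForm f) :
    (evenwB f hf.bilinear).IsRefl := by
  intro x y h
  have h' : f x y = 0 := h
  show f y x = 0
  rw [hf.skew, h', neg_zero]

omit [Fintype ι] [DecidableEq ι] in
theorem t0_nondeg (f : (ι → F) → (ι → F) → F) (hf : IsSymplecticForm f) (W : Submodule F (ι → F))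
    (h : W ⊓ t0perp f hf.bilinear W = ⊥) : IsNondegenerateOn f W := by
  intro w hw hw0
  have key : ∃ x ∈ W, f x w ≠ 0 := by
    by_contra hcon
    push Not at hcon
    have : w ∈ W ⊓ t0perp f hf.bilinear W := ⟨hw, (t0_mem_perp f hf.bilinear W w).mpr hcon⟩
    rw [h, Submodule.mem_bot] at this
    exact hw0 this
  obtain ⟨x, hx, hxw⟩ := key
  refine ⟨⟨x, hx, hxw⟩, ⟨x, hx, ?_⟩⟩
  rw [hf.skew]
  exact neg_ne_zero.2 hxw

/-- T0. -/
theorem red_cases [Fintype F] (m : ℕ) (hm : Odd m) (hcard : Fintype.card ι = 2 * m)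
    (f : (ι → F) → (ι → F) → F) (hf : IsSymplecticForm f) (Γ : Subgroup (GL ι F))
    (hΓ : Γ ≤ similarityGroup f) (h : ¬ ActsIrreducibly (matrixSet Γ)) : InGeoS m f Γ := by
  classical
  obtain ⟨W, hW0, hWtop, hWΓ⟩ := red Γ h
  set Wp := t0perp f hf.bilinear W with hWp
  have hWpΓ : Γ ≤ subspaceStabilizer Wp := t0_stab_perp f hf.bilinear Γ hΓ W hWΓ
  by_cases hR : W ⊓ Wp = ⊥
  · have hnW : IsNondegenerateOn f W := t0_nondeg f hf W hR
    have hpp : t0perp f hf.bilinear Wp = W :=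
      LinearMap.BilinForm.orthogonal_orthogonal (t0_nondegB f hf) (t0_isRefl f hf) W
    have hnWp : IsNondegenerateOn f Wp := by
      apply t0_nondeg f hf Wp
      rw [hpp, inf_comm]; exact hR
    have h1 : Module.finrank F Wp = Module.finrank F (ι → F) - Module.finrank F W :=
      LinearMap.BilinForm.finrank_orthogonal (t0_nondegB f hf) W
    have h2 : Module.finrank F W < Module.finrank F (ι → F) := Submodule.finrank_lt hWtop
    rw [Module.finrank_fintype_fun_eq_card, hcard] at h1 h2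
    have e1 : Even (Module.finrank F W) := even_finrank_of_nondeg f hf W hnW
    have hne : Module.finrank F W ≠ m := by
      intro he
      rw [he] at e1
      exact (Nat.not_even_iff_odd.2 hm) e1
    rcases lt_or_gt_of_ne hne with hlt | hgt
    · exact Or.inr (Or.inl ⟨W, hW0, hnW, hlt, hWΓ⟩)
    · refine Or.inr (Or.inl ⟨Wp, ?_, hnWp, by omega, hWpΓ⟩)
      intro hbot
      rw [hbot, finrank_bot] at h1
      omega
  · refine Or.inl ⟨W ⊓ Wp, hR, ?_, t0_stab_inf Γ W Wp hWΓ hWpΓ⟩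
    intro u hu v hv
    exact (t0_mem_perp f hf.bilinear W v).1 hv.2 u hu.1

end Cfsg.Agent.Lib.Helper80.AS
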