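import Cfsg.Agent.Lib.Helper80.AS.Defs

set_option autoImplicit false

namespace Cfsg.Agent.Lib.Helper80.AS

open Cfsg Cfsg.Geo
open Cfsg.Agent.Lib.Helper77.Asch (NormBy MinOver)
open scoped MatrixGroups Matrix Kronecker

variable {ι : Type} [Fintype ι] [DecidableEq ι] {F : Type*} [Field F]

/-- SCR.  A line is invariant under scalars. -/
theorem not_irr_scalars (h : 2 ≤ Fintype.card ι) : ¬ ActsIrreducibly (matrixSet (scalars ι F)) := by
  intro hirr
  have hinv : ∀ W : Submodule F (ι → F), ∀ s ∈ matrixSet (scalars ι F),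
      W.map (Matrix.toLin' s) ≤ W := by
    rintro W _ ⟨g, hg, rfl⟩
    obtain ⟨c, hc⟩ := (mem_scalars_iff g).1 hg
    rintro _ ⟨v, hv, rfl⟩
    simp only [hc, Matrix.toLin'_apply, Matrix.smul_mulVec, Matrix.one_mulVec]
    exact W.smul_mem _ hv
  obtain ⟨i₀⟩ : Nonempty ι := by
    rw [← Fintype.card_pos_iff]
    omega
  let e : ι → F := Pi.single i₀ 1
  have he : e ≠ 0 := by
    intro h
    have := congrFun h i₀
    simp [e] at this
  rcases hirr (Submodule.span F {e}) (hinv _) with h' | h'
  · rw [Submodule.span_singleton_eq_bot] at h'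
    exact he h'
  · have h1 := finrank_span_singleton (K := F) he
    rw [h', finrank_top, Module.finrank_fintype_fun_eq_card] at h1
    omega

end Cfsg.Agent.Lib.Helper80.AS
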