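import Cfsg.Agent.Lib.Helper80.AS.Defs12
import Cfsg.Agent.Lib.Helper80.AS.T0

/-! Ladder ASCHS12, rung T0X: the reducible case in dimension 12. -/

set_option autoImplicit false

namespace Cfsg.Agent.Lib.Helper80.AS

open Cfsg Cfsg.Geo
open scoped MatrixGroups Matrix Kronecker

variable {ι : Type} [Fintype ι] [DecidableEq ι] {F : Type*} [Field F]

theorem t0x_map_eq (W : Submodule F (ι → F)) (g : GL ι F) (hg : g ∈ subspaceStabilizer W) :
    W.map (Matrix.toLin' (g : Matrix ι ι F)) = W := by
  have h := (t0_mem_stab W g).mp hg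
  ext v
  rw [Submodule.mem_map]
  constructor
  · rintro ⟨w, hw, rfl⟩
    rw [Matrix.toLin'_apply]
    exact (h w).mp hw
  · intro hv
    refine ⟨((g⁻¹ : GL ι F) : Matrix ι ι F) *ᵥ v, ?_, ?_⟩
    · rw [h, t0_inv_mulVec]; exact hv
    · rw [Matrix.toLin'_apply, t0_inv_mulVec]

theorem t0x_pair (f : (ι → F) → (ι → F) → F) (hf : IsSymplecticForm f) (m : ℕ) (hm : 0 < m)
    (W W' : Submodule F (ι → F)) (hcard : Fintype.card ι = m + m)
    (h1 : Module.finrank F W = m) (h2 : Module.finrank F W' = m) (hd : W ⊓ W' = ⊥)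
    (hn1 : IsNondegenerateOn f W) (hn2 : IsNondegenerateOn f W')
    (ho : ∀ u ∈ W, ∀ v ∈ W', f u v = 0) :
    IsNondegenerateMDecomposition f m (![W, W'] : Fin 2 → Submodule F (ι → F)) := by
  have hdis : Disjoint W W' := disjoint_iff.mpr hd
  refine ⟨⟨le_refl _, hm, ?_, ?_, ?_⟩, ?_, ?_⟩
  · intro i
    fin_cases i
    · exact h1
    · exact h2
  · rw [iSupIndep_def]
    intro i
    fin_cases i
    · refine hdis.mono_right ?_
      refine iSup_le fun j => iSup_le fun hj => ?_
      fin_cases j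
      · exact absurd rfl hj
      · exact le_refl _
    · refine hdis.symm.mono_right ?_
      refine iSup_le fun j => iSup_le fun hj => ?_
      fin_cases j
      · exact le_refl _
      · exact absurd rfl hj
  · have hsup : W ⊔ W' = ⊤ := by
      apply Submodule.eq_top_of_finrank_eq
      have := Submodule.finrank_sup_add_finrank_inf_eq W W'
      rw [hd, finrank_bot, h1, h2] at this
      rw [Module.finrank_fintype_fun_eq_card, hcard]
      omega
    rw [eq_top_iff, ← hsup]
    exact sup_le (le_iSup (![W, W'] : Fin 2 → Submodule F (ι → F)) 0)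
      (le_iSup (![W, W'] : Fin 2 → Submodule F (ι → F)) 1)
  · intro i
    fin_cases i
    · exact hn1
    · exact hn2
  · intro i j hij
    fin_cases i <;> fin_cases j
    · exact absurd rfl hij
    · exact ho
    · intro u hu v hv
      rw [hf.skew, ho v hv u hu, neg_zero]
    · exact absurd rfl hij

/-- T0X. -/
theorem red_cases12 [Fintype F] (hcard : Fintype.card ι = 12)
    (f : (ι → F) → (ι → F) → F) (hf : IsSymplecticForm f) (Γ : Subgroup (GL ι F))
    (hΓ : Γ ≤ similarityGroup f) (h : ¬ ActsIrreducibly (matrixSet Γ)) : InGeo12 f Γ := by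
  classical
  obtain ⟨W, hW0, hWtop, hWΓ⟩ := red Γ h
  set Wp := t0perp f hf.bilinear W with hWp
  have hWpΓ : Γ ≤ subspaceStabilizer Wp := t0_stab_perp f hf.bilinear Γ hΓ W hWΓ
  by_cases hR : W ⊓ Wp = ⊥
  · have hnW : IsNondegenerateOn f W := t0_nondeg f hf W hR
    have hpp : t0perp f hf.bilinear Wp = W :=
      LinearMap.BilinForm.orthogonal_orthogonal (t0_nondegB f hf) (t0_isRefl f hf) W
    have hnWp : IsNondegenerateOn f Wp := by
      apply t0_nondeg f hf Wp
      rw [hpp, inf_comm]; exact hR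
    have h1 : Module.finrank F Wp = Module.finrank F (ι → F) - Module.finrank F W :=
      LinearMap.BilinForm.finrank_orthogonal (t0_nondegB f hf) W
    have h2 : Module.finrank F W < Module.finrank F (ι → F) := Submodule.finrank_lt hWtop
    rw [Module.finrank_fintype_fun_eq_card, hcard] at h1 h2
    rcases lt_trichotomy (Module.finrank F W) 6 with hlt | heq | hgt
    · exact Or.inr (Or.inl ⟨W, hW0, hnW, hlt, hWΓ⟩)
    · refine Or.inr (Or.inr (Or.inr (Or.inr (Or.inl ⟨![W, Wp], ?_, ?_⟩))))
      · exact t0x_pair f hf 6 (by norm_num) W Wp hcard heq (by omega) hR hnW hnWp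
          (fun u hu v hv => (t0_mem_perp f hf.bilinear W v).1 hv u hu)
      · intro g hg
        refine ⟨1, fun i => ?_⟩
        fin_cases i
        · exact t0x_map_eq W g (hWΓ hg)
        · exact t0x_map_eq Wp g (hWpΓ hg)
    · refine Or.inr (Or.inl ⟨Wp, ?_, hnWp, by omega, hWpΓ⟩)
      intro hbot
      rw [hbot, finrank_bot] at h1
      omega
  · refine Or.inl ⟨W ⊓ Wp, hR, ?_, t0_stab_inf Γ W Wp hWΓ hWpΓ⟩
    intro u hu v hv
    exact (t0_mem_perp f hf.bilinear W v).1 hv.2 u hu.1

end Cfsg.Agent.Lib.Helper80.AS
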