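import Cfsg.Agent.Lib.Helper80.AS.Defs

set_option autoImplicit false

namespace Cfsg.Agent.Lib.Helper80.AS

open Cfsg Cfsg.Geo
open Cfsg.Agent.Lib.Helper77.Asch (NormBy MinOver)
open scoped MatrixGroups Matrix Kronecker

variable {ι : Type} [Fintype ι] [DecidableEq ι] {F : Type*} [Field F]

theorem ca1_common (E : Subalgebra F (Matrix ι ι F)) (hc : IsComm E) (S : Submodule F (ι → F)) :
    S ≠ ⊥ → (∀ y ∈ E, S.map (Matrix.toLin' y) ≤ S) →
    ∃ v ∈ S, v ≠ 0 ∧ ∀ y ∈ E, (∃ k : ℕ, y ^ k = 0) → y *ᵥ v = 0 := by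
  induction S using WellFoundedLT.induction with
  | ind S ih =>
    intro hS hinv
    by_cases hall : ∀ y ∈ E, (∃ k : ℕ, y ^ k = 0) → ∀ v ∈ S, y *ᵥ v = 0
    · obtain ⟨v, hv, hv0⟩ := (Submodule.ne_bot_iff S).1 hS
      exact ⟨v, hv, hv0, fun y hy hk => hall y hy hk v hv⟩
    · push Not at hall
      obtain ⟨y, hy, ⟨k, hk⟩, v, hv, hyv⟩ := hall
      have hle := hinv y hy
      have hlt : S.map (Matrix.toLin' y) < S := by
        refine lt_of_le_of_ne hle ?_
        intro heq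
        have hj : ∀ j : ℕ, S.map (Matrix.toLin' (y ^ j)) = S := by
          intro j
          induction j with
          | zero => simp
          | succ j ihj => rw [pow_succ, Matrix.toLin'_mul, Submodule.map_comp, heq, ihj]
        have h0 := hj k
        rw [hk, map_zero, Submodule.map_zero] at h0
        exact hS h0.symm
      have hne : S.map (Matrix.toLin' y) ≠ ⊥ := by
        rw [Submodule.ne_bot_iff]
        exact ⟨y *ᵥ v, ⟨v, hv, Matrix.toLin'_apply y v⟩, hyv⟩
      have hinv' : ∀ z ∈ E, (S.map (Matrix.toLin' y)).map (Matrix.toLin' z) ≤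
          S.map (Matrix.toLin' y) := by
        intro z hz
        rw [← Submodule.map_comp, ← Matrix.toLin'_mul, hc z hz y hy, Matrix.toLin'_mul,
          Submodule.map_comp]
        exact Submodule.map_mono (hinv z hz)
      obtain ⟨w, hw, hw0, hw'⟩ := ih _ hlt hne hinv'
      exact ⟨w, hle hw, hw0, hw'⟩

/-- CA1. -/
theorem no_nilpotent (Γ : Subgroup (GL ι F)) (hirr : ActsIrreducibly (matrixSet Γ))
    (E : Subalgebra F (Matrix ι ι F)) (hc : IsComm E) (hn : Γ ≤ subalgebraNormalizer E)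
    (x : Matrix ι ι F) (hx : x ∈ E) (k : ℕ) (hk : x ^ k = 0) : x = 0 := by
  let U : Submodule F (ι → F) :=
    { carrier := {v | ∀ y ∈ E, (∃ k : ℕ, y ^ k = 0) → y *ᵥ v = 0}
      add_mem' := by
        intro a b ha hb y hy hk
        rw [Matrix.mulVec_add, ha y hy hk, hb y hy hk, add_zero]
      zero_mem' := by
        intro y _ _
        exact Matrix.mulVec_zero y
      smul_mem' := by
        intro c a ha y hy hk
        rw [Matrix.mulVec_smul, ha y hy hk, smul_zero] }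
  have hUmem : ∀ v, v ∈ U ↔ ∀ y ∈ E, (∃ k : ℕ, y ^ k = 0) → y *ᵥ v = 0 := fun v => Iff.rfl
  have hUinv : ∀ s ∈ matrixSet Γ, U.map (Matrix.toLin' s) ≤ U := by
    rintro _ ⟨g, hg, rfl⟩ _ ⟨v, hv, rfl⟩
    rw [hUmem]
    rintro y hy ⟨j, hj⟩
    have h1 : ((g⁻¹ : GL ι F) : Matrix ι ι F) * y * (((g⁻¹)⁻¹ : GL ι F) : Matrix ι ι F) ∈ E :=
      (hn (Γ.inv_mem hg) y).1 hy
    have h2 : (((g⁻¹ : GL ι F) : Matrix ι ι F) * y * (((g⁻¹)⁻¹ : GL ι F) : Matrix ι ι F)) ^ j
        = 0 := by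
      rw [Units.conj_pow, hj, mul_zero, zero_mul]
    have h3 := (hUmem v).1 hv _ h1 ⟨j, h2⟩
    rw [inv_inv] at h3
    have h4 : y * (g : Matrix ι ι F) =
        (g : Matrix ι ι F) * (((g⁻¹ : GL ι F) : Matrix ι ι F) * y * (g : Matrix ι ι F)) := by
      rw [← mul_assoc, ← mul_assoc, Units.mul_inv, one_mul]
    rw [Matrix.toLin'_apply, Matrix.mulVec_mulVec, h4, ← Matrix.mulVec_mulVec, h3,
      Matrix.mulVec_zero]
  have hUtop : U = ⊤ := by
    rcases hirr U hUinv with h | h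
    · by_cases htb : (⊤ : Submodule F (ι → F)) = ⊥
      · rw [h, htb]
      · exfalso
        obtain ⟨v, -, hv0, hv⟩ := ca1_common E hc ⊤ htb (fun _ _ => le_top)
        have hvU : v ∈ U := hv
        rw [h, Submodule.mem_bot] at hvU
        exact hv0 hvU
    · exact h
  have hx0 : Matrix.toLin' x = 0 := by
    apply LinearMap.ext
    intro v
    have hv : v ∈ U := by
      rw [hUtop]
      exact Submodule.mem_top
    rw [Matrix.toLin'_apply]
    exact hv x hx ⟨k, hk⟩
  exact (LinearEquiv.map_eq_zero_iff _).1 hx0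

end Cfsg.Agent.Lib.Helper80.AS
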