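import Cfsg.Agent.Lib.Helper80.AS.Defs

set_option autoImplicit false

namespace Cfsg.Agent.Lib.Helper80.AS

open Cfsg Cfsg.Geo
open Cfsg.Agent.Lib.Helper77.Asch (NormBy MinOver)
open scoped MatrixGroups Matrix Kronecker

variable {ι : Type} [Fintype ι] [DecidableEq ι] {F : Type*} [Field F]

theorem ca2_idem {M : Type*} [Monoid M] [Finite M] (x : M) :
    ∃ n : ℕ, 0 < n ∧ x ^ n * x ^ n = x ^ n := by
  obtain ⟨m, n, hne, heq⟩ := Finite.exists_ne_map_eq_of_infinite (fun j : ℕ => x ^ j)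
  have key : ∀ m d : ℕ, 0 < d → x ^ (m + d) = x ^ m → ∃ n : ℕ, 0 < n ∧ x ^ n * x ^ n = x ^ n := by
    intro m d hd h
    have h1 : ∀ j, m ≤ j → x ^ (j + d) = x ^ j := by
      intro j hj
      obtain ⟨c, rfl⟩ := Nat.exists_eq_add_of_le hj
      rw [add_right_comm, pow_add, h, ← pow_add]
    have h2 : ∀ t j, m ≤ j → x ^ (j + d * t) = x ^ j := by
      intro t
      induction t with
      | zero => intro j _; simp
      | succ t ih =>
        intro j hj
        rw [Nat.mul_succ, ← add_assoc, h1 _ (by omega), ih j hj]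
    refine ⟨d * (m + 1), by positivity, ?_⟩
    rw [← pow_add]
    apply h2
    nlinarith
  rcases lt_or_gt_of_ne hne with h | h
  · obtain ⟨c, rfl⟩ := Nat.exists_eq_add_of_lt h
    exact key m (c + 1) (by omega) (by rw [← add_assoc]; exact heq.symm)
  · obtain ⟨c, rfl⟩ := Nat.exists_eq_add_of_lt h
    exact key n (c + 1) (by omega) (by rw [← add_assoc]; exact heq)

/-- CA2. -/
theorem field_or_idempotent [Finite F] (E : Subalgebra F (Matrix ι ι F)) (hc : IsComm E)
    (hnil : ∀ x ∈ E, ∀ k : ℕ, x ^ k = 0 → x = 0) :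
    IsFieldSubalgebra (Module.finrank F E) E ∨ ∃ e ∈ E, e * e = e ∧ e ≠ 0 ∧ e ≠ 1 := by
  by_cases h : ∀ x ∈ E, x ≠ 0 → ∀ y ∈ E, x * y = 0 → y = 0
  · left
    refine ⟨hc, ?_, rfl⟩
    intro x hx hx0
    have hinj : Function.Injective (fun y : E => (⟨x, hx⟩ : E) * y) := by
      intro y y' hyy
      have h1 : x * (y : Matrix ι ι F) = x * (y' : Matrix ι ι F) := congrArg Subtype.val hyy
      have h2 : x * ((y : Matrix ι ι F) - (y' : Matrix ι ι F)) = 0 := by
        rw [mul_sub, h1, sub_self]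
      have h3 := h x hx hx0 _ (E.sub_mem y.2 y'.2) h2
      exact Subtype.ext (sub_eq_zero.1 h3)
    obtain ⟨y, hy⟩ := (Finite.injective_iff_surjective.1 hinj) 1
    exact ⟨y, y.2, congrArg Subtype.val hy⟩
  · right
    push Not at h
    obtain ⟨x, hx, hx0, y, hy, hxy, hy0⟩ := h
    obtain ⟨n, hn, hid⟩ := ca2_idem x
    refine ⟨x ^ n, E.pow_mem hx n, hid, ?_, ?_⟩
    · intro h0
      exact hx0 (hnil x hx n h0)
    · intro h1
      apply hy0
      obtain ⟨c, rfl⟩ := Nat.exists_eq_add_of_lt hn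
      have h2 : x ^ (0 + c + 1) * y = 0 := by
        rw [pow_succ, mul_assoc, hxy, mul_zero]
      rw [h1, one_mul] at h2
      exact h2

end Cfsg.Agent.Lib.Helper80.AS
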