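import Cfsg.Agent.Lib.Helper80.AS.Defs

set_option autoImplicit false

namespace Cfsg.Agent.Lib.Helper80.AS

open Cfsg Cfsg.Geo
open Cfsg.Agent.Lib.Helper77.Asch (NormBy MinOver)
open scoped MatrixGroups Matrix Kronecker

variable {ι : Type} [Fintype ι] [DecidableEq ι] {F : Type*} [Field F]

/-- primitive idempotents of the commutative algebra `E`. -/
def ca3Prim (E : Subalgebra F (Matrix ι ι F)) (e : Matrix ι ι F) : Prop :=
  e ∈ E ∧ e * e = e ∧ e ≠ 0 ∧ ∀ e' ∈ E, e' * e' = e' → e * e' = 0 ∨ e * e' = e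

theorem ca3_exists_prim (E : Subalgebra F (Matrix ι ι F)) (hc : IsComm E)
    (S : Submodule F (ι → F)) :
    ∀ e ∈ E, e * e = e → e ≠ 0 → LinearMap.range (Matrix.toLin' e) = S →
      ∃ e', ca3Prim E e' := by
  induction S using WellFoundedLT.induction with
  | ind S ih =>
    intro e he hid h0 hS
    by_cases hp : ∀ e' ∈ E, e' * e' = e' → e * e' = 0 ∨ e * e' = e
    · exact ⟨e, he, hid, h0, hp⟩
    · push Not at hp
      obtain ⟨e', he', hid', h1, h2⟩ := hp
      have hid'' : (e * e') * (e * e') = e * e' := by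
        rw [mul_assoc, ← mul_assoc e' e e', hc e' he' e he, mul_assoc e e' e', hid', ← mul_assoc,
          hid]
      refine ih (LinearMap.range (Matrix.toLin' (e * e'))) ?_ (e * e') (E.mul_mem he he') hid'' h1
        rfl
      rw [← hS]
      refine lt_of_le_of_ne ?_ ?_
      · rw [Matrix.toLin'_mul]
        exact LinearMap.range_comp_le_range _ _
      · intro heq
        apply h2
        have h4 : ∀ v, (e * e') *ᵥ (e *ᵥ v) = e *ᵥ v := by
          intro v
          have hv : e *ᵥ v ∈ LinearMap.range (Matrix.toLin' (e * e')) := by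
            rw [heq]
            exact ⟨v, Matrix.toLin'_apply e v⟩
          obtain ⟨w, hw⟩ := hv
          rw [Matrix.toLin'_apply] at hw
          rw [← hw, Matrix.mulVec_mulVec, hid'']
        have h3 : (e * e') * e = e * e' := by
          rw [mul_assoc, hc e' he' e he, ← mul_assoc, hid]
        have h5 : Matrix.toLin' (e * e') = Matrix.toLin' e := LinearMap.ext fun v => by
          rw [Matrix.toLin'_apply, Matrix.toLin'_apply, ← h4 v, Matrix.mulVec_mulVec, h3]
        exact Matrix.toLin'.injective h5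

theorem ca3_cj_mul {R : Type*} [Monoid R] (a b e e' : R) (hba : b * a = 1) :
    (a * e * b) * (a * e' * b) = a * (e * e') * b := by
  calc (a * e * b) * (a * e' * b) = a * e * (b * a) * e' * b := by simp only [mul_assoc]
    _ = a * (e * e') * b := by
      rw [hba, mul_one]
      simp only [mul_assoc]

theorem ca3_cj_mul' {R : Type*} [Monoid R] (a b e e' : R) (hab : a * b = 1) :
    (a * e * b) * e' = a * (e * (b * e' * a)) * b := by
  calc (a * e * b) * e' = a * e * b * e' * 1 := by rw [mul_one]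
    _ = a * e * b * e' * (a * b) := by rw [hab]
    _ = a * (e * (b * e' * a)) * b := by simp only [mul_assoc]

theorem ca3_prim_conj (E : Subalgebra F (Matrix ι ι F)) (g : GL ι F)
    (hg : g ∈ subalgebraNormalizer E) (e : Matrix ι ι F) (he : ca3Prim E e) :
    ca3Prim E ((g : Matrix ι ι F) * e * ((g⁻¹ : GL ι F) : Matrix ι ι F)) := by
  obtain ⟨h1, h2, h3, h4⟩ := he
  have hab : (g : Matrix ι ι F) * ((g⁻¹ : GL ι F) : Matrix ι ι F) = 1 := Units.mul_inv g
  have hba : ((g⁻¹ : GL ι F) : Matrix ι ι F) * (g : Matrix ι ι F) = 1 := Units.inv_mul g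
  refine ⟨(hg e).1 h1, ?_, ?_, ?_⟩
  · rw [ca3_cj_mul _ _ _ _ hba, h2]
  · intro h0
    apply h3
    have h5 : e = ((g⁻¹ : GL ι F) : Matrix ι ι F) *
        ((g : Matrix ι ι F) * e * ((g⁻¹ : GL ι F) : Matrix ι ι F)) * (g : Matrix ι ι F) := by
      calc e = 1 * e * 1 := by rw [one_mul, mul_one]
        _ = (((g⁻¹ : GL ι F) : Matrix ι ι F) * (g : Matrix ι ι F)) * e *
            (((g⁻¹ : GL ι F) : Matrix ι ι F) * (g : Matrix ι ι F)) := by rw [hba]
        _ = _ := by simp only [mul_assoc]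
    rw [h5, h0, mul_zero, zero_mul]
  · intro e' he' hid'
    have hginv := (subalgebraNormalizer E).inv_mem hg
    have hf : ((g⁻¹ : GL ι F) : Matrix ι ι F) * e' * (g : Matrix ι ι F) ∈ E := by
      have := (hginv e').1 he'
      rwa [inv_inv] at this
    have hfid : (((g⁻¹ : GL ι F) : Matrix ι ι F) * e' * (g : Matrix ι ι F)) *
        (((g⁻¹ : GL ι F) : Matrix ι ι F) * e' * (g : Matrix ι ι F)) =
        ((g⁻¹ : GL ι F) : Matrix ι ι F) * e' * (g : Matrix ι ι F) := by
      rw [ca3_cj_mul _ _ _ _ hab, hid']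
    rw [ca3_cj_mul' _ _ _ _ hab]
    rcases h4 _ hf hfid with h | h
    · left
      rw [h, mul_zero, zero_mul]
    · right
      rw [h]

theorem ca3_orth (E : Subalgebra F (Matrix ι ι F)) (hc : IsComm E) {e e' : Matrix ι ι F}
    (he : ca3Prim E e) (he' : ca3Prim E e') (hne : e ≠ e') : e * e' = 0 := by
  rcases he.2.2.2 e' he'.1 he'.2.1 with h | h
  · exact h
  · rcases he'.2.2.2 e he.1 he.2.1 with h' | h'
    · rw [hc e he.1 e' he'.1]
      exact h'
    · exfalso
      apply hne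
      calc e = e * e' := h.symm
        _ = e' * e := hc e he.1 e' he'.1
        _ = e' := h'

theorem ca3_map (g : GL ι F) (e : Matrix ι ι F) :
    (LinearMap.range (Matrix.toLin' e)).map (Matrix.toLin' (g : Matrix ι ι F)) =
      LinearMap.range
        (Matrix.toLin' ((g : Matrix ι ι F) * e * ((g⁻¹ : GL ι F) : Matrix ι ι F))) := by
  have hba : ((g⁻¹ : GL ι F) : Matrix ι ι F) * (g : Matrix ι ι F) = 1 := Units.inv_mul g
  ext v
  constructor
  · rintro ⟨_, ⟨w, rfl⟩, rfl⟩
    refine ⟨(g : Matrix ι ι F) *ᵥ w, ?_⟩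
    rw [Matrix.toLin'_apply, Matrix.toLin'_apply, Matrix.toLin'_apply, Matrix.mulVec_mulVec,
      Matrix.mulVec_mulVec, mul_assoc, hba, mul_one]
  · rintro ⟨u, rfl⟩
    refine ⟨e *ᵥ (((g⁻¹ : GL ι F) : Matrix ι ι F) *ᵥ u), ⟨_, Matrix.toLin'_apply _ _⟩, ?_⟩
    rw [Matrix.toLin'_apply, Matrix.toLin'_apply, Matrix.mulVec_mulVec, Matrix.mulVec_mulVec,
      mul_assoc]

theorem ca3_inj (g : GL ι F) : Function.Injective (Matrix.toLin' (g : Matrix ι ι F)) := by
  intro u v h
  have hba : ((g⁻¹ : GL ι F) : Matrix ι ι F) * (g : Matrix ι ι F) = 1 := Units.inv_mul g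
  rw [Matrix.toLin'_apply, Matrix.toLin'_apply] at h
  have h2 := congrArg (fun w => ((g⁻¹ : GL ι F) : Matrix ι ι F) *ᵥ w) h
  simpa only [Matrix.mulVec_mulVec, hba, Matrix.one_mulVec] using h2

/-- CA3. -/
theorem decomp_of_idempotent [Finite F] (Γ : Subgroup (GL ι F)) (hirr : ActsIrreducibly (matrixSet Γ))
    (E : Subalgebra F (Matrix ι ι F)) (hc : IsComm E) (hn : Γ ≤ subalgebraNormalizer E)
    (e₀ : Matrix ι ι F) (he : e₀ ∈ E) (h1 : e₀ * e₀ = e₀) (h2 : e₀ ≠ 0) (h3 : e₀ ≠ 1) :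
    ∃ (t d : ℕ) (D : Fin t → Submodule F (ι → F)), IsMDecomposition d D ∧
      Γ ≤ decompositionStabilizer D ∧ Projs E D := by
  classical
  obtain ⟨e₁, hp₁⟩ := ca3_exists_prim E hc _ e₀ he h1 h2 rfl
  let O : Set (Matrix ι ι F) :=
    {x | ∃ g ∈ Γ, x = (g : Matrix ι ι F) * e₁ * ((g⁻¹ : GL ι F) : Matrix ι ι F)}
  haveI : Finite O := Subtype.finite
  haveI := Fintype.ofFinite O
  let φ : Fin (Fintype.card O) ≃ O := (Fintype.equivFin O).symm
  let X : O → Submodule F (ι → F) := fun x => LinearMap.range (Matrix.toLin' x.1)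
  have hprim : ∀ x : O, ca3Prim E x.1 := by
    rintro ⟨_, g, hg, rfl⟩
    exact ca3_prim_conj E g (hn hg) e₁ hp₁
  have horth : ∀ x y : O, x ≠ y → x.1 * y.1 = 0 := fun x y hxy =>
    ca3_orth E hc (hprim x) (hprim y) (fun h => hxy (Subtype.ext h))
  have hfix : ∀ (x : O) v, v ∈ X x → x.1 *ᵥ v = v := by
    rintro x _ ⟨w, rfl⟩
    rw [Matrix.toLin'_apply, Matrix.mulVec_mulVec, (hprim x).2.1]
  have hkill : ∀ (x y : O), x ≠ y → ∀ v ∈ X y, x.1 *ᵥ v = 0 := by
    rintro x y hxy _ ⟨w, rfl⟩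
    rw [Matrix.toLin'_apply, Matrix.mulVec_mulVec, horth x y hxy, Matrix.zero_mulVec]
  have hconj : ∀ g ∈ Γ, ∀ x : O,
      ((g : Matrix ι ι F) * x.1 * ((g⁻¹ : GL ι F) : Matrix ι ι F)) ∈ O := by
    rintro g hg ⟨_, k, hk, rfl⟩
    refine ⟨g * k, Γ.mul_mem hg hk, ?_⟩
    rw [mul_inv_rev, Units.val_mul, Units.val_mul]
    simp only [mul_assoc]
  let x₁ : O := ⟨e₁, 1, Γ.one_mem, by simp⟩
  have hX₁ : X x₁ ≠ ⊥ := by
    intro hbot
    apply hp₁.2.2.1
    have h5 : Matrix.toLin' e₁ = 0 := LinearMap.range_eq_bot.1 hbot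
    exact (LinearEquiv.map_eq_zero_iff _).1 h5
  have hsup : (⨆ x, X x) = ⊤ := by
    have hinv : ∀ s ∈ matrixSet Γ, (⨆ x, X x).map (Matrix.toLin' s) ≤ ⨆ x, X x := by
      rintro _ ⟨g, hg, rfl⟩
      rw [Submodule.map_iSup]
      refine iSup_le fun x => ?_
      have h5 : (X x).map (Matrix.toLin' (g : Matrix ι ι F)) = X ⟨_, hconj g hg x⟩ :=
        ca3_map g x.1
      rw [h5]
      exact le_iSup X _
    rcases hirr _ hinv with h | h
    · exfalso
      apply hX₁
      rw [eq_bot_iff, ← h]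
      exact le_iSup X x₁
    · exact h
  have hind : iSupIndep X := by
    rw [iSupIndep_def]
    intro x
    rw [Submodule.disjoint_def]
    intro v hv hv'
    have hle : (⨆ j, ⨆ (_ : j ≠ x), X j) ≤ LinearMap.ker (Matrix.toLin' x.1) := by
      refine iSup₂_le fun j hj => ?_
      intro w hw
      rw [LinearMap.mem_ker, Matrix.toLin'_apply]
      exact hkill x j hj.symm w hw
    have h5 := hle hv'
    rw [LinearMap.mem_ker, Matrix.toLin'_apply, hfix x v hv] at h5
    exact h5
  have hfr : ∀ x : O, Module.finrank F (X x) = Module.finrank F (X x₁) := by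
    rintro ⟨_, g, hg, rfl⟩
    have h5 : (X x₁).map (Matrix.toLin' (g : Matrix ι ι F)) =
        LinearMap.range (Matrix.toLin'
          ((g : Matrix ι ι F) * e₁ * ((g⁻¹ : GL ι F) : Matrix ι ι F))) := ca3_map g e₁
    show Module.finrank F (LinearMap.range (Matrix.toLin'
          ((g : Matrix ι ι F) * e₁ * ((g⁻¹ : GL ι F) : Matrix ι ι F)))) = _
    rw [← h5]
    exact (Submodule.equivMapOfInjective _ (ca3_inj g) (X x₁)).finrank_eq.symm
  refine ⟨Fintype.card O, Module.finrank F (X x₁), fun a => X (φ a), ⟨?_, ?_, ?_, ?_, ?_⟩, ?_, ?_⟩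
  · by_contra hlt
    have hle : Fintype.card O ≤ 1 := by omega
    haveI : Subsingleton O := Fintype.card_le_one_iff_subsingleton.1 hle
    have htop : X x₁ = ⊤ := by
      rw [eq_top_iff, ← hsup]
      refine iSup_le fun x => ?_
      rw [Subsingleton.elim x x₁]
    have h5 : e₁ = 1 := by
      apply Matrix.toLin'.injective
      apply LinearMap.ext
      intro v
      rw [Matrix.toLin'_apply, Matrix.toLin'_one, LinearMap.id_apply]
      apply hfix x₁ v
      rw [htop]
      exact Submodule.mem_top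
    rcases hp₁.2.2.2 e₀ he h1 with h | h
    · rw [h5, one_mul] at h
      exact h2 h
    · rw [h5, one_mul] at h
      exact h3 h
  · rw [Module.finrank_pos_iff, Submodule.nontrivial_iff_ne_bot]
    exact hX₁
  · intro a
    exact hfr (φ a)
  · exact hind.comp (f := fun a => φ a) φ.injective
  · rw [← hsup]
    exact φ.iSup_comp (g := X)
  · intro g hg
    let c : O → O := fun x => ⟨_, hconj g hg x⟩
    have hcinj : Function.Injective c := by
      intro x y hxy
      have h5 : (g : Matrix ι ι F) * x.1 * ((g⁻¹ : GL ι F) : Matrix ι ι F) =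
          (g : Matrix ι ι F) * y.1 * ((g⁻¹ : GL ι F) : Matrix ι ι F) := congrArg Subtype.val hxy
      rw [Units.mul_left_inj, Units.mul_right_inj] at h5
      exact Subtype.ext h5
    have hcbij : Function.Bijective c := Finite.injective_iff_bijective.mp hcinj
    refine ⟨(φ.trans (Equiv.ofBijective c hcbij)).trans φ.symm, ?_⟩
    intro a
    simp only [Equiv.trans_apply, Equiv.apply_symm_apply, Equiv.ofBijective_apply]
    exact ca3_map g (φ a).1
  · intro j
    refine ⟨(φ j).1, (hprim (φ j)).1, fun v hv => hfix (φ j) v hv, ?_⟩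
    intro i hij u hu
    exact hkill (φ j) (φ i) (fun h => hij (φ.injective h).symm) u hu

end Cfsg.Agent.Lib.Helper80.AS
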