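import Cfsg.Agent.Lib.Helper80.AS.Defs

set_option autoImplicit false

namespace Cfsg.Agent.Lib.Helper80.AS

open Cfsg Cfsg.Geo
open Cfsg.Agent.Lib.Helper77.Asch (NormBy MinOver)
open scoped MatrixGroups Matrix Kronecker

variable {ι : Type} [Fintype ι] [DecidableEq ι] {F : Type*} [Field F]

/-- conjugation by a similitude preserves self-adjointness. -/
theorem sap_conj (f : (ι → F) → (ι → F) → F) (g : GL ι F) (hg : g ∈ similarityGroup f)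
    (k : Matrix ι ι F) (hk : SelfAdj f k) :
    SelfAdj f ((g : Matrix ι ι F) * k * ((g⁻¹ : GL ι F) : Matrix ι ι F)) := by
  obtain ⟨c, hc⟩ := hg
  intro u v
  have hgg : ∀ w : ι → F, (g : Matrix ι ι F) *ᵥ (((g⁻¹ : GL ι F) : Matrix ι ι F) *ᵥ w) = w := by
    intro w
    rw [Matrix.mulVec_mulVec, ← Units.val_mul, mul_inv_cancel, Units.val_one, Matrix.one_mulVec]
  have e : ∀ w : ι → F, ((g : Matrix ι ι F) * k * ((g⁻¹ : GL ι F) : Matrix ι ι F)) *ᵥ w =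
      (g : Matrix ι ι F) *ᵥ (k *ᵥ (((g⁻¹ : GL ι F) : Matrix ι ι F) *ᵥ w)) := by
    intro w
    rw [Matrix.mulVec_mulVec, Matrix.mulVec_mulVec]
  rw [e, e]
  calc f ((g : Matrix ι ι F) *ᵥ (k *ᵥ (((g⁻¹ : GL ι F) : Matrix ι ι F) *ᵥ u))) v
      = f ((g : Matrix ι ι F) *ᵥ (k *ᵥ (((g⁻¹ : GL ι F) : Matrix ι ι F) *ᵥ u)))
          ((g : Matrix ι ι F) *ᵥ (((g⁻¹ : GL ι F) : Matrix ι ι F) *ᵥ v)) := by rw [hgg]
    _ = (c : F) * f (k *ᵥ (((g⁻¹ : GL ι F) : Matrix ι ι F) *ᵥ u))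
          (((g⁻¹ : GL ι F) : Matrix ι ι F) *ᵥ v) := hc _ _
    _ = (c : F) * f (((g⁻¹ : GL ι F) : Matrix ι ι F) *ᵥ u)
          (k *ᵥ (((g⁻¹ : GL ι F) : Matrix ι ι F) *ᵥ v)) := by rw [hk]
    _ = f ((g : Matrix ι ι F) *ᵥ (((g⁻¹ : GL ι F) : Matrix ι ι F) *ᵥ u))
          ((g : Matrix ι ι F) *ᵥ (k *ᵥ (((g⁻¹ : GL ι F) : Matrix ι ι F) *ᵥ v))) := (hc _ _).symm
    _ = f u ((g : Matrix ι ι F) *ᵥ (k *ᵥ (((g⁻¹ : GL ι F) : Matrix ι ι F) *ᵥ v))) := by rw [hgg]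

/-- the subalgebra of the self-adjoint elements of a commutative subalgebra. -/
def sapAlg (f : (ι → F) → (ι → F) → F) (hf : IsBilinearForm f) (E : Subalgebra F (Matrix ι ι F))
    (hc : IsComm E) : Subalgebra F (Matrix ι ι F) where
  carrier := {x | x ∈ E ∧ SelfAdj f x}
  mul_mem' := by
    rintro x y ⟨hx, hx'⟩ ⟨hy, hy'⟩
    refine ⟨E.mul_mem hx hy, fun u v => ?_⟩
    rw [← Matrix.mulVec_mulVec, hx', hy', Matrix.mulVec_mulVec, hc y hy x hx]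
  add_mem' := by
    rintro x y ⟨hx, hx'⟩ ⟨hy, hy'⟩
    refine ⟨E.add_mem hx hy, fun u v => ?_⟩
    rw [Matrix.add_mulVec, Matrix.add_mulVec, hf.add_left, hf.add_right, hx', hy']
  algebraMap_mem' := by
    intro c
    refine ⟨E.algebraMap_mem c, fun u v => ?_⟩
    rw [Algebra.algebraMap_eq_smul_one, Matrix.smul_mulVec, Matrix.smul_mulVec, Matrix.one_mulVec,
      Matrix.one_mulVec, hf.smul_left, hf.smul_right]

/-- SAP. -/
theorem exists_selfAdj (f : (ι → F) → (ι → F) → F) (hf : IsBilinearForm f) (Γ : Subgroup (GL ι F))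
    (hΓ : Γ ≤ similarityGroup f) (E : Subalgebra F (Matrix ι ι F)) (hc : IsComm E)
    (hn : Γ ≤ subalgebraNormalizer E) :
    ∃ E₀ : Subalgebra F (Matrix ι ι F), (∀ x, x ∈ E₀ ↔ x ∈ E ∧ SelfAdj f x) ∧
      Γ ≤ subalgebraNormalizer E₀ := by
  refine ⟨sapAlg f hf E hc, fun x => Iff.rfl, ?_⟩
  intro g hg k
  constructor
  · rintro ⟨h1, h2⟩
    exact ⟨(hn hg k).1 h1, sap_conj f g (hΓ hg) k h2⟩
  · rintro ⟨h1, h2⟩
    refine ⟨(hn hg k).2 h1, ?_⟩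
    have h3 := sap_conj f g⁻¹ (hΓ (Γ.inv_mem hg)) _ h2
    rw [inv_inv] at h3
    have e : ((g⁻¹ : GL ι F) : Matrix ι ι F) *
        ((g : Matrix ι ι F) * k * ((g⁻¹ : GL ι F) : Matrix ι ι F)) * (g : Matrix ι ι F) = k := by
      have e1 : ((g⁻¹ : GL ι F) : Matrix ι ι F) * (g : Matrix ι ι F) = 1 := by
        rw [← Units.val_mul, inv_mul_cancel, Units.val_one]
      calc ((g⁻¹ : GL ι F) : Matrix ι ι F) *
        ((g : Matrix ι ι F) * k * ((g⁻¹ : GL ι F) : Matrix ι ι F)) * (g : Matrix ι ι F)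
          = (((g⁻¹ : GL ι F) : Matrix ι ι F) * (g : Matrix ι ι F)) * k *
            (((g⁻¹ : GL ι F) : Matrix ι ι F) * (g : Matrix ι ι F)) := by
              simp only [mul_assoc]
        _ = k := by rw [e1, one_mul, mul_one]
    rw [e] at h3
    exact h3

end Cfsg.Agent.Lib.Helper80.AS
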