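import Cfsg.Agent.Lib.Helper80.AS.Defs

set_option autoImplicit false
set_option linter.unusedSectionVars false

namespace Cfsg.Agent.Lib.Helper80.AS

open Cfsg Cfsg.Geo
open Cfsg.Agent.Lib.Helper77.Asch (NormBy MinOver)
open scoped MatrixGroups Matrix Kronecker

variable {ι : Type} [Fintype ι] [DecidableEq ι] {F : Type*} [Field F]

/-- two matrices agreeing on all blocks are equal. -/
theorem tsp_ext {t : ℕ} (D : Fin t → Submodule F (ι → F)) (h : iSup D = ⊤) (A B : Matrix ι ι F)
    (hAB : ∀ i, ∀ v ∈ D i, A *ᵥ v = B *ᵥ v) : A = B := by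
  have h1 : iSup D ≤ LinearMap.eqLocus (Matrix.toLin' A) (Matrix.toLin' B) := by
    apply iSup_le
    intro i v hv
    rw [LinearMap.mem_eqLocus, Matrix.toLin'_apply, Matrix.toLin'_apply]
    exact hAB i v hv
  rw [h] at h1
  apply Matrix.toLin'.injective
  ext1 v
  apply LinearMap.ext
  intro c
  exact h1 (Submodule.mem_top (x := LinearMap.single F (fun _ => F) v c))

/-- the number of blocks times their dimension. -/
theorem tsp_card {t d : ℕ} (D : Fin t → Submodule F (ι → F)) (hD : IsMDecomposition d D) :
    t * d = Fintype.card ι := by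
  have hint := DirectSum.isInternal_submodule_of_iSupIndep_of_iSup_eq_top hD.indep hD.iSup_eq_top
  have e := LinearEquiv.ofBijective (DirectSum.coeLinearMap D) hint
  have h1 : Module.finrank F (ι → F) = t * d := by
    rw [← e.finrank_eq, Module.finrank_directSum]
    simp [hD.finrank_eq]
  rw [← h1, Module.finrank_fintype_fun_eq_card]

/-- a bilinear form vanishing on all pairs of blocks is zero. -/
theorem tsp_zero {t : ℕ} (f : (ι → F) → (ι → F) → F) (hf : IsBilinearForm f)
    (D : Fin t → Submodule F (ι → F)) (h : iSup D = ⊤)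
    (h0 : ∀ i j, ∀ u ∈ D i, ∀ v ∈ D j, f u v = 0) : ∀ u v, f u v = 0 := by
  have z1 : ∀ v, f 0 v = 0 := fun v => by
    have := hf.smul_left 0 0 v
    simpa using this
  have z2 : ∀ v, f v 0 = 0 := fun v => by
    have := hf.smul_right 0 v 0
    simpa using this
  have h1 : ∀ i, ∀ u ∈ D i, ∀ v, f u v = 0 := by
    intro i u hu
    let S : Submodule F (ι → F) :=
      { carrier := {v | f u v = 0}
        zero_mem' := z2 u
        add_mem' := by
          intro a b ha hb
          change f u (a + b) = 0
          rw [hf.add_right, ha, hb, add_zero]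
        smul_mem' := by
          intro c a ha
          change f u (c • a) = 0
          rw [hf.smul_right, ha, mul_zero] }
    have hS : iSup D ≤ S := iSup_le (fun j v hv => h0 i j u hu v hv)
    rw [h] at hS
    intro v
    exact hS (Submodule.mem_top (x := v))
  intro u v
  let S : Submodule F (ι → F) :=
    { carrier := {u | f u v = 0}
      zero_mem' := z1 v
      add_mem' := by
        intro a b ha hb
        change f (a + b) v = 0
        rw [hf.add_left, ha, hb, add_zero]
      smul_mem' := by
        intro c a ha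
        change f (c • a) v = 0
        rw [hf.smul_left, ha, mul_zero] }
  have hS : iSup D ≤ S := iSup_le (fun j u hu => h1 j u hu v)
  rw [h] at hS
  exact hS (Submodule.mem_top (x := u))

/-- left cancellation for a non-degenerate bilinear form. -/
theorem tsp_cancel (f : (ι → F) → (ι → F) → F) (hf : IsBilinearForm f) (hn : IsNondegenerateForm f)
    (x y : ι → F) (h : ∀ b, f x b = f y b) : x = y := by
  by_contra hne
  obtain ⟨-, b, hb⟩ := hn (x - y) (sub_ne_zero.2 hne)
  apply hb
  have h1 : f (x - y) b = f x b + (-1) * f y b := by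
    rw [sub_eq_add_neg, hf.add_left, ← hf.smul_left, neg_one_smul]
  rw [h1, h b]; ring

/-- TSP. -/
theorem ts_pair (m : ℕ) (hcard : Fintype.card ι = 2 * m) (f : (ι → F) → (ι → F) → F) (hf : IsSymplecticForm f)
    (E : Subalgebra F (Matrix ι ι F)) (hc : IsComm E) (hadj : IsAdjointClosedFor f E)
    (h0 : ∀ x ∈ E, SelfAdj f x → x = 0 ∨ ∃ y : Matrix ι ι F, x * y = 1) {t d : ℕ}
    (D : Fin t → Submodule F (ι → F)) (hD : IsMDecomposition d D) (hp : Projs E D) :
    t = 2 ∧ d = m ∧ ∀ i, IsTotallySingularFor f (D i) := by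
  have hb := hf.bilinear
  have hne : ∀ j, ∃ w ∈ D j, w ≠ 0 := by
    intro j
    apply Submodule.exists_mem_ne_zero_of_ne_bot
    intro h
    have := hD.finrank_eq j
    rw [h, finrank_bot] at this
    have := hD.pos
    omega
  -- the key facts for one block
  have key : ∀ i : Fin t, ∃ e ∈ E, ∃ e' ∈ E, (∀ v ∈ D i, e *ᵥ v = v) ∧
      (∀ j, j ≠ i → ∀ u ∈ D j, e *ᵥ u = 0) ∧ (∀ u v, f (e *ᵥ u) v = f u (e' *ᵥ v)) ∧
      (∀ u v, f (e' *ᵥ u) v = f u (e *ᵥ v)) ∧ e' * e = 0 ∧ e + e' = 1 := by
    intro i
    obtain ⟨e, heE, he1, he0⟩ := hp i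
    obtain ⟨e', he'E, hee'⟩ := hadj e heE
    have hee'' : ∀ u v, f (e' *ᵥ u) v = f u (e *ᵥ v) := by
      intro u v
      rw [hf.skew, ← hee', hf.skew, neg_neg]
    have hidem : e * e = e := by
      apply tsp_ext D hD.iSup_eq_top
      intro j v hv
      rw [← Matrix.mulVec_mulVec]
      by_cases hj : j = i
      · subst hj
        rw [he1 v hv, he1 v hv]
      · rw [he0 j hj v hv, Matrix.mulVec_zero]
    have hidem' : e' * e' = e' := by
      apply Matrix.toLin'.injective
      apply LinearMap.ext
      intro a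
      rw [Matrix.toLin'_apply, Matrix.toLin'_apply]
      apply tsp_cancel f hb hf.nondegenerate
      intro b
      rw [← Matrix.mulVec_mulVec, hee'', hee'', Matrix.mulVec_mulVec, hidem, hee'']
    have hcomm : e * e' = e' * e := hc e heE e' he'E
    obtain ⟨j, hj⟩ : ∃ j : Fin t, j ≠ i := by
      have h2 := hD.two_le
      by_cases hi : (i : ℕ) = 0
      · exact ⟨⟨1, by omega⟩, fun h => by
          have := congrArg Fin.val h
          simp at this
          omega⟩
      · exact ⟨⟨0, by omega⟩, fun h => by
          have := congrArg Fin.val h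
          simp at this
          omega⟩
    obtain ⟨w, hw, hw0⟩ := hne j
    have hnotinv : ∀ z : Matrix ι ι F, e * z ≠ 1 := by
      intro z hz
      have h1 : z * e = 1 := mul_eq_one_comm.1 hz
      apply hw0
      have h2 : (z * e) *ᵥ w = w := by rw [h1, Matrix.one_mulVec]
      rw [← Matrix.mulVec_mulVec, he0 j hj w hw, Matrix.mulVec_zero] at h2
      exact h2.symm
    have hp0 : e * e' = 0 := by
      have hsa : SelfAdj f (e * e') := by
        intro u v
        rw [← Matrix.mulVec_mulVec, hee', hee'', Matrix.mulVec_mulVec]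
      rcases h0 _ (E.mul_mem heE he'E) hsa with h1 | ⟨y, hy⟩
      · exact h1
      · exact absurd (by rw [← mul_assoc]; exact hy) (hnotinv (e' * y))
    have hs1 : e + e' = 1 := by
      have hsa : SelfAdj f (e + e') := by
        intro u v
        rw [Matrix.add_mulVec, Matrix.add_mulVec, hb.add_left, hb.add_right, hee', hee'', add_comm]
      have hss : (e + e') * (e + e') = e + e' := by
        rw [add_mul, mul_add, mul_add, hidem, hidem', ← hcomm, hp0]
        simp
      rcases h0 _ (E.add_mem heE he'E) hsa with h1 | ⟨y, hy⟩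
      · exfalso
        have h2 : e' = -e := by
          rw [eq_neg_iff_add_eq_zero, add_comm]; exact h1
        rw [h2, mul_neg, hidem, neg_eq_zero] at hp0
        obtain ⟨x, hx, hx0⟩ := hne i
        apply hx0
        rw [← he1 x hx, hp0, Matrix.zero_mulVec]
      · calc e + e' = (e + e') * ((e + e') * y) := by rw [hy, mul_one]
          _ = ((e + e') * (e + e')) * y := by rw [mul_assoc]
          _ = 1 := by rw [hss, hy]
    exact ⟨e, heE, e', he'E, he1, he0, hee', hee'', hcomm ▸ hp0, hs1⟩
  have z2 : ∀ v, f v 0 = 0 := fun v => by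
    have := hb.smul_right 0 v 0
    simpa using this
  have hts : ∀ i, IsTotallySingularFor f (D i) := by
    intro i u hu v hv
    obtain ⟨e, -, e', -, he1, -, hee', -, hp0, -⟩ := key i
    have h1 : f u v = f (e *ᵥ u) (e *ᵥ v) := by rw [he1 u hu, he1 v hv]
    rw [h1, hee', Matrix.mulVec_mulVec, hp0, Matrix.zero_mulVec, z2]
  -- blocks different from `i` are pairwise orthogonal
  have hort : ∀ i j k : Fin t, j ≠ i → k ≠ i → ∀ u ∈ D j, ∀ v ∈ D k, f u v = 0 := by
    intro i j k hj hk u hu v hv
    obtain ⟨e, -, e', -, -, he0, hee', hee'', hp0, hs1⟩ := key i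
    have h1 : ∀ l, l ≠ i → ∀ x ∈ D l, e' *ᵥ x = x := by
      intro l hl x hx
      have h2 : (e + e') *ᵥ x = x := by rw [hs1, Matrix.one_mulVec]
      rw [Matrix.add_mulVec, he0 l hl x hx, zero_add] at h2
      exact h2
    have h2 : f u v = f (e' *ᵥ u) v := by rw [h1 j hj u hu]
    rw [h2, hee'', he0 k hk v hv, z2]
  have ht : t = 2 := by
    by_contra hne2
    have h3 : 3 ≤ t := by
      have := hD.two_le
      omega
    have hall : ∀ j k : Fin t, ∀ u ∈ D j, ∀ v ∈ D k, f u v = 0 := by
      intro j k
      obtain ⟨i, hij, hik⟩ : ∃ i : Fin t, j ≠ i ∧ k ≠ i := by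
        by_contra hcon
        push Not at hcon
        have hsub : (Finset.univ : Finset (Fin t)) ⊆ {j, k} := by
          intro i _
          by_cases hji : j = i
          · simp [hji]
          · have := hcon i hji
            simp [this]
        have h4 := Finset.card_le_card hsub
        have h5 : ({j, k} : Finset (Fin t)).card ≤ 2 := Finset.card_le_two
        rw [Finset.card_univ, Fintype.card_fin] at h4
        omega
      exact hort i j k hij hik
    have hzero := tsp_zero f hb D hD.iSup_eq_top hall
    obtain ⟨w, -, hw0⟩ := hne ⟨0, by omega⟩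
    obtain ⟨⟨x, hx⟩, -⟩ := hf.nondegenerate w hw0
    exact hx (hzero x w)
  refine ⟨ht, ?_, hts⟩
  have h1 := tsp_card D hD
  rw [ht, hcard] at h1
  omega

end Cfsg.Agent.Lib.Helper80.AS
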