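import Cfsg.Agent.Lib.Helper80.AS.Defs
import Cfsg.Agent.Lib.Helper80.AS.UQ

set_option autoImplicit false

namespace Cfsg.Agent.Lib.Helper80.AS

open Cfsg Cfsg.Geo
open scoped MatrixGroups Matrix Kronecker

variable {ι : Type} [Fintype ι] [DecidableEq ι] {F : Type*} [Field F]

/-- TSQ. -/
theorem quad_of_ts_pair [Fintype F] (h2 : ¬ Odd (Fintype.card F)) (f : (ι → F) → (ι → F) → F)
    (hf : IsSymplecticForm f) {d : ℕ} (D : Fin 2 → Submodule F (ι → F)) (hD : IsMDecomposition d D)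
    (hts : ∀ i, IsTotallySingularFor f (D i)) :
    ∃ Q : (ι → F) → F, IsNondegenerateQuadraticForm Q ∧ (∀ u v, QuadraticMap.polar Q u v = f u v) ∧
      decompositionStabilizer D ⊓ similarityGroup f ≤ quadSimilarityGroup Q := by
  classical
  have hb := hf.bilinear
  have h2F : (2 : F) = 0 := uq_two_eq_zero h2
  have hadd : ∀ a : F, a + a = 0 := fun a => by rw [← two_mul, h2F, zero_mul]
  have hneg : ∀ a : F, -a = a := fun a => neg_eq_of_add_eq_zero_left (hadd a)
  have hsymm : ∀ u v, f u v = f v u := fun u v => by rw [hf.skew, hneg]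
  have hc : IsCompl (D 0) (D 1) := by
    constructor
    · exact hD.indep.pairwiseDisjoint (by decide)
    · rw [codisjoint_iff, eq_top_iff, ← hD.iSup_eq_top]
      apply iSup_le
      intro i
      fin_cases i
      · exact le_sup_left
      · exact le_sup_right
  let P0 : (ι → F) →ₗ[F] (ι → F) := (D 0).subtype.comp (Submodule.projectionOnto (D 0) (D 1) hc)
  let P1 : (ι → F) →ₗ[F] (ι → F) :=
    (D 1).subtype.comp (Submodule.projectionOnto (D 1) (D 0) hc.symm)
  have hP0 : ∀ v, P0 v ∈ D 0 := fun v => (Submodule.projectionOnto (D 0) (D 1) hc v).2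
  have hP1 : ∀ v, P1 v ∈ D 1 := fun v => (Submodule.projectionOnto (D 1) (D 0) hc.symm v).2
  have hP0a : ∀ a ∈ D 0, ∀ b ∈ D 1, P0 (a + b) = a := by
    intro a ha b hb'
    have h1 : Submodule.projectionOnto (D 0) (D 1) hc a = ⟨a, ha⟩ :=
      Submodule.projectionOnto_apply_left hc ⟨a, ha⟩
    have h3 : Submodule.projectionOnto (D 0) (D 1) hc b = 0 :=
      Submodule.projectionOnto_apply_right hc ⟨b, hb'⟩
    simp only [P0, LinearMap.comp_apply, map_add, h1, h3]
    simp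
  have hP1b : ∀ a ∈ D 0, ∀ b ∈ D 1, P1 (a + b) = b := by
    intro a ha b hb'
    have h1 : Submodule.projectionOnto (D 1) (D 0) hc.symm b = ⟨b, hb'⟩ :=
      Submodule.projectionOnto_apply_left hc.symm ⟨b, hb'⟩
    have h3 : Submodule.projectionOnto (D 1) (D 0) hc.symm a = 0 :=
      Submodule.projectionOnto_apply_right hc.symm ⟨a, ha⟩
    simp only [P1, LinearMap.comp_apply, map_add, h1, h3]
    simp
  have hP01 : ∀ v, P0 v + P1 v = v := by
    intro v
    have hv : v ∈ D 0 ⊔ D 1 := by rw [hc.sup_eq_top]; exact Submodule.mem_top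
    obtain ⟨a, ha, b, hb', rfl⟩ := Submodule.mem_sup.1 hv
    rw [hP0a a ha b hb', hP1b a ha b hb']
  have hpolar : ∀ u v, QuadraticMap.polar (fun v => f (P0 v) (P1 v)) u v = f u v := by
    intro u v
    simp only [QuadraticMap.polar]
    rw [map_add, map_add, hb.add_left, hb.add_right, hb.add_right]
    have h1 : f u v = f (P0 u) (P1 v) + f (P1 u) (P0 v) := by
      conv_lhs => rw [← hP01 u, ← hP01 v]
      rw [hb.add_left, hb.add_right, hb.add_right, hts 0 _ (hP0 u) _ (hP0 v),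
        hts 1 _ (hP1 u) _ (hP1 v)]
      ring
    rw [h1, hsymm (P1 u) (P0 v)]; ring
  have hpf : QuadraticMap.polar (fun v => f (P0 v) (P1 v)) = f := by
    funext u v; exact hpolar u v
  refine ⟨fun v => f (P0 v) (P1 v), ⟨fun c v => ?_, ?_, ?_⟩, hpolar, ?_⟩
  · rw [map_smul, map_smul, hb.smul_left, hb.smul_right]; ring
  · rw [hpf]; exact hb
  · rw [hpf]; exact hf.nondegenerate
  · rintro g ⟨⟨σ, hσ⟩, c, hcg⟩
    refine ⟨c, fun v => ?_⟩
    have hmap : ∀ i, ∀ w ∈ D i, (g : Matrix ι ι F) *ᵥ w ∈ D (σ i) := by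
      intro i w hw
      rw [← hσ i]
      exact ⟨w, hw, by rw [Matrix.toLin'_apply]⟩
    have hgv : (g : Matrix ι ι F) *ᵥ v
        = (g : Matrix ι ι F) *ᵥ P0 v + (g : Matrix ι ι F) *ᵥ P1 v := by
      rw [← Matrix.mulVec_add, hP01]
    have hσ01 : (σ 0 = 0 ∧ σ 1 = 1) ∨ (σ 0 = 1 ∧ σ 1 = 0) := by
      have hne : σ 0 ≠ σ 1 := fun h => by
        have := σ.injective h
        exact absurd this (by decide)
      generalize σ 0 = a at hne
      generalize σ 1 = b at hne
      fin_cases a <;> fin_cases b <;> simp_all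
    change f (P0 ((g : Matrix ι ι F) *ᵥ v)) (P1 ((g : Matrix ι ι F) *ᵥ v)) = c * f (P0 v) (P1 v)
    rcases hσ01 with ⟨h0, h1⟩ | ⟨h0, h1⟩
    · have m0 := hmap 0 _ (hP0 v)
      have m1 := hmap 1 _ (hP1 v)
      rw [h0] at m0
      rw [h1] at m1
      rw [hgv, hP0a _ m0 _ m1, hP1b _ m0 _ m1, hcg]
    · have m0 := hmap 0 _ (hP0 v)
      have m1 := hmap 1 _ (hP1 v)
      rw [h0] at m0
      rw [h1] at m1
      rw [hgv, add_comm, hP0a _ m1 _ m0, hP1b _ m1 _ m0, hcg, hsymm]

end Cfsg.Agent.Lib.Helper80.AS
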