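import Cfsg.Agent.Lib.Helper80.AS.Defs

/-! Ladder ASCHS, rung ALTK: for a self-adjoint field `K`, `f (k v) v = 0`. -/

set_option autoImplicit false

namespace Cfsg.Agent.Lib.Helper80.AS

open Cfsg Cfsg.Geo
open scoped MatrixGroups Matrix Kronecker

variable {ι : Type} [Fintype ι] [DecidableEq ι] {F : Type*} [Field F]

/-- ALTK. -/
theorem alt_of_selfAdj [Finite F] (f : (ι → F) → (ι → F) → F) (hf : IsSymplecticForm f)
    (K : Subalgebra F (Matrix ι ι F)) (r : ℕ) (hK : IsFieldSubalgebra r K) (hsa : IsSelfAdjointFor f K) :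
    ∀ k ∈ K, ∀ v : ι → F, f (k *ᵥ v) v = 0 := by
  classical
  intro k hk v
  by_cases h2 : (2 : F) = 0
  · have hdouble : ∀ M : Matrix ι ι F, M + M = 0 := by
      intro M
      rw [← two_smul F M, h2, zero_smul]
    have hfinM : Finite (Matrix ι ι F) := inferInstanceAs (Finite (ι → ι → F))
    have hfinK : Finite K := Subtype.finite
    let sq : K → K := fun x => x * x
    have hinj : Function.Injective sq := by
      intro x y hxy
      have hxy' : (x : Matrix ι ι F) * x = (y : Matrix ι ι F) * y := congrArg Subtype.val hxy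
      have hcomm : (y : Matrix ι ι F) * x = (x : Matrix ι ι F) * y := hK.comm _ y.2 _ x.2
      have hz : ((x : Matrix ι ι F) - y) * ((x : Matrix ι ι F) - y) = 0 := by
        have : ((x : Matrix ι ι F) - y) * ((x : Matrix ι ι F) - y)
            = ((x : Matrix ι ι F) * x + (y : Matrix ι ι F) * y)
              - ((x : Matrix ι ι F) * y + (x : Matrix ι ι F) * y) := by
          rw [sub_mul, mul_sub, mul_sub, hcomm]
          abel
        rw [this, ← hxy', hdouble, hdouble, sub_zero]
      have hz0 : (x : Matrix ι ι F) - y = 0 := by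
        by_contra hne
        obtain ⟨z', _, hz'⟩ := hK.inv _ (K.sub_mem x.2 y.2) hne
        apply hne
        calc (x : Matrix ι ι F) - y = ((x : Matrix ι ι F) - y) * (((x : Matrix ι ι F) - y) * z') := by
              rw [hz', mul_one]
          _ = 0 := by rw [← mul_assoc, hz, zero_mul]
      exact Subtype.ext (sub_eq_zero.1 hz0)
    obtain ⟨l, hl⟩ := (Finite.injective_iff_surjective.1 hinj) ⟨k, hk⟩
    have hl' : (l : Matrix ι ι F) * l = k := congrArg Subtype.val hl
    rw [← hl', ← Matrix.mulVec_mulVec, hsa _ l.2]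
    exact hf.alternating _
  · have h1 : f (k *ᵥ v) v = - f (k *ᵥ v) v := by
      conv_lhs => rw [hsa k hk v v, hf.skew]
    have h3 : (2 : F) * f (k *ᵥ v) v = 0 := by
      rw [two_mul]
      nth_rewrite 1 [h1]
      exact neg_add_cancel _
    exact (mul_eq_zero.1 h3).resolve_left h2

end Cfsg.Agent.Lib.Helper80.AS
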