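import Cfsg.Agent.Lib.Helper80.AS.Defs

set_option autoImplicit false

namespace Cfsg.Agent.Lib.Helper80.AS

open Cfsg Cfsg.Geo
open scoped MatrixGroups Matrix Kronecker

variable {ι : Type} [Fintype ι] [DecidableEq ι] {F : Type*} [Field F]

/-- the dimension of a subspace invariant under a field of endomorphisms is a multiple of the degree -/
theorem dim4_aux {V : Type*} [AddCommGroup V] [Module F V] {K' : Type*} [Field K'] [Algebra F K']
    (φ : K' →ₐ[F] Module.End F V) (W : Submodule F V) (hW : ∀ k, ∀ w ∈ W, φ k w ∈ W) :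
    Module.finrank F K' ∣ Module.finrank F W := by
  letI : Module K' V := Module.compHom _ φ.toRingHom
  haveI : IsScalarTower F K' V := ⟨fun c k v => by
    show φ (c • k) v = c • φ k v
    rw [map_smul]; rfl⟩
  let W' : Submodule K' V :=
    { carrier := W
      add_mem' := fun ha hb => W.add_mem ha hb
      zero_mem' := W.zero_mem
      smul_mem' := fun k w hw => hW k w hw }
  have h := Module.finrank_mul_finrank F K' W'
  let e : W' ≃ₗ[F] W :=
    { toFun := fun x => ⟨x.1, x.2⟩
      invFun := fun x => ⟨x.1, x.2⟩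
      map_add' := fun _ _ => rfl
      map_smul' := fun _ _ => rfl
      left_inv := fun _ => rfl
      right_inv := fun _ => rfl }
  rw [e.finrank_eq] at h
  exact ⟨_, h.symm⟩

/-- DIM4. -/
theorem two_mul_dvd (f : (ι → F) → (ι → F) → F) (hf : IsSymplecticForm f)
    (K : Subalgebra F (Matrix ι ι F)) (r : ℕ) (hK : IsFieldSubalgebra r K) (hsa : IsSelfAdjointFor f K)
    (halt : ∀ k ∈ K, ∀ v : ι → F, f (k *ᵥ v) v = 0) : 2 * r ∣ Fintype.card ι := by
  classical
  rcases isEmpty_or_nonempty ι with hι | hι
  · rw [Fintype.card_eq_zero]; exact dvd_zero _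
  have hfield : IsField K :=
    { exists_pair_ne := ⟨0, 1, fun h => by
        have h1 : (0 : Matrix ι ι F) = 1 := congrArg Subtype.val h
        exact zero_ne_one h1⟩
      mul_comm := fun x y => Subtype.ext (hK.comm x.1 x.2 y.1 y.2)
      mul_inv_cancel := fun {x} hx => by
        obtain ⟨y, hy, hxy⟩ := hK.inv x.1 x.2 (fun h => hx (Subtype.ext h))
        exact ⟨⟨y, hy⟩, Subtype.ext hxy⟩ }
  -- the bilinear form
  let B : LinearMap.BilinForm F (ι → F) :=
    LinearMap.mk₂ F f hf.bilinear.add_left hf.bilinear.smul_left hf.bilinear.add_right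
      hf.bilinear.smul_right
  have hB : ∀ u v, B u v = f u v := fun u v => rfl
  have hker : LinearMap.ker B = ⊥ := by
    rw [LinearMap.ker_eq_bot']
    intro v hv
    by_contra hne
    obtain ⟨-, x, hx⟩ := hf.nondegenerate v hne
    apply hx
    rw [← hB, hv]; rfl
  -- a maximal invariant totally singular subspace
  let S : Set (Submodule F (ι → F)) :=
    {W | (∀ k ∈ K, ∀ w ∈ W, k *ᵥ w ∈ W) ∧ ∀ u ∈ W, ∀ v ∈ W, f u v = 0}
  have hS : S.Nonempty := ⟨⊥, by
    constructor
    · intro k _ w hw
      rw [Submodule.mem_bot] at hw ⊢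
      rw [hw, Matrix.mulVec_zero]
    · intro u hu v _
      rw [Submodule.mem_bot] at hu
      rw [hu, ← hB, map_zero]; rfl⟩
  obtain ⟨W, ⟨hWinv, hWts⟩, hWmax⟩ :=
    (wellFounded_gt : WellFounded (α := Submodule F (ι → F)) (· > ·)).has_min S hS
  have hperp : B.orthogonal W = W := by
    apply le_antisymm
    · intro v hv
      rw [LinearMap.BilinForm.mem_orthogonal_iff] at hv
      by_contra hvW
      -- the subspace `K v`
      let Kv : Submodule F (ι → F) :=
        Submodule.map ((LinearMap.applyₗ v).comp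
          ((Matrix.toLin' : Matrix ι ι F ≃ₗ[F] _).toLinearMap)) (Subalgebra.toSubmodule K)
      have hKv : ∀ x, x ∈ Kv ↔ ∃ k ∈ K, k *ᵥ v = x := by
        intro x
        simp only [Kv, Submodule.mem_map, Subalgebra.mem_toSubmodule, LinearMap.comp_apply,
          LinearMap.applyₗ_apply_apply, LinearEquiv.coe_coe, Matrix.toLin'_apply]
      apply hWmax (W ⊔ Kv)
      · constructor
        · intro k hk w hw
          obtain ⟨a, ha, b, hb, rfl⟩ := Submodule.mem_sup.1 hw
          obtain ⟨k', hk', rfl⟩ := (hKv b).1 hb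
          rw [Matrix.mulVec_add]
          refine Submodule.add_mem_sup (hWinv k hk a ha) ((hKv _).2 ⟨k * k', K.mul_mem hk hk', ?_⟩)
          rw [Matrix.mulVec_mulVec]
        · intro u hu w hw
          obtain ⟨a, ha, b, hb, rfl⟩ := Submodule.mem_sup.1 hu
          obtain ⟨a', ha', b', hb', rfl⟩ := Submodule.mem_sup.1 hw
          obtain ⟨k, hk, rfl⟩ := (hKv b).1 hb
          obtain ⟨k', hk', rfl⟩ := (hKv b').1 hb'
          rw [hf.bilinear.add_left, hf.bilinear.add_right, hf.bilinear.add_right, hWts a ha a' ha']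
          have h1 : f a (k' *ᵥ v) = 0 := by
            rw [← hsa k' hk']
            exact hv _ (hWinv k' hk' a ha)
          have h2 : f (k *ᵥ v) a' = 0 := by
            rw [hf.skew, ← hsa k hk, neg_eq_zero]
            exact hv _ (hWinv k hk a' ha')
          have h3 : f (k *ᵥ v) (k' *ᵥ v) = 0 := by
            rw [← hsa k' hk', Matrix.mulVec_mulVec]
            exact halt _ (K.mul_mem hk' hk) v
          rw [h1, h2, h3]; simp
      · refine lt_of_le_of_ne le_sup_left ?_
        intro heq
        apply hvW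
        rw [heq]
        exact Submodule.mem_sup_right ((hKv v).2 ⟨1, K.one_mem, Matrix.one_mulVec v⟩)
    · intro v hv
      rw [LinearMap.BilinForm.mem_orthogonal_iff]
      intro u hu
      exact hWts u hu v hv
  have hdim := LinearMap.BilinForm.finrank_add_finrank_orthogonal' (B := B) W
  rw [hperp, hker, inf_bot_eq, finrank_bot, add_zero, Module.finrank_fintype_fun_eq_card] at hdim
  have hdvd : r ∣ Module.finrank F W := by
    have h := @dim4_aux F _ (ι → F) _ _ K hfield.toField K.algebra
      ((Matrix.toLinAlgEquiv' : Matrix ι ι F ≃ₐ[F] _).toAlgHom.comp K.val) W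
      (fun k w hw => by
        have := hWinv k.1 k.2 w hw
        simpa using this)
    rw [← hK.finrank_eq]
    exact h
  obtain ⟨c, hc⟩ := hdvd
  exact ⟨c, by rw [← hdim, hc]; ring⟩

end Cfsg.Agent.Lib.Helper80.AS
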