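import Cfsg.Agent.Lib.Helper80.AS.Defs

set_option autoImplicit false
set_option linter.unusedSectionVars false

namespace Cfsg.Agent.Lib.Helper80.AS

open Cfsg Cfsg.Geo
open Cfsg.Agent.Lib.Helper77.Asch (NormBy MinOver)
open scoped MatrixGroups Matrix Kronecker

/-- an involutive automorphism of a finite field extension of odd degree is trivial. -/
theorem oddsa_aux {F L : Type*} [Field F] [Field L] [Finite L] [Algebra F L] (α : L →ₐ[F] L)
    (h : ∀ x, α (α x) = x) (hr : Odd (Module.finrank F L)) : ∀ x, α x = x := by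
  let e : L ≃ₐ[F] L := AlgEquiv.ofAlgHom α α (AlgHom.ext h) (AlgHom.ext h)
  have he : ∀ x, e x = α x := fun x => rfl
  have h2 : e ^ 2 = 1 := by
    apply AlgEquiv.ext
    intro x
    rw [sq, AlgEquiv.mul_apply, he, he, h]
    rfl
  have h3 : orderOf e ∣ 2 := orderOf_dvd_of_pow_eq_one h2
  have h4 : orderOf e ∣ Module.finrank F L := by
    rw [← IsGalois.card_aut_eq_finrank F L]
    exact orderOf_dvd_natCard e
  have h5 : orderOf e = 1 := by
    rcases (Nat.dvd_prime Nat.prime_two).1 h3 with h6 | h6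
    · exact h6
    · exfalso
      rw [h6] at h4
      exact (Nat.not_even_iff_odd.2 hr) (even_iff_two_dvd.2 h4)
  have h6 : e = 1 := orderOf_eq_one_iff.1 h5
  intro x
  rw [← he, h6]
  rfl

variable {ι : Type} [Fintype ι] [DecidableEq ι] {F : Type*} [Field F]

/-- right cancellation for a non-degenerate bilinear form, for matrices. -/
theorem oddsa_uniq (f : (ι → F) → (ι → F) → F) (hf : IsSymplecticForm f) (x y : Matrix ι ι F)
    (h : ∀ u v, f u (x *ᵥ v) = f u (y *ᵥ v)) : x = y := by
  have hb := hf.bilinear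
  apply Matrix.toLin'.injective
  apply LinearMap.ext
  intro v
  rw [Matrix.toLin'_apply, Matrix.toLin'_apply]
  by_contra hne
  obtain ⟨⟨u, hu⟩, -⟩ := hf.nondegenerate (x *ᵥ v - y *ᵥ v) (sub_ne_zero.2 hne)
  apply hu
  have h1 : f u (x *ᵥ v - y *ᵥ v) = f u (x *ᵥ v) + (-1) * f u (y *ᵥ v) := by
    rw [sub_eq_add_neg, hb.add_right, ← hb.smul_right, neg_one_smul]
  rw [h1, h u v]; ring

/-- ODDSA. -/
theorem selfAdj_of_odd [Fintype F] (f : (ι → F) → (ι → F) → F) (hf : IsSymplecticForm f)
    (K : Subalgebra F (Matrix ι ι F)) (r : ℕ) (hK : IsFieldSubalgebra r K) (hr : Odd r)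
    (hadj : IsAdjointClosedFor f K) : IsSelfAdjointFor f K := by
  have hb := hf.bilinear
  rcases isEmpty_or_nonempty ι with hι | hι
  · intro k _ u v
    rw [Subsingleton.elim (k *ᵥ u) u, Subsingleton.elim (k *ᵥ v) v]
  have hfld : IsField K :=
    { exists_pair_ne := ⟨0, 1, fun h => by
        have h1 : (0 : Matrix ι ι F) = 1 := congrArg Subtype.val h
        exact zero_ne_one h1⟩
      mul_comm := fun x y => Subtype.ext (hK.comm x.1 x.2 y.1 y.2)
      mul_inv_cancel := fun {x} hx => by
        obtain ⟨y, hy, hxy⟩ := hK.inv x.1 x.2 (fun h => hx (Subtype.ext h))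
        exact ⟨⟨y, hy⟩, Subtype.ext hxy⟩ }
  choose! a ha1 ha2 using hadj
  have hadd : ∀ x ∈ K, ∀ y ∈ K, a (x + y) = a x + a y := by
    intro x hx y hy
    apply oddsa_uniq f hf
    intro u v
    rw [← ha2 _ (K.add_mem hx hy), Matrix.add_mulVec, Matrix.add_mulVec, hb.add_left,
      hb.add_right, ha2 x hx, ha2 y hy]
  have hmul : ∀ x ∈ K, ∀ y ∈ K, a (x * y) = a x * a y := by
    intro x hx y hy
    apply oddsa_uniq f hf
    intro u v
    rw [← ha2 _ (K.mul_mem hx hy), hK.comm _ (ha1 x hx) _ (ha1 y hy), ← Matrix.mulVec_mulVec,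
      ← Matrix.mulVec_mulVec, ha2 x hx, ha2 y hy]
  have hsc : ∀ c : F, a (algebraMap F (Matrix ι ι F) c) = algebraMap F (Matrix ι ι F) c := by
    intro c
    apply oddsa_uniq f hf
    intro u v
    rw [← ha2 _ (K.algebraMap_mem c), Algebra.algebraMap_eq_smul_one, Matrix.smul_mulVec,
      Matrix.smul_mulVec, Matrix.one_mulVec, Matrix.one_mulVec, hb.smul_left, hb.smul_right]
  have hinv : ∀ x ∈ K, a (a x) = x := by
    intro x hx
    apply oddsa_uniq f hf
    intro u v
    rw [← ha2 _ (ha1 x hx), hf.skew, ← ha2 x hx, hf.skew, neg_neg]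
  let α : K →ₐ[F] K :=
    { toFun := fun x => ⟨a x, ha1 x x.2⟩
      map_one' := by
        apply Subtype.ext
        have := hsc 1
        rw [map_one] at this
        exact this
      map_mul' := fun x y => Subtype.ext (hmul x x.2 y y.2)
      map_zero' := by
        apply Subtype.ext
        have := hsc 0
        rw [map_zero] at this
        exact this
      map_add' := fun x y => Subtype.ext (hadd x x.2 y y.2)
      commutes' := fun c => Subtype.ext (hsc c) }
  have hfin : Finite K := inferInstance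
  have key := @oddsa_aux F K _ hfld.toField hfin K.algebra α
    (fun x => Subtype.ext (hinv x x.2)) (by rw [hK.finrank_eq]; exact hr)
  intro k hk u v
  have h1 : a k = k := congrArg Subtype.val (key ⟨k, hk⟩)
  rw [ha2 k hk, h1]

end Cfsg.Agent.Lib.Helper80.AS
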