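import Cfsg.Agent.Lib.Helper80.AS.Defs

set_option autoImplicit false
set_option linter.unusedSectionVars false

namespace Cfsg.Agent.Lib.Helper80.AS

open Cfsg Cfsg.Geo
open Cfsg.Agent.Lib.Helper77.Asch (NormBy MinOver)
open scoped MatrixGroups Matrix Kronecker

/-- the subfield of degree `r` of a finite extension of a finite field. -/
theorem subk_aux {F L : Type*} [Field F] [Fintype F] [Field L] [Finite L] [Algebra F L] (r : ℕ)
    (hr : r ∣ Module.finrank F L) :
    ∃ S : Subalgebra F L, Module.finrank F S = r ∧ ∀ x, x ∈ S ↔ x ^ (Fintype.card F ^ r) = x := by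
  classical
  set e := Module.finrank F L with he
  have hepos : 0 < e := Module.finrank_pos
  obtain ⟨c, hc⟩ := hr
  have hrpos : 0 < r := by
    rcases Nat.eq_zero_or_pos r with h0 | h0
    · rw [h0, zero_mul] at hc; omega
    · exact h0
  have hcpos : 0 < c := by
    rcases Nat.eq_zero_or_pos c with h0 | h0
    · rw [h0, mul_zero] at hc; omega
    · exact h0
  set φ := FiniteField.frobeniusAlgEquivOfAlgebraic F L with hφ
  have hord : orderOf φ = e := FiniteField.orderOf_frobeniusAlgEquivOfAlgebraic F L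
  have hord2 : orderOf (φ ^ r) = c := by
    rw [orderOf_pow' φ hrpos.ne', hord, hc, Nat.gcd_eq_right (Dvd.intro c rfl),
      Nat.mul_div_cancel_left _ hrpos]
  set K := IntermediateField.fixedField (Subgroup.zpowers (φ ^ r)) with hK
  have hfin : Module.finrank K L = c := by
    rw [IntermediateField.finrank_fixedField_eq_card, Nat.card_zpowers, hord2]
  have htower : Module.finrank F K * Module.finrank K L = Module.finrank F L :=
    Module.finrank_mul_finrank F K L
  have hFK : Module.finrank F K = r := by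
    rw [hfin, ← he, hc] at htower
    exact Nat.eq_of_mul_eq_mul_right hcpos htower
  have hpow : ∀ x : L, (φ ^ r) x = x ^ (Fintype.card F ^ r) := by
    intro x
    rw [AlgEquiv.coe_pow, FiniteField.coe_frobeniusAlgEquivOfAlgebraic_iterate]
  refine ⟨K.toSubalgebra, hFK, fun x => ?_⟩
  rw [IntermediateField.mem_toSubalgebra, hK, IntermediateField.mem_fixedField_iff, ← hpow]
  constructor
  · intro h
    exact h _ (Subgroup.mem_zpowers _)
  · intro h g hg
    have hstab : Subgroup.zpowers (φ ^ r) ≤ MulAction.stabilizer (L ≃ₐ[F] L) x := by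
      rw [Subgroup.zpowers_le]
      exact h
    exact hstab hg

variable {ι : Type} [Fintype ι] [DecidableEq ι] {F : Type*} [Field F]

/-- SUBK. -/
theorem exists_subfield_alg [Fintype F] (K : Subalgebra F (Matrix ι ι F)) (e r : ℕ)
    (hK : IsFieldSubalgebra e K) (he : 0 < e) (hr : r ∣ e) :
    ∃ K' : Subalgebra F (Matrix ι ι F), IsFieldSubalgebra r K' ∧
      ∀ x, x ∈ K' ↔ x ∈ K ∧ x ^ (Fintype.card F ^ r) = x := by
  rcases isEmpty_or_nonempty ι with hι | hι
  · exfalso
    have h1 := hK.finrank_eq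
    have : Subsingleton K := ⟨fun a b => Subtype.ext (Subsingleton.elim _ _)⟩
    rw [Module.finrank_zero_of_subsingleton] at h1
    omega
  have hfld : IsField K :=
    { exists_pair_ne := ⟨0, 1, fun h => by
        have h1 : (0 : Matrix ι ι F) = 1 := congrArg Subtype.val h
        exact zero_ne_one h1⟩
      mul_comm := fun x y => Subtype.ext (hK.comm x.1 x.2 y.1 y.2)
      mul_inv_cancel := fun {x} hx => by
        obtain ⟨y, hy, hxy⟩ := hK.inv x.1 x.2 (fun h => hx (Subtype.ext h))
        exact ⟨⟨y, hy⟩, Subtype.ext hxy⟩ }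
  have hfin : Finite K := inferInstance
  obtain ⟨S, hS1, hS2⟩ : ∃ S : Subalgebra F K, Module.finrank F S = r ∧
      ∀ x, x ∈ S ↔ x ^ (Fintype.card F ^ r) = x :=
    @subk_aux F K _ _ hfld.toField hfin K.algebra r (by rw [hK.finrank_eq]; exact hr)
  have hmem : ∀ x, x ∈ S.map K.val ↔ x ∈ K ∧ x ^ (Fintype.card F ^ r) = x := by
    intro x
    rw [Subalgebra.mem_map]
    constructor
    · rintro ⟨y, hy, rfl⟩
      refine ⟨y.2, ?_⟩
      have := congrArg Subtype.val ((hS2 y).1 hy)
      exact this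
    · rintro ⟨hx, hx2⟩
      exact ⟨⟨x, hx⟩, (hS2 _).2 (Subtype.ext hx2), rfl⟩
  refine ⟨S.map K.val, ⟨?_, ?_, ?_⟩, hmem⟩
  · intro x hx y hy
    exact hK.comm x ((hmem x).1 hx).1 y ((hmem y).1 hy).1
  · intro x hx hx0
    obtain ⟨hxK, hxN⟩ := (hmem x).1 hx
    obtain ⟨y, hy, hxy⟩ := hK.inv x hxK hx0
    refine ⟨y, (hmem y).2 ⟨hy, ?_⟩, hxy⟩
    have hyx : y * x = 1 := by rw [hK.comm y hy x hxK]; exact hxy
    have h1 : x * y ^ (Fintype.card F ^ r) = 1 := by
      have h2 : (x * y) ^ (Fintype.card F ^ r) = x ^ (Fintype.card F ^ r) * y ^ (Fintype.card F ^ r) :=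
        (show Commute x y from hK.comm x hxK y hy).mul_pow _
      rw [hxy, one_pow, hxN] at h2
      exact h2.symm
    calc y ^ (Fintype.card F ^ r) = (y * x) * y ^ (Fintype.card F ^ r) := by rw [hyx, one_mul]
      _ = y * (x * y ^ (Fintype.card F ^ r)) := by rw [mul_assoc]
      _ = y := by rw [h1, mul_one]
  · rw [← hS1]
    exact (S.equivMapOfInjective K.val Subtype.val_injective).toLinearEquiv.finrank_eq.symm

end Cfsg.Agent.Lib.Helper80.AS
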