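import Cfsg.Agent.Lib.Helper80.AS.Defs

set_option autoImplicit false

namespace Cfsg.Agent.Lib.Helper80.AS

open Cfsg Cfsg.Geo
open Cfsg.Agent.Lib.Helper77.Asch (NormBy MinOver)
open scoped MatrixGroups Matrix Kronecker

variable {ι : Type} [Fintype ι] [DecidableEq ι] {F : Type*} [Field F]

/-- SUBKN.  `(g x g⁻¹)^N = g x^N g⁻¹`. -/
theorem subfield_alg_norm (K K' : Subalgebra F (Matrix ι ι F)) (N : ℕ)
    (h : ∀ x, x ∈ K' ↔ x ∈ K ∧ x ^ N = x) : subalgebraNormalizer K ≤ subalgebraNormalizer K' := by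
  intro g hg x
  rw [h, h, ← hg x, Units.conj_pow, Units.mul_left_inj, Units.mul_right_inj]

theorem subkn_adj_pow (f : (ι → F) → (ι → F) → F) (x x' : Matrix ι ι F)
    (h : ∀ u v : ι → F, f (x *ᵥ u) v = f u (x' *ᵥ v)) (N : ℕ) :
    ∀ u v : ι → F, f ((x ^ N) *ᵥ u) v = f u ((x' ^ N) *ᵥ v) := by
  induction N with
  | zero => intro u v; simp
  | succ N ih =>
    intro u v
    rw [pow_succ', pow_succ, ← Matrix.mulVec_mulVec, ← Matrix.mulVec_mulVec, h, ih]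

/-- SUBKN. -/
theorem subfield_alg_adj (f : (ι → F) → (ι → F) → F) (hf : IsSymplecticForm f)
    (K K' : Subalgebra F (Matrix ι ι F)) (N : ℕ) (h : ∀ x, x ∈ K' ↔ x ∈ K ∧ x ^ N = x)
    (hadj : IsAdjointClosedFor f K) : IsAdjointClosedFor f K' := by
  intro x hx
  obtain ⟨hxK, hxN⟩ := (h x).1 hx
  obtain ⟨x', hx'K, hx'⟩ := hadj x hxK
  refine ⟨x', (h x').2 ⟨hx'K, ?_⟩, hx'⟩
  have h1 := subkn_adj_pow f x x' hx' N
  rw [hxN] at h1
  apply Matrix.toLin'.injective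
  apply LinearMap.ext
  intro v
  rw [Matrix.toLin'_apply, Matrix.toLin'_apply]
  by_contra hne
  have hne' : (x' ^ N) *ᵥ v - x' *ᵥ v ≠ 0 := sub_ne_zero.2 hne
  obtain ⟨⟨u, hu⟩, -⟩ := hf.nondegenerate _ hne'
  apply hu
  have h2 : f u ((x' ^ N) *ᵥ v - x' *ᵥ v) = f u ((x' ^ N) *ᵥ v) - f u (x' *ᵥ v) := by
    have h3 := hf.bilinear.add_right u ((x' ^ N) *ᵥ v - x' *ᵥ v) (x' *ᵥ v)
    rw [sub_add_cancel] at h3
    rw [h3, add_sub_cancel_right]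
  rw [h2, ← h1, ← hx', sub_self]

end Cfsg.Agent.Lib.Helper80.AS
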