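import Cfsg.Agent.Lib.Helper80.AS.DEG
import Cfsg.Agent.Lib.Helper80.AS.SUBK
import Cfsg.Agent.Lib.Helper80.AS.SUBKN
import Cfsg.Agent.Lib.Helper80.AS.ODDSA
import Cfsg.Agent.Lib.Helper80.AS.ALTK
import Cfsg.Agent.Lib.Helper80.AS.DIM4
import Cfsg.Agent.Lib.Helper80.AS.UQ

set_option autoImplicit false

namespace Cfsg.Agent.Lib.Helper80.AS

open Cfsg Cfsg.Geo
open Cfsg.Agent.Lib.Helper77.Asch (NormBy MinOver)
open scoped MatrixGroups Matrix Kronecker

variable {ι : Type} [Fintype ι] [DecidableEq ι] {F : Type*} [Field F]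

/-- T1C (assembly). -/
theorem comm_cases_c [Fintype F] (m : ℕ) (hm : m.Prime) (hm2 : m ≠ 2) (hcard : Fintype.card ι = 2 * m)
    (f : (ι → F) → (ι → F) → F) (hf : IsSymplecticForm f) (Γ : Subgroup (GL ι F))
    (hΓ : Γ ≤ similarityGroup f)
    (E : Subalgebra F (Matrix ι ι F)) (hn : Γ ≤ subalgebraNormalizer E)
    (hadj : IsAdjointClosedFor f E) (e : ℕ) (hE : IsFieldSubalgebra e E) :
    InGeoS m f Γ ∨ IsScal E := by
  have hmpos := hm.pos
  have : Nonempty ι := by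
    rw [← Fintype.card_pos_iff, hcard]; omega
  have hdvd : e ∣ 2 * m := hcard ▸ deg_dvd e E hE
  have hepos : 0 < e := Nat.pos_of_dvd_of_pos hdvd (by omega)
  have hmodd : Odd m := hm.odd_of_ne_two hm2
  by_cases hme : m ∣ e
  · left
    obtain ⟨K', hK', hmem⟩ := exists_subfield_alg E e m hE hepos hme
    have hadj' := subfield_alg_adj f hf E K' _ hmem hadj
    have hsa := selfAdj_of_odd f hf K' m hK' hmodd hadj'
    exact Or.inr (Or.inr (Or.inr (Or.inr (Or.inl ⟨K', hK', hsa, alt_of_selfAdj f hf K' m hK' hsa,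
      hn.trans (subfield_alg_norm E K' _ hmem)⟩))))
  · have hcop : Nat.Coprime e m := ((Nat.Prime.coprime_iff_not_dvd hm).2 hme).symm
    have he2 : e ∣ 2 := hcop.dvd_of_dvd_mul_right hdvd
    rcases (Nat.dvd_prime Nat.prime_two).1 he2 with rfl | rfl
    · right
      have hbot : E = ⊥ := Subalgebra.finrank_eq_one_iff.1 hE.finrank_eq
      intro x hx
      rw [hbot] at hx
      obtain ⟨c, rfl⟩ := Algebra.mem_bot.1 hx
      exact ⟨c, Algebra.algebraMap_eq_smul_one c⟩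
    · left
      by_cases hsa : IsSelfAdjointFor f E
      · exfalso
        have h4 := two_mul_dvd f hf E 2 hE hsa (alt_of_selfAdj f hf E 2 hE hsa)
        rw [hcard] at h4
        have h5 : 2 ∣ m := Nat.dvd_of_mul_dvd_mul_left (by norm_num) h4
        exact hm2 ((Nat.prime_dvd_prime_iff_eq Nat.prime_two hm).1 h5).symm
      · by_cases hq : Odd (Fintype.card F)
        · exact Or.inr (Or.inr (Or.inr (Or.inr (Or.inr (Or.inl ⟨hq, E, hE, hadj, hsa, hn⟩)))))
        · obtain ⟨Q, hQ1, hQ2, hQ3⟩ := quad_of_unitary_field hq f hf E hE hadj hsa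
          exact Or.inr (Or.inr (Or.inr (Or.inr (Or.inr (Or.inr (Or.inr (Or.inr
            ⟨hq, Q, hQ1, hQ2, (le_inf hn hΓ).trans hQ3⟩)))))))

end Cfsg.Agent.Lib.Helper80.AS
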