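import Cfsg.Agent.Lib.Helper80.AS.TCOMM

/-! Ladder ASCHS, core of TNORM / TFORM: Skolem–Noether for matrices and the normaliser of `M_s(F) ⊗ 1`. -/

set_option autoImplicit false

namespace Cfsg.Agent.Lib.Helper80.AS

open Cfsg Cfsg.Geo
open scoped MatrixGroups Matrix Kronecker

variable {F : Type*} [Field F]

/-- Skolem–Noether for the full matrix algebra. -/
theorem tnorm_sn {n : Type*} [Fintype n] [DecidableEq n] (β : Matrix n n F ≃ₐ[F] Matrix n n F) :
    ∃ a a' : Matrix n n F, a * a' = 1 ∧ a' * a = 1 ∧ ∀ x, β x = a * x * a' := by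
  let L : Matrix n n F ≃ₐ[F] ((n → F) →ₗ[F] (n → F)) := Matrix.toLinAlgEquiv'
  obtain ⟨T, hT⟩ := ((L.symm.trans β).trans L).eq_linearEquivConjAlgEquiv
  refine ⟨L.symm T.toLinearMap, L.symm T.symm.toLinearMap, ?_, ?_, ?_⟩
  · rw [← map_mul]
    have : (T.toLinearMap * T.symm.toLinearMap : (n → F) →ₗ[F] (n → F)) = 1 := by
      apply LinearMap.ext
      intro v
      change T (T.symm v) = v
      exact T.apply_symm_apply v
    rw [this, map_one]
  · rw [← map_mul]
    have : (T.symm.toLinearMap * T.toLinearMap : (n → F) →ₗ[F] (n → F)) = 1 := by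
      apply LinearMap.ext
      intro v
      change T.symm (T v) = v
      exact T.symm_apply_apply v
    rw [this, map_one]
  · intro x
    have h1 := congrArg (fun g => g (L x)) hT
    simp only [AlgEquiv.trans_apply, AlgEquiv.symm_apply_apply, LinearEquiv.conjAlgEquiv_apply] at h1
    apply L.injective
    rw [h1, map_mul, map_mul, AlgEquiv.apply_symm_apply, AlgEquiv.apply_symm_apply]
    rfl

theorem tnorm_kron_inj {s k : ℕ} (o : Fin k) (x y : Matrix (Fin s) (Fin s) F)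
    (h : x ⊗ₖ (1 : Matrix (Fin k) (Fin k) F) = y ⊗ₖ (1 : Matrix (Fin k) (Fin k) F)) : x = y := by
  ext i j
  have := congrFun (congrFun h (i, o)) (j, o)
  simpa [Matrix.kroneckerMap_apply] using this

/-- the normaliser of `M_s(F) ⊗ 1`, pure matrix form. -/
theorem tnorm_core {s k : ℕ} (o : Fin k) (C C' : Matrix (Fin s × Fin k) (Fin s × Fin k) F)
    (h1 : C * C' = 1) (h2 : C' * C = 1)
    (h : ∀ x : Matrix (Fin s) (Fin s) F, ∃ x' : Matrix (Fin s) (Fin s) F,
      C * (x ⊗ₖ (1 : Matrix (Fin k) (Fin k) F)) * C' = x' ⊗ₖ (1 : Matrix (Fin k) (Fin k) F)) :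
    ∃ (a a' : Matrix (Fin s) (Fin s) F) (y : Matrix (Fin k) (Fin k) F), a * a' = 1 ∧ a' * a = 1 ∧ C = a ⊗ₖ y := by
  classical
  -- the explicit linear map
  let βl : Matrix (Fin s) (Fin s) F →ₗ[F] Matrix (Fin s) (Fin s) F :=
    { toFun := fun x => Matrix.of (fun i j => (C * (x ⊗ₖ (1 : Matrix (Fin k) (Fin k) F)) * C') (i, o) (j, o))
      map_add' := by
        intro x y
        ext i j
        simp [Matrix.add_kronecker, mul_add, add_mul]
      map_smul' := by
        intro c x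
        ext i j
        simp [Matrix.smul_kronecker] }
  have hβ : ∀ x, C * (x ⊗ₖ (1 : Matrix (Fin k) (Fin k) F)) * C' = (βl x) ⊗ₖ (1 : Matrix (Fin k) (Fin k) F) := by
    intro x
    obtain ⟨x', hx'⟩ := h x
    have : βl x = x' := by
      ext i j
      change (C * (x ⊗ₖ (1 : Matrix (Fin k) (Fin k) F)) * C') (i, o) (j, o) = x' i j
      rw [hx']
      simp [Matrix.kroneckerMap_apply]
    rw [this, hx']
  have hone : βl 1 = 1 := by
    apply tnorm_kron_inj o
    rw [← hβ, Matrix.one_kronecker_one, mul_one, h1]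
  have hmul : ∀ x y, βl (x * y) = βl x * βl y := by
    intro x y
    apply tnorm_kron_inj o
    rw [← hβ]
    have : (βl x * βl y) ⊗ₖ (1 : Matrix (Fin k) (Fin k) F) =
        ((βl x) ⊗ₖ (1 : Matrix (Fin k) (Fin k) F)) * ((βl y) ⊗ₖ (1 : Matrix (Fin k) (Fin k) F)) := by
      rw [← Matrix.mul_kronecker_mul, mul_one]
    rw [this, ← hβ, ← hβ]
    have e1 : (x * y) ⊗ₖ (1 : Matrix (Fin k) (Fin k) F) =
        (x ⊗ₖ (1 : Matrix (Fin k) (Fin k) F)) * (y ⊗ₖ (1 : Matrix (Fin k) (Fin k) F)) := by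
      rw [← Matrix.mul_kronecker_mul, mul_one]
    rw [e1]
    calc C * ((x ⊗ₖ (1 : Matrix (Fin k) (Fin k) F)) * (y ⊗ₖ (1 : Matrix (Fin k) (Fin k) F))) * C'
        = C * (x ⊗ₖ (1 : Matrix (Fin k) (Fin k) F)) * 1 * (y ⊗ₖ (1 : Matrix (Fin k) (Fin k) F)) * C' := by
          simp only [mul_one, mul_assoc]
      _ = _ := by rw [← h2]; simp only [mul_assoc]
  let βa : Matrix (Fin s) (Fin s) F →ₐ[F] Matrix (Fin s) (Fin s) F := AlgHom.ofLinearMap βl hone hmul
  have hinj : Function.Injective βa := by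
    rw [injective_iff_map_eq_zero]
    intro x hx
    have hx' : βl x = 0 := hx
    have e1 := hβ x
    rw [hx', Matrix.zero_kronecker] at e1
    apply tnorm_kron_inj o
    rw [Matrix.zero_kronecker]
    calc x ⊗ₖ (1 : Matrix (Fin k) (Fin k) F)
        = (C' * C) * (x ⊗ₖ (1 : Matrix (Fin k) (Fin k) F)) * (C' * C) := by rw [h2, one_mul, mul_one]
      _ = C' * (C * (x ⊗ₖ (1 : Matrix (Fin k) (Fin k) F)) * C') * C := by simp only [mul_assoc]
      _ = 0 := by rw [e1, mul_zero, zero_mul]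
  have hsurj : Function.Surjective βa := by
    have : Function.Injective βa.toLinearMap := hinj
    exact LinearMap.injective_iff_surjective.mp this
  obtain ⟨a, a', ha1, ha2, ha⟩ := tnorm_sn (AlgEquiv.ofBijective βa ⟨hinj, hsurj⟩)
  have ha' : ∀ x, βl x = a * x * a' := fun x => ha x
  obtain ⟨y, hy⟩ := tcomm_core ((a' ⊗ₖ (1 : Matrix (Fin k) (Fin k) F)) * C) (by
    intro x
    have e1 : C * (x ⊗ₖ (1 : Matrix (Fin k) (Fin k) F)) = ((βl x) ⊗ₖ (1 : Matrix (Fin k) (Fin k) F)) * C := by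
      rw [← hβ, mul_assoc, h2, mul_one]
    rw [mul_assoc, e1, ← mul_assoc, ← mul_assoc, ← Matrix.mul_kronecker_mul, ← Matrix.mul_kronecker_mul, ha',
      mul_one]
    congr 2
    rw [← mul_assoc, ← mul_assoc, ha2, one_mul])
  refine ⟨a, a', y, ha1, ha2, ?_⟩
  calc C = ((a * a') ⊗ₖ (1 : Matrix (Fin k) (Fin k) F)) * C := by rw [ha1, Matrix.one_kronecker_one, one_mul]
    _ = (a ⊗ₖ (1 : Matrix (Fin k) (Fin k) F)) * ((a' ⊗ₖ (1 : Matrix (Fin k) (Fin k) F)) * C) := by
        rw [← mul_assoc, ← Matrix.mul_kronecker_mul, mul_one]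
    _ = a ⊗ₖ y := by rw [hy, ← Matrix.mul_kronecker_mul, mul_one, one_mul]

end Cfsg.Agent.Lib.Helper80.AS
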