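import Cfsg.Agent.Lib.Helper80.AS.Defs

/-! Ladder ASCHS (helper80), rung ABSR (helper1): port of Asch/ABSR. -/

set_option autoImplicit false

namespace Cfsg.Agent.Lib.Helper80.AS

open Cfsg Cfsg.Geo
open Cfsg.Agent.Lib.Helper77.Asch (NormBy MinOver)
open scoped MatrixGroups Matrix Kronecker

variable {ι : Type} [Fintype ι] [DecidableEq ι] {F : Type*} [Field F]


/-- every element of `R ⊔ scalars` is a scalar multiple of an element of `R` -/
theorem absr_mem_sup (R : Subgroup (GL ι F)) (g : GL ι F)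
    (hg : g ∈ R ⊔ scalars ι F) :
    ∃ r ∈ R, ∃ c : F, (g : Matrix ι ι F) = c • (r : Matrix ι ι F) := by
  rw [Subgroup.mem_sup_of_normal_right] at hg
  obtain ⟨r, hr, z, hz, rfl⟩ := hg
  obtain ⟨c, hc⟩ := (mem_scalars_iff z).mp hz
  exact ⟨r, hr, c, by rw [Units.val_mul, hc, Matrix.mul_smul, mul_one]⟩

/-- ABSR.  Invariant subspaces and commutants of R and of R ⊔ scalars coincide. -/
theorem absIrr_of_sup (R : Subgroup (GL ι F))
    (h : ActsAbsolutelyIrreducibly (matrixSet (R ⊔ scalars ι F))) :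
    ActsAbsolutelyIrreducibly (matrixSet R) := by
  obtain ⟨h1, h2⟩ := h
  constructor
  · intro W hW
    apply h1 W
    rintro _ ⟨g, hg, rfl⟩
    obtain ⟨r, hr, c, hc⟩ := absr_mem_sup R g hg
    rintro _ ⟨v, hv, rfl⟩
    have hrv := hW _ ⟨r, hr, rfl⟩ (Submodule.mem_map_of_mem hv)
    rw [Matrix.toLin'_apply] at hrv
    simp only [hc]
    rw [Matrix.toLin'_apply, Matrix.smul_mulVec]
    exact W.smul_mem c hrv
  · intro M hM
    apply h2 M
    rintro _ ⟨g, hg, rfl⟩
    obtain ⟨r, hr, c, hc⟩ := absr_mem_sup R g hg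
    simp only [hc]
    rw [Matrix.mul_smul, Matrix.smul_mul, hM _ ⟨r, hr, rfl⟩]

end Cfsg.Agent.Lib.Helper80.AS
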