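import Cfsg.Agent.Lib.Helper80.AS.Defs

set_option autoImplicit false

namespace Cfsg.Agent.Lib.Helper80.AS

open Cfsg Cfsg.Geo
open Cfsg.Agent.Lib.Helper77.Asch (NormBy MinOver)
open scoped MatrixGroups Matrix Kronecker

variable {ι : Type} [Fintype ι] [DecidableEq ι] {F : Type*} [Field F]

theorem cen_mem_iff (B : Subalgebra F (Matrix ι ι F)) (z : Matrix ι ι F) :
    z ∈ cen B ↔ z ∈ B ∧ ∀ b ∈ B, b * z = z * b := by
  unfold cen
  rw [Algebra.mem_inf, Subalgebra.mem_centralizer_iff]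
  rfl

/-- CEN (easy). -/
theorem cen_comm (B : Subalgebra F (Matrix ι ι F)) : IsComm (cen B) := by
  intro x hx y hy
  exact ((cen_mem_iff B y).1 hy).2 x ((cen_mem_iff B x).1 hx).1

theorem cen_aux (B : Subalgebra F (Matrix ι ι F)) (g : GL ι F) (hg : g ∈ subalgebraNormalizer B)
    (k : Matrix ι ι F) (hk : k ∈ cen B) :
    (g : Matrix ι ι F) * k * ((g⁻¹ : GL ι F) : Matrix ι ι F) ∈ cen B := by
  have hgg : (g : Matrix ι ι F) * ((g⁻¹ : GL ι F) : Matrix ι ι F) = 1 := by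
    rw [← Units.val_mul, mul_inv_cancel, Units.val_one]
  have hgg' : ((g⁻¹ : GL ι F) : Matrix ι ι F) * (g : Matrix ι ι F) = 1 := by
    rw [← Units.val_mul, inv_mul_cancel, Units.val_one]
  obtain ⟨hkB, hkc⟩ := (cen_mem_iff B k).1 hk
  rw [cen_mem_iff]
  refine ⟨(hg k).1 hkB, fun b hb => ?_⟩
  have hb' : ((g⁻¹ : GL ι F) : Matrix ι ι F) * b * (g : Matrix ι ι F) ∈ B := by
    rw [hg]
    have : (g : Matrix ι ι F) * (((g⁻¹ : GL ι F) : Matrix ι ι F) * b * (g : Matrix ι ι F)) *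
        ((g⁻¹ : GL ι F) : Matrix ι ι F) = b := by
      calc _ = ((g : Matrix ι ι F) * ((g⁻¹ : GL ι F) : Matrix ι ι F)) * b *
            ((g : Matrix ι ι F) * ((g⁻¹ : GL ι F) : Matrix ι ι F)) := by simp only [mul_assoc]
        _ = b := by rw [hgg, one_mul, mul_one]
    rw [this]
    exact hb
  have h1 := hkc _ hb'
  calc b * ((g : Matrix ι ι F) * k * ((g⁻¹ : GL ι F) : Matrix ι ι F))
      = ((g : Matrix ι ι F) * ((g⁻¹ : GL ι F) : Matrix ι ι F)) * b *
          ((g : Matrix ι ι F) * k * ((g⁻¹ : GL ι F) : Matrix ι ι F)) := by rw [hgg, one_mul]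
    _ = (g : Matrix ι ι F) * ((((g⁻¹ : GL ι F) : Matrix ι ι F) * b * (g : Matrix ι ι F)) * k) *
          ((g⁻¹ : GL ι F) : Matrix ι ι F) := by simp only [mul_assoc]
    _ = (g : Matrix ι ι F) * (k * (((g⁻¹ : GL ι F) : Matrix ι ι F) * b * (g : Matrix ι ι F))) *
          ((g⁻¹ : GL ι F) : Matrix ι ι F) := by rw [h1]
    _ = (g : Matrix ι ι F) * k * ((g⁻¹ : GL ι F) : Matrix ι ι F) * b *
          ((g : Matrix ι ι F) * ((g⁻¹ : GL ι F) : Matrix ι ι F)) := by simp only [mul_assoc]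
    _ = (g : Matrix ι ι F) * k * ((g⁻¹ : GL ι F) : Matrix ι ι F) * b := by rw [hgg, mul_one]

/-- CEN. -/
theorem cen_norm (Γ : Subgroup (GL ι F)) (B : Subalgebra F (Matrix ι ι F))
    (h : Γ ≤ subalgebraNormalizer B) : Γ ≤ subalgebraNormalizer (cen B) := by
  intro g hg k
  constructor
  · exact cen_aux B g (h hg) k
  · intro hk
    have h1 := cen_aux B g⁻¹ ((subalgebraNormalizer B).inv_mem (h hg)) _ hk
    have hgg' : ((g⁻¹ : GL ι F) : Matrix ι ι F) * (g : Matrix ι ι F) = 1 := by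
      rw [← Units.val_mul, inv_mul_cancel, Units.val_one]
    rw [inv_inv] at h1
    have h2 : ((g⁻¹ : GL ι F) : Matrix ι ι F) *
        ((g : Matrix ι ι F) * k * ((g⁻¹ : GL ι F) : Matrix ι ι F)) * (g : Matrix ι ι F) = k := by
      calc _ = (((g⁻¹ : GL ι F) : Matrix ι ι F) * (g : Matrix ι ι F)) * k *
            (((g⁻¹ : GL ι F) : Matrix ι ι F) * (g : Matrix ι ι F)) := by simp only [mul_assoc]
        _ = k := by rw [hgg', one_mul, mul_one]
    rw [h2] at h1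
    exact h1

/-- CEN. -/
theorem cen_adj (f : (ι → F) → (ι → F) → F) (hf : IsSymplecticForm f) (B : Subalgebra F (Matrix ι ι F))
    (hadj : IsAdjointClosedFor f B) : IsAdjointClosedFor f (cen B) := by
  intro z hz
  obtain ⟨hzB, hzc⟩ := (cen_mem_iff B z).1 hz
  obtain ⟨z', hz'B, hz'⟩ := hadj z hzB
  refine ⟨z', ?_, hz'⟩
  rw [cen_mem_iff]
  refine ⟨hz'B, fun y hy => ?_⟩
  obtain ⟨y', hy'B, hy'⟩ := hadj y hy
  -- `y` is the adjoint of `y'`
  have hyy : ∀ u v, f (y' *ᵥ u) v = f u (y *ᵥ v) := by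
    intro u v
    rw [hf.skew, ← hy', hf.skew, neg_neg]
  have hcomm := hzc y' hy'B
  -- compare
  have key : ∀ u v, f u ((y * z') *ᵥ v) = f u ((z' * y) *ᵥ v) := by
    intro u v
    have e1 : f ((z * y') *ᵥ u) v = f u ((y * z') *ᵥ v) := by
      rw [← Matrix.mulVec_mulVec, hz', hyy, Matrix.mulVec_mulVec]
    have e2 : f ((y' * z) *ᵥ u) v = f u ((z' * y) *ᵥ v) := by
      rw [← Matrix.mulVec_mulVec, hyy, hz', Matrix.mulVec_mulVec]
    rw [← e1, ← e2, hcomm]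
  have hv : ∀ v, (y * z') *ᵥ v = (z' * y) *ᵥ v := by
    intro v
    by_contra hne
    have hne' : (y * z') *ᵥ v - (z' * y) *ᵥ v ≠ 0 := sub_ne_zero.2 hne
    obtain ⟨⟨x, hx⟩, -⟩ := hf.nondegenerate _ hne'
    apply hx
    have h1 : f x ((y * z') *ᵥ v - (z' * y) *ᵥ v) + f x ((z' * y) *ᵥ v) = f x ((y * z') *ᵥ v) := by
      rw [← hf.bilinear.add_right, sub_add_cancel]
    rw [key] at h1
    exact add_eq_right.1 h1
  ext i j
  have := congrFun (hv (Pi.single j 1)) i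
  simpa using this

end Cfsg.Agent.Lib.Helper80.AS
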