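import Cfsg.Agent.Lib.Helper80.AS.Defs

set_option autoImplicit false

namespace Cfsg.Agent.Lib.Helper80.AS

open Cfsg Cfsg.Geo
open Cfsg.Agent.Lib.Helper77.Asch (NormBy MinOver)
open scoped MatrixGroups Matrix Kronecker

variable {ι : Type} [Fintype ι] [DecidableEq ι] {F : Type*} [Field F]

/-- ENVA. -/
theorem env_adj (f : (ι → F) → (ι → F) → F) (hf : IsBilinearForm f) (N : Subgroup (GL ι F))
    (hN : N ≤ similarityGroup f) : IsAdjointClosedFor f (env N) := by
  intro k hk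
  unfold env at hk ⊢
  induction hk using Algebra.adjoin_induction with
  | mem x hx =>
    obtain ⟨y, hy, rfl⟩ := hx
    obtain ⟨c, hc⟩ := hN hy
    refine ⟨(c : F) • ((y⁻¹ : GL ι F) : Matrix ι ι F), ?_, ?_⟩
    · apply Subalgebra.smul_mem
      apply Algebra.subset_adjoin
      exact ⟨y⁻¹, N.inv_mem hy, rfl⟩
    · intro u v
      have h1 : (y : Matrix ι ι F) *ᵥ (((y⁻¹ : GL ι F) : Matrix ι ι F) *ᵥ v) = v := by
        rw [Matrix.mulVec_mulVec, ← Units.val_mul, mul_inv_cancel, Units.val_one,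
          Matrix.one_mulVec]
      have h2 := hc u (((y⁻¹ : GL ι F) : Matrix ι ι F) *ᵥ v)
      rw [h1] at h2
      show f ((y : Matrix ι ι F) *ᵥ u) v = _
      rw [h2, Matrix.smul_mulVec, hf.smul_right]
  | algebraMap r =>
    refine ⟨algebraMap F (Matrix ι ι F) r, Subalgebra.algebraMap_mem _ r, ?_⟩
    intro u v
    rw [Algebra.algebraMap_eq_smul_one, Matrix.smul_mulVec, Matrix.smul_mulVec,
      Matrix.one_mulVec, Matrix.one_mulVec, hf.smul_left, hf.smul_right]
  | add x y _ _ hx hy =>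
    obtain ⟨x', hx', hxa⟩ := hx
    obtain ⟨y', hy', hya⟩ := hy
    refine ⟨x' + y', Subalgebra.add_mem _ hx' hy', ?_⟩
    intro u v
    rw [Matrix.add_mulVec, Matrix.add_mulVec, hf.add_left, hf.add_right, hxa, hya]
  | mul x y _ _ hx hy =>
    obtain ⟨x', hx', hxa⟩ := hx
    obtain ⟨y', hy', hya⟩ := hy
    refine ⟨y' * x', Subalgebra.mul_mem _ hy' hx', ?_⟩
    intro u v
    rw [← Matrix.mulVec_mulVec, ← Matrix.mulVec_mulVec, hxa, hya]

end Cfsg.Agent.Lib.Helper80.AS
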