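import Cfsg.Agent.Lib.Helper80.AS.Defs

set_option autoImplicit false

namespace Cfsg.Agent.Lib.Helper80.AS

open Cfsg Cfsg.Geo
open Cfsg.Agent.Lib.Helper77.Asch (NormBy MinOver)
open scoped MatrixGroups Matrix Kronecker

variable {ι : Type} [Fintype ι] [DecidableEq ι] {F : Type*} [Field F]

theorem envn_aux (N : Subgroup (GL ι F)) (g : GL ι F) (hg : ∀ x ∈ N, g * x * g⁻¹ ∈ N)
    (k : Matrix ι ι F) (hk : k ∈ env N) :
    (g : Matrix ι ι F) * k * ((g⁻¹ : GL ι F) : Matrix ι ι F) ∈ env N := by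
  have hgg : (g : Matrix ι ι F) * ((g⁻¹ : GL ι F) : Matrix ι ι F) = 1 := by
    rw [← Units.val_mul, mul_inv_cancel, Units.val_one]
  have hgg' : ((g⁻¹ : GL ι F) : Matrix ι ι F) * (g : Matrix ι ι F) = 1 := by
    rw [← Units.val_mul, inv_mul_cancel, Units.val_one]
  unfold env at hk ⊢
  induction hk using Algebra.adjoin_induction with
  | mem x hx =>
    obtain ⟨y, hy, rfl⟩ := hx
    apply Algebra.subset_adjoin
    exact ⟨g * y * g⁻¹, hg y hy, by simp [Units.val_mul]⟩
  | algebraMap r =>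
    have : (g : Matrix ι ι F) * (algebraMap F (Matrix ι ι F) r) * ((g⁻¹ : GL ι F) : Matrix ι ι F)
        = algebraMap F (Matrix ι ι F) r := by
      rw [← Algebra.commutes, mul_assoc, hgg, mul_one]
    rw [this]
    exact Subalgebra.algebraMap_mem _ r
  | add x y _ _ hx hy =>
    rw [mul_add, add_mul]
    exact Subalgebra.add_mem _ hx hy
  | mul x y _ _ hx hy =>
    have : (g : Matrix ι ι F) * (x * y) * ((g⁻¹ : GL ι F) : Matrix ι ι F) =
        ((g : Matrix ι ι F) * x * ((g⁻¹ : GL ι F) : Matrix ι ι F)) *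
          ((g : Matrix ι ι F) * y * ((g⁻¹ : GL ι F) : Matrix ι ι F)) := by
      calc (g : Matrix ι ι F) * (x * y) * ((g⁻¹ : GL ι F) : Matrix ι ι F)
          = (g : Matrix ι ι F) * x * 1 * y * ((g⁻¹ : GL ι F) : Matrix ι ι F) := by
            simp only [mul_one, mul_assoc]
        _ = _ := by rw [← hgg']; simp only [mul_assoc]
    rw [this]
    exact Subalgebra.mul_mem _ hx hy

/-- ENVN. -/
theorem env_norm (Γ N : Subgroup (GL ι F)) (hnorm : NormBy Γ N) : Γ ≤ subalgebraNormalizer (env N) := by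
  intro g hg k
  constructor
  · exact envn_aux N g (hnorm g hg) k
  · intro h
    have h1 := envn_aux N g⁻¹ (hnorm g⁻¹ (Γ.inv_mem hg)) _ h
    have hgg' : ((g⁻¹ : GL ι F) : Matrix ι ι F) * (g : Matrix ι ι F) = 1 := by
      rw [← Units.val_mul, inv_mul_cancel, Units.val_one]
    rw [inv_inv] at h1
    have h2 : ((g⁻¹ : GL ι F) : Matrix ι ι F) *
        ((g : Matrix ι ι F) * k * ((g⁻¹ : GL ι F) : Matrix ι ι F)) * (g : Matrix ι ι F) = k := by
      calc _ = (((g⁻¹ : GL ι F) : Matrix ι ι F) * (g : Matrix ι ι F)) * k *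
            (((g⁻¹ : GL ι F) : Matrix ι ι F) * (g : Matrix ι ι F)) := by simp only [mul_assoc]
        _ = k := by rw [hgg', one_mul, mul_one]
    rw [h2] at h1
    exact h1

end Cfsg.Agent.Lib.Helper80.AS
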