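import Cfsg.Agent.Lib.Helper80.AS.UNIQ
import Cfsg.Agent.Lib.Helper11.AschO.SF1

/-! Ladder ASCHS, rung FRAT: the invariant form of a group realisable over a subfield is rational up to a scalar. -/

set_option autoImplicit false

namespace Cfsg.Agent.Lib.Helper80.AS

open Cfsg Cfsg.Geo
open scoped MatrixGroups Matrix Kronecker

variable {ι : Type} [Fintype ι] [DecidableEq ι] {F : Type*} [Field F]

/-- FRAT. -/
theorem form_rational [Fintype F] [Nonempty ι] (f : (ι → F) → (ι → F) → F) (hf : IsBilinearForm f)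
    (hfn : IsNondegenerateForm f) (P : Subgroup (GL ι F)) (hP : ActsAbsolutelyIrreducibly (matrixSet P))
    (hfix : FixesForm (matrixSet P) f) (F₁ : Subfield F) (B : GL ι F)
    (hB : ∀ s ∈ matrixSet P, ∀ i j,
      ((B : Matrix ι ι F) * s * ((B⁻¹ : GL ι F) : Matrix ι ι F)) i j ∈ F₁) :
    ∃ ζ : F, ζ ≠ 0 ∧ IsFormRationalStructure f F₁ ζ B⁻¹ := by
  obtain ⟨t, ht, h⟩ := Cfsg.Agent.Lib.Helper11.AschO.gram_rational P hP F₁ B hB (gramMatrix f)
    (uniq_det f hf hfn) (fun s hs => uniq_inv f hf s (hfix s hs))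
  refine ⟨t⁻¹, inv_ne_zero ht, ?_⟩
  intro u v hu hv
  rw [uniq_gram f hf, uniq_dot]
  set M := (((B⁻¹ : GL ι F) : Matrix ι ι F)ᵀ * gramMatrix f * ((B⁻¹ : GL ι F) : Matrix ι ι F)) with hM
  have h1 : t⁻¹ * (u ⬝ᵥ (M *ᵥ v)) = ∑ i, u i * ∑ j, (t⁻¹ * M i j) * v j := by
    unfold dotProduct Matrix.mulVec dotProduct
    rw [Finset.mul_sum]
    apply Finset.sum_congr rfl
    intro i _
    rw [Finset.mul_sum, Finset.mul_sum, Finset.mul_sum]
    apply Finset.sum_congr rfl
    intro j _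
    ring
  rw [h1]
  apply Subfield.sum_mem
  intro i _
  apply Subfield.mul_mem _ (hu i)
  apply Subfield.sum_mem
  intro j _
  exact Subfield.mul_mem _ (h i j) (hv j)

end Cfsg.Agent.Lib.Helper80.AS
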