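import Cfsg.Agent.Lib.Helper80.AS.Defs

set_option autoImplicit false

namespace Cfsg.Agent.Lib.Helper80.AS

open Cfsg Cfsg.Geo
open Cfsg.Agent.Lib.Helper77.Asch (NormBy MinOver)
open scoped MatrixGroups Matrix Kronecker

variable {ι : Type} [Fintype ι] [DecidableEq ι] {F : Type*} [Field F]

/-- MONO (9 easy cases). -/
theorem InGeoS.mono [Fintype F] {m : ℕ} {f : (ι → F) → (ι → F) → F} {H Γ : Subgroup (GL ι F)} (h : H ≤ Γ)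
    (hΓ : InGeoS m f Γ) : InGeoS m f H := by
  rcases hΓ with ⟨W, h0, h1, h2⟩ | ⟨W, h0, h1, h2, h3⟩ | ⟨h0, D, h1, h2⟩ | ⟨h0, D, h1, h2, h3⟩ |
    ⟨K, h0, h1, h2, h3⟩ | ⟨h0, K, h1, h2, h3, h4⟩ | ⟨h0, h1, e, P, f₁, f₂, h2, h3, h4, h5⟩ |
    ⟨F₀, r, P, ζ, h0, h1, h2, h3, h4⟩ | ⟨h0, Q, h1, h2, h3⟩
  · exact Or.inl ⟨W, h0, h1, h.trans h2⟩
  · exact Or.inr (Or.inl ⟨W, h0, h1, h2, h.trans h3⟩)
  · exact Or.inr (Or.inr (Or.inl ⟨h0, D, h1, h.trans h2⟩))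
  · exact Or.inr (Or.inr (Or.inr (Or.inl ⟨h0, D, h1, h2, h.trans h3⟩)))
  · exact Or.inr (Or.inr (Or.inr (Or.inr (Or.inl ⟨K, h0, h1, h2, h.trans h3⟩))))
  · exact Or.inr (Or.inr (Or.inr (Or.inr (Or.inr (Or.inl ⟨h0, K, h1, h2, h3, h.trans h4⟩)))))
  · exact Or.inr (Or.inr (Or.inr (Or.inr (Or.inr (Or.inr (Or.inl
      ⟨h0, h1, e, P, f₁, f₂, h2, h3, h4, h.trans h5⟩))))))
  · exact Or.inr (Or.inr (Or.inr (Or.inr (Or.inr (Or.inr (Or.inr (Or.inl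
      ⟨F₀, r, P, ζ, h0, h1, h2, h3, h.trans h4⟩)))))))
  · exact Or.inr (Or.inr (Or.inr (Or.inr (Or.inr (Or.inr (Or.inr (Or.inr
      ⟨h0, Q, h1, h2, h.trans h3⟩)))))))

end Cfsg.Agent.Lib.Helper80.AS
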