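import Cfsg.Agent.Lib.Helper80.AS.Defs

set_option autoImplicit false

namespace Cfsg.Agent.Lib.Helper80.AS

open Cfsg Cfsg.Geo
open Cfsg.Agent.Lib.Helper77.Asch (NormBy MinOver)
open scoped MatrixGroups Matrix Kronecker

variable {ι : Type} [Fintype ι] [DecidableEq ι] {F : Type*} [Field F]

/-- the isometry group of `f`. -/
def multIso (f : (ι → F) → (ι → F) → F) : Subgroup (GL ι F) where
  carrier := {g | ∀ u v, f ((g : Matrix ι ι F) *ᵥ u) ((g : Matrix ι ι F) *ᵥ v) = f u v}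
  mul_mem' {a b} ha hb := by
    intro u v
    rw [Units.val_mul, ← Matrix.mulVec_mulVec, ← Matrix.mulVec_mulVec, ha, hb]
  one_mem' := fun u v => by simp
  inv_mem' {a} ha := by
    intro u v
    have h := ha (((a⁻¹ : GL ι F) : Matrix ι ι F) *ᵥ u) (((a⁻¹ : GL ι F) : Matrix ι ι F) *ᵥ v)
    rw [Matrix.mulVec_mulVec, Matrix.mulVec_mulVec, ← Units.val_mul, mul_inv_cancel, Units.val_one,
      Matrix.one_mulVec, Matrix.one_mulVec] at h
    exact h.symm

/-- MULT. -/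
theorem commutator_fixes (f : (ι → F) → (ι → F) → F) (N : Subgroup (GL ι F)) (hN : N ≤ similarityGroup f) :
    FixesForm (matrixSet ⁅N, N⁆) f := by
  have hle : ⁅N, N⁆ ≤ multIso f := by
    rw [Subgroup.commutator_le]
    intro a ha b hb
    obtain ⟨c, hc⟩ := hN ha
    obtain ⟨d, hd⟩ := hN hb
    have hinv : ∀ (a : GL ι F) (c : Fˣ),
        (∀ u v, f ((a : Matrix ι ι F) *ᵥ u) ((a : Matrix ι ι F) *ᵥ v) = (c : F) * f u v) →
        ∀ u v, f (((a⁻¹ : GL ι F) : Matrix ι ι F) *ᵥ u) (((a⁻¹ : GL ι F) : Matrix ι ι F) *ᵥ v) =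
          ((c⁻¹ : Fˣ) : F) * f u v := by
      intro a c hc u v
      have h := hc (((a⁻¹ : GL ι F) : Matrix ι ι F) *ᵥ u) (((a⁻¹ : GL ι F) : Matrix ι ι F) *ᵥ v)
      rw [Matrix.mulVec_mulVec, Matrix.mulVec_mulVec, ← Units.val_mul, mul_inv_cancel,
        Units.val_one, Matrix.one_mulVec, Matrix.one_mulVec] at h
      rw [h, ← mul_assoc, Units.val_inv_eq_inv_val, inv_mul_cancel₀ c.ne_zero, one_mul]
    intro u v
    rw [commutatorElement_def, Units.val_mul, Units.val_mul, Units.val_mul,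
      ← Matrix.mulVec_mulVec, ← Matrix.mulVec_mulVec, ← Matrix.mulVec_mulVec,
      ← Matrix.mulVec_mulVec, ← Matrix.mulVec_mulVec, ← Matrix.mulVec_mulVec, hc, hd,
      hinv a c hc, hinv b d hd, Units.val_inv_eq_inv_val, Units.val_inv_eq_inv_val]
    have hc0 := c.ne_zero
    have hd0 := d.ne_zero
    field_simp
  rintro _ ⟨g, hg, rfl⟩ u v
  exact hle hg u v

end Cfsg.Agent.Lib.Helper80.AS
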