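import Cfsg.Agent.Lib.Helper80.AS.QODD

/-! Ladder ASCHS, rung QEVEN: in characteristic 2 the invariant quadratic form of an absolutely irreducible normal
subgroup is preserved up to scalars by the normaliser. -/

set_option autoImplicit false

namespace Cfsg.Agent.Lib.Helper80.AS

open Cfsg Cfsg.Geo
open scoped MatrixGroups Matrix Kronecker

variable {ι : Type} [Fintype ι] [DecidableEq ι] {F : Type*} [Field F]

/-- a `P`-invariant additive map `φ` with `φ (a v) = a² φ v` vanishes (finite field of characteristic 2, dimension ≥ 2). -/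
theorem qeven_zero [Finite F] (h2 : (2 : F) = 0) (hcard : 2 ≤ Fintype.card ι)
    (S : Set (Matrix ι ι F)) (hS : ActsIrreducibly S) (φ : (ι → F) → F)
    (hadd : ∀ u v, φ (u + v) = φ u + φ v) (hsm : ∀ (a : F) v, φ (a • v) = a ^ 2 * φ v)
    (hinv : ∀ s ∈ S, ∀ v, φ (s *ᵥ v) = φ v) (v : ι → F) : φ v = 0 := by
  let W : Submodule F (ι → F) :=
    { carrier := {v | φ v = 0}
      add_mem' := by
        intro a b ha hb
        change φ (a + b) = 0
        rw [hadd, ha, hb, add_zero]
      zero_mem' := by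
        change φ 0 = 0
        have := hsm 0 0
        simpa using this
      smul_mem' := by
        intro c x hx
        change φ (c • x) = 0
        rw [hsm, hx, mul_zero] }
  have hW : ∀ s ∈ S, W.map (Matrix.toLin' s) ≤ W := by
    intro s hs x hx
    obtain ⟨y, hy, rfl⟩ := Submodule.mem_map.mp hx
    change φ (Matrix.toLin' s y) = 0
    rw [Matrix.toLin'_apply, hinv s hs]
    exact hy
  rcases hS W hW with h | h
  · exfalso
    obtain ⟨i, j, hij⟩ := Fintype.exists_pair_of_one_lt_card (by omega : 1 < Fintype.card ι)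
    have hne : ∀ k : ι, φ (Pi.single k 1) ≠ 0 := by
      intro k hk
      have h1 : (Pi.single k 1 : ι → F) ∈ W := hk
      rw [h, Submodule.mem_bot] at h1
      have := congrFun h1 k
      simp at this
    have hchar : ringChar F = 2 :=
      CharP.ringChar_of_prime_eq_zero Nat.prime_two (by exact_mod_cast h2)
    obtain ⟨a, ha⟩ := FiniteField.isSquare_of_char_two hchar
      (φ (Pi.single i 1) / φ (Pi.single j 1))
    have h3 : (Pi.single i 1 + a • Pi.single j 1 : ι → F) ∈ W := by
      change φ _ = 0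
      rw [hadd, hsm, pow_two, ← ha, div_mul_cancel₀ _ (hne j), ← two_mul, h2, zero_mul]
    rw [h, Submodule.mem_bot] at h3
    have := congrFun h3 i
    simp [hij] at this
  · have : v ∈ W := by rw [h]; trivial
    exact this

/-- QEVEN. -/
theorem quad_of_even [Finite F] (h2 : (2 : F) = 0) (hcard : 2 ≤ Fintype.card ι) (f : (ι → F) → (ι → F) → F)
    (hf : IsSymplecticForm f) (P : Subgroup (GL ι F)) (hP : ActsAbsolutelyIrreducibly (matrixSet P))
    (hfix : FixesForm (matrixSet P) f) (Q : (ι → F) → F) (hQ : IsNondegenerateQuadraticForm Q)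
    (hfixQ : FixesQuadForm (matrixSet P) Q) (Γ : Subgroup (GL ι F)) (hΓ : Γ ≤ similarityGroup f)
    (hn : Γ ≤ subgroupNormalizer P) :
    ∃ Q' : (ι → F) → F, IsNondegenerateQuadraticForm Q' ∧ (∀ u v, QuadraticMap.polar Q' u v = f u v) ∧
      Γ ≤ quadSimilarityGroup Q' := by
  obtain ⟨c, hc⟩ := form_unique P hP f (QuadraticMap.polar Q) hf.bilinear hf.nondegenerate
    hQ.polar_bilinear hfix (qodd_fixes_polar _ Q hfixQ)
  have hc0 : c ≠ 0 := by
    rintro rfl
    obtain ⟨i, j, hij⟩ := Fintype.exists_pair_of_one_lt_card (by omega : 1 < Fintype.card ι)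
    have hv : (Pi.single i 1 : ι → F) ≠ 0 := by
      intro h
      have := congrFun h i
      simp at this
    obtain ⟨x, hx⟩ := (hQ.nondegenerate _ hv).1
    apply hx
    rw [hc, zero_mul]
  set Q' : (ι → F) → F := fun v => c⁻¹ * Q v with hQ'
  have hpol : ∀ u v, QuadraticMap.polar Q' u v = f u v := by
    intro u v
    have h1 : QuadraticMap.polar Q' u v = c⁻¹ * QuadraticMap.polar Q u v := by
      unfold QuadraticMap.polar
      simp only [hQ']
      ring
    rw [h1, hc, ← mul_assoc, inv_mul_cancel₀ hc0, one_mul]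
  have hpolf : QuadraticMap.polar Q' = f := by
    funext u v
    exact hpol u v
  have hsm : ∀ (a : F) v, Q' (a • v) = a ^ 2 * Q' v := by
    intro a v
    simp only [hQ']
    rw [hQ.smul]
    ring
  have hfixQ' : ∀ s ∈ matrixSet P, ∀ v, Q' (s *ᵥ v) = Q' v := by
    intro s hs v
    simp only [hQ']
    rw [hfixQ s hs]
  refine ⟨Q', ⟨hsm, ?_, ?_⟩, hpol, ?_⟩
  · rw [hpolf]; exact hf.bilinear
  · rw [hpolf]; exact hf.nondegenerate
  intro g hg
  obtain ⟨μ, hμ⟩ := hΓ hg
  refine ⟨μ, fun v => ?_⟩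
  have hgn := hn hg
  set G : Matrix ι ι F := (g : Matrix ι ι F) with hG
  have key := qeven_zero h2 hcard (matrixSet P) hP.1
    (fun v => (μ : F)⁻¹ * Q' (G *ᵥ v) - Q' v) (by
      intro u v
      have h1 := hpol (G *ᵥ u) (G *ᵥ v)
      have h3 := hpol u v
      rw [hμ] at h1
      unfold QuadraticMap.polar at h1 h3
      rw [← Matrix.mulVec_add] at h1
      have h4 : Q' (G *ᵥ (u + v)) = (μ : F) * f u v + Q' (G *ᵥ u) + Q' (G *ᵥ v) := by
        linear_combination h1
      have h5 : Q' (u + v) = f u v + Q' u + Q' v := by linear_combination h3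
      rw [h4, h5]
      have hμ0 : (μ : F) ≠ 0 := μ.ne_zero
      field_simp
      ring) (by
      intro a v
      rw [Matrix.mulVec_smul, hsm, hsm]
      ring) (by
      intro s hs v
      obtain ⟨x, hx, rfl⟩ := hs
      have h1 : g * x * g⁻¹ ∈ P := by
        have := (Subgroup.mem_normalizer_iff.mp hgn x).mp hx
        exact this
      have h3 : G *ᵥ ((x : Matrix ι ι F) *ᵥ v) = ((g * x * g⁻¹ : GL ι F) : Matrix ι ι F) *ᵥ (G *ᵥ v) := by
        rw [Matrix.mulVec_mulVec, Matrix.mulVec_mulVec, hG, ← Units.val_mul, ← Units.val_mul]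
        congr 2
        group
      rw [h3, hfixQ' _ ⟨_, h1, rfl⟩, hfixQ' _ ⟨x, hx, rfl⟩]) v
  have hμ0 : (μ : F) ≠ 0 := μ.ne_zero
  have h6 : (μ : F)⁻¹ * Q' (G *ᵥ v) = Q' v := by linear_combination key
  rw [← h6, ← mul_assoc, mul_inv_cancel₀ hμ0, one_mul]

end Cfsg.Agent.Lib.Helper80.AS
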