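import Cfsg.Agent.Lib.Helper80.AS.UNIQ

/-! Ladder ASCHS, rung QODD: in odd characteristic an absolutely irreducible group fixing a symplectic form
fixes no non-degenerate quadratic form. -/

set_option autoImplicit false

namespace Cfsg.Agent.Lib.Helper80.AS

open Cfsg Cfsg.Geo
open scoped MatrixGroups Matrix Kronecker

variable {ι : Type} [Fintype ι] [DecidableEq ι] {F : Type*} [Field F]

omit [DecidableEq ι] in
theorem qodd_fixes_polar (S : Set (Matrix ι ι F)) (Q : (ι → F) → F) (h : FixesQuadForm S Q) :
    FixesForm S (QuadraticMap.polar Q) := by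
  intro s hs u v
  unfold QuadraticMap.polar
  rw [← Matrix.mulVec_add, h s hs, h s hs, h s hs]

/-- QODD. -/
theorem no_quad_of_odd [Nonempty ι] (h2 : (2 : F) ≠ 0) (f : (ι → F) → (ι → F) → F) (hf : IsSymplecticForm f)
    (P : Subgroup (GL ι F)) (hP : ActsAbsolutelyIrreducibly (matrixSet P)) (hfix : FixesForm (matrixSet P) f)
    (Q : (ι → F) → F) (hQ : IsNondegenerateQuadraticForm Q) (hfixQ : FixesQuadForm (matrixSet P) Q) : False := by
  obtain ⟨c, hc⟩ := form_unique P hP f (QuadraticMap.polar Q) hf.bilinear hf.nondegenerate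
    hQ.polar_bilinear hfix (qodd_fixes_polar _ Q hfixQ)
  have h0 : ∀ u v, QuadraticMap.polar Q u v = 0 := by
    intro u v
    have h3 : QuadraticMap.polar Q u v = QuadraticMap.polar Q v u := QuadraticMap.polar_comm Q u v
    have h4 := hc u v
    have h5 := hc v u
    have h6 := hf.skew u v
    have h7 : (2 : F) * QuadraticMap.polar Q u v = 0 := by
      rw [h6] at h4
      linear_combination h4 + h5 + h3
    exact (mul_eq_zero.mp h7).resolve_left h2
  obtain ⟨i⟩ := ‹Nonempty ι›
  have hv : (Pi.single i 1 : ι → F) ≠ 0 := by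
    intro h
    have := congrFun h i
    simp at this
  obtain ⟨x, hx⟩ := (hQ.nondegenerate _ hv).1
  exact hx (h0 _ _)

end Cfsg.Agent.Lib.Helper80.AS
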