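import Cfsg.Agent.Lib.Helper80.AS.Defs

set_option autoImplicit false

namespace Cfsg.Agent.Lib.Helper80.AS

open Cfsg Cfsg.Geo
open Cfsg.Agent.Lib.Helper77.Asch (NormBy MinOver)
open scoped MatrixGroups Matrix Kronecker

variable {ι : Type} [Fintype ι] [DecidableEq ι] {F : Type*} [Field F]

/-- SCS.  `c • 1` multiplies a bilinear form by `c²`. -/
theorem scalars_le_sim (f : (ι → F) → (ι → F) → F) (hf : IsBilinearForm f) :
    scalars ι F ≤ similarityGroup f := by
  intro g hg
  obtain ⟨c, hc⟩ := (mem_scalars_iff g).1 hg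
  refine ⟨c * c, fun u v => ?_⟩
  rw [hc, Matrix.smul_mulVec, Matrix.smul_mulVec, Matrix.one_mulVec, Matrix.one_mulVec,
    hf.smul_left, hf.smul_right, Units.val_mul, mul_assoc]

end Cfsg.Agent.Lib.Helper80.AS
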