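import Cfsg.Agent.Lib.Helper80.AS.Defs
import Cfsg.Agent.Lib.Helper11.AschO.GSUBF

/-! Ladder ASCHS (helper80), rung SUBF (helper1): same statement as the ASCHO port. -/

set_option autoImplicit false

namespace Cfsg.Agent.Lib.Helper80.AS

open Cfsg Cfsg.Geo
open Cfsg.Agent.Lib.Helper77.Asch (NormBy MinOver)
open scoped MatrixGroups Matrix Kronecker

variable {ι : Type} [Fintype ι] [DecidableEq ι] {F : Type*} [Field F]

theorem normalizer_le_subfield [Nonempty ι] (P : Subgroup (GL ι F))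
    (hP : ActsAbsolutelyIrreducibly (matrixSet P)) (F₀ : Subfield F) (B : GL ι F)
    (hB : ∀ s ∈ matrixSet P, ∀ i j,
      ((B : Matrix ι ι F) * s * ((B⁻¹ : GL ι F) : Matrix ι ι F)) i j ∈ F₀) :
    subgroupNormalizer P ≤ subfieldSubgroup F₀ B⁻¹ :=
  Cfsg.Agent.Lib.Helper11.AschO.normalizer_le_subfield P hP F₀ B hB

end Cfsg.Agent.Lib.Helper80.AS
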