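import Cfsg.Agent.Lib.Helper80.AS.Defs
import Cfsg.Agent.Lib.Helper17.SympDecTwo

set_option autoImplicit false

namespace Cfsg.Agent.Lib.Helper80.AS

open Cfsg Cfsg.Geo
open Cfsg.Agent.Lib.Helper77.Asch (NormBy MinOver)
open scoped MatrixGroups Matrix Kronecker

variable {ι : Type} [Fintype ι] [DecidableEq ι] {F : Type*} [Field F]

set_option linter.unusedSectionVars false

/-- the bilinear form (Mathlib style) of a bilinear function. -/
def q2dB (f : (ι → F) → (ι → F) → F) (hf : IsBilinearForm f) : LinearMap.BilinForm F (ι → F) :=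
  LinearMap.mk₂ F f hf.add_left hf.smul_left hf.add_right hf.smul_right

@[simp] lemma q2dB_apply (f : (ι → F) → (ι → F) → F) (hf : IsBilinearForm f) (u v : ι → F) :
    q2dB f hf u v = f u v := rfl

open Cfsg.Agent.Lib.Helper95 Cfsg.Agent.Lib.Helper17.SympDecTwo in
/-- Q2D. -/
theorem quad_of_decomp_two [Fintype F] (hq : Fintype.card F = 2) (f : (ι → F) → (ι → F) → F)
    (hf : IsSymplecticForm f) {t : ℕ} (D : Fin t → Submodule F (ι → F))
    (hD : IsNondegenerateMDecomposition f 2 D) :
    ∃ Q : (ι → F) → F, IsNondegenerateQuadraticForm Q ∧ (∀ u v, QuadraticMap.polar Q u v = f u v) ∧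
      decompositionStabilizer D ⊓ similarityGroup f ≤ quadSimilarityGroup Q := by
  classical
  set B := q2dB f hf.bilinear with hBdef
  have hB : B.IsAlt := fun v => hf.alternating v
  have hndD : ∀ i, NondegOn B (D i) := by
    intro i u hu hu0
    obtain ⟨_, ⟨x, hx, hux⟩⟩ := hD.nondegenerate i u hu hu0
    exact ⟨x, hx, hux⟩
  have hperp : ∀ i j, i ≠ j → ∀ x ∈ D i, ∀ y ∈ D j, B x y = 0 := by
    intro i j hij x hx y hy
    exact hD.orthogonal i j hij x hx y hy
  have hfr := hD.decomp.finrank_eq
  have h2 : ∀ c : F, c = 0 ∨ c = 1 := by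
    intro c
    by_contra hc
    push Not at hc
    have h3 : ({0, 1, c} : Finset F).card = 3 := by
      rw [Finset.card_insert_of_notMem, Finset.card_insert_of_notMem, Finset.card_singleton]
      · simp [hc.2.symm]
      · simp [hc.1.symm]
    have h4 := Finset.card_le_univ ({0, 1, c} : Finset F)
    omega
  have h11 : (1 : F) + 1 = 0 := by
    rcases h2 (1 + 1) with h | h
    · exact h
    · exfalso
      have : (1 : F) = 0 := by linear_combination h
      exact one_ne_zero this
  have hQ0 : Qd B D 0 = 0 := by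
    unfold Qd ci
    simp
  have hstep : ∀ j, ∀ a ∈ D j, ∀ x, Qd B D (x + a) = Qd B D x + Qd B D a + B x a := by
    intro j a ha x
    by_cases ha0 : a = 0
    · subst ha0
      simp [hQ0]
    · have h1 := Qd_add hB h2 h11 hndD hfr hperp ha ha0 x
      have h3 := Qd_add hB h2 h11 hndD hfr hperp ha ha0 0
      rw [zero_add, hQ0, map_zero, LinearMap.zero_apply, zero_add, add_zero] at h3
      rw [h1, h3]
  have hadd : ∀ v x, Qd B D (x + v) = Qd B D x + Qd B D v + B x v := by
    intro v
    have hv : v ∈ iSup D := by rw [hD.decomp.iSup_eq_top]; trivial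
    induction hv using Submodule.iSup_induction' with
    | mem j a ha => exact hstep j a ha
    | zero => intro x; simp [hQ0]
    | add v1 v2 _ _ ih1 ih2 =>
      intro x
      rw [← add_assoc, ih2, ih1, ih2 v1, map_add, map_add, LinearMap.add_apply]
      ring
  have hpol : ∀ u v, QuadraticMap.polar (Qd B D) u v = f u v := by
    intro u v
    unfold QuadraticMap.polar
    rw [hadd v u]
    have : B u v = f u v := rfl
    rw [this]
    ring
  have hpol' : QuadraticMap.polar (Qd B D) = f := by
    funext u v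
    exact hpol u v
  refine ⟨Qd B D, ⟨?_, ?_, ?_⟩, hpol, ?_⟩
  · intro c v
    rcases h2 c with rfl | rfl
    · simp [hQ0]
    · simp
  · rw [hpol']; exact hf.bilinear
  · rw [hpol']; exact hf.nondegenerate
  · intro g hg
    obtain ⟨⟨σ, hσ⟩, ⟨c, hc⟩⟩ := Subgroup.mem_inf.1 hg
    have hc1 : (c : F) = 1 := (h2 _).resolve_left c.ne_zero
    refine ⟨1, fun x => ?_⟩
    rw [Units.val_one, one_mul]
    unfold Qd
    rw [← Equiv.sum_comp σ]
    apply Finset.sum_congr rfl
    intro i _
    unfold ci
    have : (∀ y ∈ D (σ i), B ((g : Matrix ι ι F) *ᵥ x) y = 0) ↔ (∀ y ∈ D i, B x y = 0) := by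
      rw [← hσ i]
      constructor
      · intro h y hy
        have := h ((g : Matrix ι ι F) *ᵥ y) ⟨y, hy, by simp [Matrix.toLin'_apply]⟩
        rw [hBdef, q2dB_apply, hc, hc1, one_mul] at this
        exact this
      · rintro h _ ⟨y, hy, rfl⟩
        rw [Matrix.toLin'_apply, hBdef, q2dB_apply, hc, hc1, one_mul]
        exact h y hy
    by_cases h : ∀ y ∈ D i, B x y = 0
    · rw [if_pos h, if_pos (this.2 h)]
    · rw [if_neg h, if_neg (fun h' => h (this.1 h'))]

end Cfsg.Agent.Lib.Helper80.AS
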