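import Cfsg.Agent.Lib.Helper80.AS.CA1
import Cfsg.Agent.Lib.Helper80.AS.CA2
import Cfsg.Agent.Lib.Helper80.AS.CA3
import Cfsg.Agent.Lib.Helper80.AS.TSP
import Cfsg.Agent.Lib.Helper80.AS.TSQ

set_option autoImplicit false

namespace Cfsg.Agent.Lib.Helper80.AS

open Cfsg Cfsg.Geo
open Cfsg.Agent.Lib.Helper77.Asch (NormBy MinOver)
open scoped MatrixGroups Matrix Kronecker

variable {ι : Type} [Fintype ι] [DecidableEq ι] {F : Type*} [Field F]

/-- T1B (assembly). -/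
theorem comm_cases_b [Fintype F] (m : ℕ) (hcard : Fintype.card ι = 2 * m)
    (f : (ι → F) → (ι → F) → F) (hf : IsSymplecticForm f) (Γ : Subgroup (GL ι F))
    (hΓ : Γ ≤ similarityGroup f) (hirr : ActsIrreducibly (matrixSet Γ))
    (E : Subalgebra F (Matrix ι ι F)) (hc : IsComm E) (hn : Γ ≤ subalgebraNormalizer E)
    (hadj : IsAdjointClosedFor f E)
    (h0 : ∀ x ∈ E, SelfAdj f x → x = 0 ∨ ∃ y : Matrix ι ι F, x * y = 1) :
    InGeoS m f Γ ∨ IsFieldSubalgebra (Module.finrank F E) E := by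
  rcases field_or_idempotent E hc (no_nilpotent Γ hirr E hc hn) with hfield | ⟨e, he, h1, h2, h3⟩
  · exact Or.inr hfield
  · left
    obtain ⟨t, d, D, hD, hst, hp⟩ := decomp_of_idempotent Γ hirr E hc hn e he h1 h2 h3
    obtain ⟨rfl, rfl, hts⟩ := ts_pair m hcard f hf E hc hadj h0 D hD hp
    by_cases hq : Odd (Fintype.card F)
    · exact Or.inr (Or.inr (Or.inr (Or.inl ⟨hq, D, hD, hts, hst⟩)))
    · obtain ⟨Q, hQ1, hQ2, hQ3⟩ := quad_of_ts_pair hq f hf D hD hts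
      exact Or.inr (Or.inr (Or.inr (Or.inr (Or.inr (Or.inr (Or.inr (Or.inr
        ⟨hq, Q, hQ1, hQ2, (le_inf hst hΓ).trans hQ3⟩)))))))

end Cfsg.Agent.Lib.Helper80.AS
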