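import Cfsg.Agent.Lib.Helper80.AS.Defs
import Cfsg.Agent.Lib.Helper80.AS.TMUL

set_option autoImplicit false

namespace Cfsg.Agent.Lib.Helper80.AS

open Cfsg Cfsg.Geo
open Cfsg.Agent.Lib.Helper77.Asch (NormBy MinOver)
open scoped MatrixGroups Matrix Kronecker

variable {ι : Type} [Fintype ι] [DecidableEq ι] {F : Type*} [Field F]

/-- S1K1. -/
theorem scal_of_leftFactor_one {k : ℕ} (B : Subalgebra F (Matrix ι ι F)) (e : ι ≃ Fin 1 × Fin k)
    (P : GL ι F) (hB : IsLeftFactor B e P) : IsScal B := by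
  intro y hy
  obtain ⟨x, rfl⟩ := (hB y).1 hy
  refine ⟨x 0 0, ?_⟩
  have hx : x = (x 0 0) • (1 : Matrix (Fin 1) (Fin 1) F) := by
    ext i j
    fin_cases i
    fin_cases j
    simp
  have h1 : x ⊗ₖ (1 : Matrix (Fin k) (Fin k) F) = (x 0 0) • 1 := by
    conv_lhs => rw [hx]
    rw [Matrix.smul_kronecker, Matrix.one_kronecker_one]
  rw [h1, tmat_smul, tmat_one]

/-- S1K1. -/
theorem top_of_leftFactor_one {s : ℕ} (B : Subalgebra F (Matrix ι ι F)) (e : ι ≃ Fin s × Fin 1)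
    (P : GL ι F) (hB : IsLeftFactor B e P) : B = ⊤ := by
  rw [eq_top_iff]
  intro y _
  obtain ⟨X, rfl⟩ := tmat_surjective e P y
  rw [hB]
  refine ⟨fun i j => X (i, 0) (j, 0), ?_⟩
  congr 1
  ext ⟨i, a⟩ ⟨j, b⟩
  fin_cases a
  fin_cases b
  change X (i, 0) (j, 0) = X (i, 0) (j, 0) * (1 : Matrix (Fin 1) (Fin 1) F) 0 0
  rw [Matrix.one_apply_eq, mul_one]

end Cfsg.Agent.Lib.Helper80.AS
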