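import Cfsg.Agent.Lib.Helper80.AS.Defs
import Cfsg.Agent.Lib.Helper5.AschC.TENS

set_option autoImplicit false

namespace Cfsg.Agent.Lib.Helper80.AS

open Cfsg Cfsg.Geo
open Cfsg.Agent.Lib.Helper77.Asch (NormBy MinOver)
open scoped MatrixGroups Matrix Kronecker

variable {ι : Type} [Fintype ι] [DecidableEq ι] {F : Type*} [Field F]

/-- MEMB (uses helper58's `tens_basis`). -/
theorem matrix_embed {s : ℕ} (hs : 0 < s) (φ : Matrix (Fin s) (Fin s) F →ₐ[F] Matrix ι ι F) :
    ∃ (k : ℕ) (e : ι ≃ Fin s × Fin k) (P : GL ι F),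
      ∀ x, φ x = tmat e P (x ⊗ₖ (1 : Matrix (Fin k) (Fin k) F)) := by
  classical
  obtain ⟨b, B, hB⟩ := Cfsg.Agent.Lib.Helper5.AschC.tens_basis hs
    ((Matrix.toLinAlgEquiv' (R := F) (n := ι)).toAlgHom.comp φ)
  let S := Pi.basisFun F ι
  let e : ι ≃ Fin s × Fin b := S.indexEquiv B
  let B' : Module.Basis ι F (ι → F) := B.reindex e.symm
  have h1 : S.toMatrix B' * B'.toMatrix S = 1 := Module.Basis.toMatrix_mul_toMatrix_flip S B'
  have h2 : B'.toMatrix S * S.toMatrix B' = 1 := Module.Basis.toMatrix_mul_toMatrix_flip _ _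
  let P : GL ι F := ⟨S.toMatrix B', B'.toMatrix S, h1, h2⟩
  refine ⟨b, e, P, fun x => ?_⟩
  have h3 := basis_toMatrix_mul_linearMap_toMatrix_mul_basis_toMatrix S B' S B'
    (Matrix.toLin' (φ x))
  have h4 : LinearMap.toMatrix S S (Matrix.toLin' (φ x)) = φ x := by
    rw [LinearMap.toMatrix_eq_toMatrix', LinearMap.toMatrix'_toLin']
  rw [h4] at h3
  rw [← h3]
  unfold tmat
  have h5 : LinearMap.toMatrix B' B' (Matrix.toLin' (φ x)) =
      Matrix.reindex e.symm e.symm (x ⊗ₖ (1 : Matrix (Fin b) (Fin b) F)) := by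
    ext k l
    rw [LinearMap.toMatrix_apply]
    have h6 : Matrix.toLin' (φ x) (B' l) = ∑ k, x k (e l).1 • B (k, (e l).2) := by
      have := hB x (e l).1 (e l).2
      simpa [B'] using this
    rw [h6]
    simp only [map_sum, map_smul, Finsupp.coe_finsetSum, Finsupp.coe_smul, Finset.sum_apply,
      Pi.smul_apply, smul_eq_mul]
    have h7 : ∀ c, B'.repr (B (c, (e l).2)) k = if (c, (e l).2) = e k then 1 else 0 := by
      intro c
      rw [Module.Basis.repr_reindex_apply, Module.Basis.repr_self, Finsupp.single_apply]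
      simp
    simp only [h7, Matrix.reindex_apply, Matrix.submatrix_apply, Matrix.kroneckerMap_apply,
      Equiv.symm_symm, Matrix.one_apply]
    rw [Finset.sum_eq_single (e k).1]
    · by_cases h : (e k).2 = (e l).2
      · have h8 : ((e k).1, (e l).2) = e k := Prod.ext rfl h.symm
        rw [if_pos h, if_pos h8]
      · have h8 : ¬ ((e k).1, (e l).2) = e k := fun h' => h (congrArg Prod.snd h').symm
        rw [if_neg h, if_neg h8]
    · intro c _ hc
      rw [if_neg (fun h' => hc (congrArg Prod.fst h')), mul_zero]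
    · simp
  rw [h5]
  rfl

end Cfsg.Agent.Lib.Helper80.AS
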