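import Cfsg.Agent.Lib.Helper80.AS.Defs

set_option autoImplicit false

namespace Cfsg.Agent.Lib.Helper80.AS

open Cfsg Cfsg.Geo
open Cfsg.Agent.Lib.Helper77.Asch (NormBy MinOver)
open scoped MatrixGroups Matrix Kronecker

variable {ι : Type} [Fintype ι] [DecidableEq ι] {F : Type*} [Field F]

/-- transport of "the centre consists of scalars" along an algebra isomorphism. -/
theorem ss2_transport {R S : Type*} [Ring R] [Algebra F R] [Ring S] [Algebra F S] (e : R ≃ₐ[F] S)
    (hcen : ∀ z : R, (∀ y, z * y = y * z) → ∃ c : F, z = algebraMap F R c) :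
    ∀ z : S, (∀ y, z * y = y * z) → ∃ c : F, z = algebraMap F S c := by
  intro z hz
  obtain ⟨c, hc⟩ := hcen (e.symm z) (by
    intro y
    apply e.injective
    rw [map_mul, map_mul, e.apply_symm_apply]
    exact hz (e y))
  refine ⟨c, ?_⟩
  have := congrArg e hc
  rwa [e.apply_symm_apply, e.commutes] at this

/-- abstract Wedderburn: a finite semisimple algebra with centre `F` is a matrix algebra over `F`. -/
theorem ss2_abs [Finite F] {R : Type*} [Ring R] [Algebra F R] [Module.Finite F R] [Nontrivial R]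
    [IsSemisimpleRing R]
    (hcen : ∀ z : R, (∀ y, z * y = y * z) → ∃ c : F, z = algebraMap F R c) :
    ∃ s : ℕ, 0 < s ∧ Nonempty (Matrix (Fin s) (Fin s) F ≃ₐ[F] R) := by
  classical
  obtain ⟨n, D, d, _, _, hfin, hd, ⟨e⟩⟩ :=
    IsSemisimpleRing.exists_algEquiv_pi_matrix_divisionRing_finite F R
  have hcen1 := ss2_transport e hcen
  have hne : Nonempty (Fin n) := by
    by_contra hcon
    rw [not_nonempty_iff] at hcon
    have h1 : e (0 : R) = e 1 := Subsingleton.elim _ _
    exact zero_ne_one (e.injective h1)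
  obtain ⟨i₀⟩ := hne
  have huniq : ∀ j, j = i₀ := by
    intro j
    by_contra hj
    obtain ⟨c, hc⟩ := hcen1 (Pi.single i₀ 1) (by
      intro y
      ext k : 1
      by_cases hk : k = i₀
      · subst hk
        simp
      · simp [Pi.single_eq_of_ne hk])
    have h1 := congrFun hc j
    have h2 := congrFun hc i₀
    rw [Pi.single_eq_of_ne hj, Pi.algebraMap_apply] at h1
    rw [Pi.single_eq_same, Pi.algebraMap_apply] at h2
    have hdj := hd j
    have hc0 : c = 0 := by
      by_contra hc0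
      have h3 : (algebraMap F (Matrix (Fin (d j)) (Fin (d j)) (D j))) c = 0 := h1.symm
      rw [← map_zero (algebraMap F (Matrix (Fin (d j)) (Fin (d j)) (D j)))] at h3
      exact hc0 ((algebraMap F (Matrix (Fin (d j)) (Fin (d j)) (D j))).injective h3)
    have hdi := hd i₀
    rw [hc0, map_zero] at h2
    exact one_ne_zero h2
  let _ : Unique (Fin n) := ⟨⟨i₀⟩, huniq⟩
  let e1 : (Π i, Matrix (Fin (d i)) (Fin (d i)) (D i)) ≃ₐ[F]
      Matrix (Fin (d i₀)) (Fin (d i₀)) (D i₀) :=
    AlgEquiv.ofRingEquiv (f := RingEquiv.piUnique (fun i => Matrix (Fin (d i)) (Fin (d i)) (D i)))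
      (by intro r; rfl)
  let e2 : R ≃ₐ[F] Matrix (Fin (d i₀)) (Fin (d i₀)) (D i₀) := e.trans e1
  have hcen2 := ss2_transport e2 hcen
  have hdi := hd i₀
  have hfinD : Finite (D i₀) := by
    have := hfin i₀
    exact Module.finite_of_finite F
  have hcomm : ∀ a b : D i₀, a * b = b * a := fun a b => (littleWedderburn (D i₀)).mul_comm a b
  have hsurj : Function.Surjective (algebraMap F (D i₀)) := by
    intro a
    obtain ⟨c, hc⟩ := hcen2 (Matrix.scalar _ a) (by
      intro y
      exact Matrix.scalar_commute a (fun r => hcomm a r) y)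
    refine ⟨c, ?_⟩
    have h1 := congrFun (congrFun hc 0) 0
    rw [Matrix.algebraMap_matrix_apply] at h1
    simpa using h1.symm
  let e3 : F ≃ₐ[F] D i₀ :=
    AlgEquiv.ofBijective (Algebra.ofId F (D i₀)) ⟨(algebraMap F (D i₀)).injective, hsurj⟩
  exact ⟨d i₀, Nat.pos_of_ne_zero hdi.out, ⟨(e3.mapMatrix).trans e2.symm⟩⟩

/-- SS2 (Wedderburn). -/
theorem exists_algEquiv_matrix [Finite F] [Nonempty ι] (B : Subalgebra F (Matrix ι ι F))
    (hss : IsSemisimpleRing B) (hcen : IsScal (cen B)) :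
    ∃ s : ℕ, 0 < s ∧ Nonempty (Matrix (Fin s) (Fin s) F ≃ₐ[F] B) := by
  apply ss2_abs
  intro z hz
  obtain ⟨c, hc⟩ := hcen (z : Matrix ι ι F) (by
    refine ⟨z.2, ?_⟩
    rw [SetLike.mem_coe, Subalgebra.mem_centralizer_iff]
    intro y hy
    exact (congrArg Subtype.val (hz ⟨y, hy⟩)).symm)
  refine ⟨c, ?_⟩
  apply Subtype.ext
  rw [hc, Subalgebra.coe_algebraMap, Algebra.algebraMap_eq_smul_one]

end Cfsg.Agent.Lib.Helper80.AS
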