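import Cfsg.Agent.Lib.Helper80.AS.SS1
import Cfsg.Agent.Lib.Helper80.AS.SS2
import Cfsg.Agent.Lib.Helper80.AS.MEMB

set_option autoImplicit false

namespace Cfsg.Agent.Lib.Helper80.AS

open Cfsg Cfsg.Geo
open Cfsg.Agent.Lib.Helper77.Asch (NormBy MinOver)
open scoped MatrixGroups Matrix Kronecker

variable {ι : Type} [Fintype ι] [DecidableEq ι] {F : Type*} [Field F]

/-- TENS (assembly of SS1 SS2 MEMB). -/
theorem exists_leftFactor [Finite F] [Nonempty ι] (Γ : Subgroup (GL ι F))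
    (hirr : ActsIrreducibly (matrixSet Γ))
    (B : Subalgebra F (Matrix ι ι F)) (hn : Γ ≤ subalgebraNormalizer B) (hcen : IsScal (cen B)) :
    ∃ (s k : ℕ) (e : ι ≃ Fin s × Fin k) (P : GL ι F), IsLeftFactor B e P := by
  obtain ⟨s, hs, ⟨θ⟩⟩ := exists_algEquiv_matrix B (semisimple_of_norm Γ hirr B hn) hcen
  obtain ⟨k, e, P, h⟩ := matrix_embed hs (B.val.comp θ.toAlgHom)
  refine ⟨s, k, e, P, fun y => ⟨fun hy => ⟨θ.symm ⟨y, hy⟩, ?_⟩, ?_⟩⟩
  · rw [← h]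
    simp
  · rintro ⟨x, rfl⟩
    rw [← h]
    exact (θ x).2

end Cfsg.Agent.Lib.Helper80.AS
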