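import Cfsg.Agent.Lib.Helper80.AS.Defs
import Cfsg.Agent.Lib.Helper80.AS.TSIGN

/-! Ladder ASCHS, rung TODD. -/

set_option autoImplicit false

namespace Cfsg.Agent.Lib.Helper80.AS

open Cfsg Cfsg.Geo
open Cfsg.Agent.Lib.Helper77.Asch (NormBy MinOver)
open scoped MatrixGroups Matrix Kronecker

variable {ι : Type} [Fintype ι] [DecidableEq ι] {F : Type*} [Field F]

/-- the bilinear form with Gram matrix `J`. -/
def toddForm {κ : Type} [Fintype κ] (J : Matrix κ κ F) (u v : κ → F) : F := u ⬝ᵥ (J *ᵥ v)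

theorem todd_bilinear {κ : Type} [Fintype κ] (J : Matrix κ κ F) : IsBilinearForm (toddForm J) where
  add_left x y v := by simp [toddForm, add_dotProduct]
  smul_left c x v := by simp [toddForm, smul_dotProduct]
  add_right v x y := by simp [toddForm, Matrix.mulVec_add, dotProduct_add]
  smul_right c v x := by simp [toddForm, Matrix.mulVec_smul, dotProduct_smul]

theorem todd_gram {κ : Type} [Fintype κ] [DecidableEq κ] (J : Matrix κ κ F) :
    gramMatrix (toddForm J) = J := by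
  ext a b
  simp [gramMatrix, toddForm]

theorem todd_swap {κ : Type} [Fintype κ] (J : Matrix κ κ F) (u v : κ → F) :
    toddForm J u v = toddForm Jᵀ v u := by
  simp only [toddForm]
  rw [Matrix.mulVec_transpose, Matrix.dotProduct_mulVec, dotProduct_comm]

theorem todd_nondeg {κ : Type} [Fintype κ] [DecidableEq κ] (J : Matrix κ κ F) (hJ : J.det ≠ 0) :
    IsNondegenerateForm (toddForm J) := by
  intro v hv
  constructor
  · have h1 : J *ᵥ v ≠ 0 := fun h => hv (Matrix.eq_zero_of_mulVec_eq_zero hJ h)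
    obtain ⟨i, hi⟩ : ∃ i, (J *ᵥ v) i ≠ 0 := by
      by_contra hcon
      push Not at hcon
      exact h1 (funext hcon)
    refine ⟨Pi.single i 1, ?_⟩
    simpa [toddForm] using hi
  · have h1 : v ᵥ* J ≠ 0 := fun h => hv (Matrix.eq_zero_of_vecMul_eq_zero hJ h)
    obtain ⟨i, hi⟩ : ∃ i, (v ᵥ* J) i ≠ 0 := by
      by_contra hcon
      push Not at hcon
      exact h1 (funext hcon)
    refine ⟨Pi.single i 1, ?_⟩
    simp only [toddForm]
    rw [Matrix.dotProduct_mulVec]
    simpa using hi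

theorem todd_symm {κ : Type} [Fintype κ] [DecidableEq κ] (J : Matrix κ κ F) (hJ : J.det ≠ 0)
    (hs : Jᵀ = J) : IsSymmetricForm (toddForm J) where
  bilinear := todd_bilinear J
  symm u v := by rw [todd_swap, hs]
  nondegenerate := todd_nondeg J hJ

theorem todd_symp {κ : Type} [Fintype κ] [DecidableEq κ] (h2 : (2 : F) ≠ 0) (J : Matrix κ κ F)
    (hJ : J.det ≠ 0) (hs : Jᵀ = -J) : IsSymplecticForm (toddForm J) := by
  have hskew : ∀ v w, toddForm J v w = - toddForm J w v := by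
    intro v w
    rw [todd_swap, hs]
    simp [toddForm, Matrix.neg_mulVec]
  refine ⟨todd_bilinear J, hskew, ?_, todd_nondeg J hJ⟩
  intro v
  have h := hskew v v
  have h3 : (2 : F) * toddForm J v v = 0 := by
    rw [two_mul]
    nth_rewrite 1 [h]
    exact neg_add_cancel _
  exact (mul_eq_zero.mp h3).resolve_left h2

/-- TODD.  `tensor_sign`.  `J₂ᵀ = -J₂` is impossible: `det J₂ = (-1)^m det J₂`, `m` odd, `2 ≠ 0`.  So `J₁ᵀ = -J₁` (zero diagonal as `2 ≠ 0`), `J₂ᵀ = J₂`.  `f₁ u v := u ⬝ᵥ J₁ *ᵥ v`, `f₂` likewise; `gramMatrix f₁ = J₁`; constant `c = 1`. -/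
theorem tensor_struct_odd [Nonempty ι] (h2 : (2 : F) ≠ 0) (m : ℕ) (hm : Odd m) (f : (ι → F) → (ι → F) → F)
    (hf : IsSymplecticForm f) (e : ι ≃ Fin 2 × Fin m) (P : GL ι F) (J₁ : Matrix (Fin 2) (Fin 2) F)
    (J₂ : Matrix (Fin m) (Fin m) F) (hJ : GramTensor f e P J₁ J₂) :
    (J₁ᵀ = -J₁ ∧ J₂ᵀ = J₂) ∧ ∃ (f₁ : (Fin 2 → F) → (Fin 2 → F) → F) (f₂ : (Fin m → F) → (Fin m → F) → F),
      IsSymplecticForm f₁ ∧ IsSymmetricForm f₂ ∧ IsTensorFormStructure id f f₁ f₂ e P := by
  obtain ⟨hd1, hd2, hcase⟩ := tensor_sign f hf e P J₁ J₂ hJ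
  have hmain : J₁ᵀ = -J₁ ∧ J₂ᵀ = J₂ := by
    rcases hcase with ⟨_, h⟩ | h
    · exfalso
      have h3 : J₂.det = - J₂.det := by
        calc J₂.det = J₂ᵀ.det := (Matrix.det_transpose J₂).symm
          _ = (-J₂).det := by rw [h]
          _ = - J₂.det := by
            rw [Matrix.det_neg, Fintype.card_fin, hm.neg_one_pow, neg_one_mul]
      have h4 : (2 : F) * J₂.det = 0 := by
        rw [two_mul]
        nth_rewrite 1 [h3]
        exact neg_add_cancel _
      exact hd2 ((mul_eq_zero.mp h4).resolve_left h2)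
    · exact h
  refine ⟨hmain, toddForm J₁, toddForm J₂, todd_symp h2 J₁ hd1 hmain.1, todd_symm J₂ hd2 hmain.2,
    1, one_ne_zero, ?_⟩
  intro x y
  rw [todd_gram, todd_gram, one_mul]
  exact hJ x y

end Cfsg.Agent.Lib.Helper80.AS
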