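import Cfsg.Agent.Lib.Helper80.AS.Defs
import Cfsg.Agent.Lib.Helper80.AS.TMEM
import Cfsg.Agent.Lib.Helper80.AS.TMUL
import Cfsg.Agent.Lib.Helper80.AS.TSIGN
import Cfsg.Agent.Lib.Helper80.AS.TODD
import Cfsg.Agent.Lib.Helper17.TensorForm
import Cfsg.Agent.Lib.Helper17.FrameThree

/-! Ladder ASCHS, rung T33 (helper17). -/

set_option autoImplicit false

namespace Cfsg.Agent.Lib.Helper80.AS

open Cfsg Cfsg.Geo
open Cfsg.Agent.Lib.Helper77.Asch (NormBy MinOver)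
open Cfsg.Agent.Lib.Helper17.Tensor Cfsg.Agent.Lib.Helper17.TensorForm
  Cfsg.Agent.Lib.Helper17.FrameThree
open scoped MatrixGroups Matrix Kronecker

variable {ι : Type} [Fintype ι] [DecidableEq ι] {F : Type*} [Field F]

/-- the linear map `u ↦ P ((u ⊗ w) ∘ e)`. -/
def t33Phi {s k : ℕ} (e : ι ≃ Fin s × Fin k) (P : GL ι F) (w : Fin k → F) :
    (Fin s → F) →ₗ[F] (ι → F) where
  toFun u := (P : Matrix ι ι F) *ᵥ (tp u w ∘ e)
  map_add' u u' := by
    rw [tp_add_left, ← Matrix.mulVec_add]; rfl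
  map_smul' c u := by
    rw [tp_smul_left, RingHom.id_apply, ← Matrix.mulVec_smul]; rfl

theorem t33Phi_apply {s k : ℕ} (e : ι ≃ Fin s × Fin k) (P : GL ι F) (w : Fin k → F) (u : Fin s → F) :
    t33Phi e P w u = (P : Matrix ι ι F) *ᵥ (tp u w ∘ e) := rfl

theorem t33_form {s k : ℕ} (f : (ι → F) → (ι → F) → F) (e : ι ≃ Fin s × Fin k) (P : GL ι F)
    (J₁ : Matrix (Fin s) (Fin s) F) (J₂ : Matrix (Fin k) (Fin k) F) (hJ : GramTensor f e P J₁ J₂)
    (u u' : Fin s → F) (w w' : Fin k → F) :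
    f (t33Phi e P w u) (t33Phi e P w' u') = toddForm J₁ u u' * toddForm J₂ w w' := by
  rw [t33Phi_apply, t33Phi_apply, hJ, formOfGram_tp _ (fun a b => rfl), tsign_mulVec, tsign_mulVec]
  rfl

theorem t33_act {s k : ℕ} (e : ι ≃ Fin s × Fin k) (P : GL ι F) (a : Matrix (Fin s) (Fin s) F)
    (b : Matrix (Fin k) (Fin k) F) (u : Fin s → F) (w : Fin k → F) :
    tmat e P (a ⊗ₖ b) *ᵥ t33Phi e P w u = t33Phi e P (b *ᵥ w) (a *ᵥ u) := by
  rw [t33Phi_apply, t33Phi_apply, tmat_mulVec, kron_mulVec_tp]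

theorem t33_smul {s k : ℕ} (e : ι ≃ Fin s × Fin k) (P : GL ι F) (c : F) (u : Fin s → F)
    (w : Fin k → F) : t33Phi e P (c • w) u = t33Phi e P w (c • u) := by
  rw [t33Phi_apply, t33Phi_apply, tp_smul_right, tp_smul_left]

/-- T33. -/
theorem tensor_three [Fintype F] (hq : Fintype.card F = 3) (f : (ι → F) → (ι → F) → F)
    (hf : IsSymplecticForm f) (e : ι ≃ Fin 2 × Fin 3) (P : GL ι F) (J₁ : Matrix (Fin 2) (Fin 2) F)
    (J₂ : Matrix (Fin 3) (Fin 3) F) (hJ : GramTensor f e P J₁ J₂) (h1 : J₁ᵀ = -J₁) (h2 : J₂ᵀ = J₂)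
    (Γ : Subgroup (GL ι F)) (hΓ : Γ ≤ similarityGroup f) (hΓt : Γ ≤ tensorProductSubgroup 2 3 e P) :
    ∃ D : Fin 3 → Submodule F (ι → F), IsNondegenerateMDecomposition f 2 D ∧ Γ ≤ decompositionStabilizer D := by
  classical
  have h3 : (3 : F) = 0 := by
    have hcast : ((Fintype.card F : ℕ) : F) = 0 := Nat.cast_card_eq_zero F
    rw [hq] at hcast
    exact_mod_cast hcast
  have hF : ∀ a : F, a = 0 ∨ a = 1 ∨ a = -1 := by
    intro a
    by_contra hcon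
    push Not at hcon
    have h10 : (1 : F) ≠ -1 := by
      intro h
      have : (1 : F) = 0 := by linear_combination h3 - h
      exact one_ne_zero this
    have h4 : ({0, 1, -1, a} : Finset F).card = 4 := by
      rw [Finset.card_insert_of_notMem, Finset.card_insert_of_notMem, Finset.card_insert_of_notMem,
        Finset.card_singleton]
      · simp [hcon.2.2.symm]
      · simp [hcon.2.1.symm, h10]
      · simp [hcon.1.symm]
    have h5 := Finset.card_le_univ ({0, 1, -1, a} : Finset F)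
    omega
  haveI : Nonempty ι := ⟨e.symm (0, 0)⟩
  obtain ⟨hd1, hd2, _⟩ := tensor_sign f hf e P J₁ J₂ hJ
  have hf₂ : IsSymmetricForm (toddForm J₂) := todd_symm J₂ hd2 h2
  have hn₁ : IsNondegenerateForm (toddForm J₁) := todd_nondeg J₁ hd1
  obtain ⟨ε, y, hy⟩ := exists_frame hF h3 hf₂
  have hform : ∀ i j u u', f (t33Phi e P (y i) u) (t33Phi e P (y j) u') =
      toddForm J₁ u u' * (if i = j then ε else 0) := by
    intro i j u u'
    rw [t33_form f e P J₁ J₂ hJ, hy.orth]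
  have hf0 : ∀ x, f 0 x = 0 := fun x => by simpa using hf.bilinear.smul_left 0 0 x
  have hinj : ∀ k, Function.Injective (t33Phi e P (y k)) := by
    intro k
    rw [injective_iff_map_eq_zero]
    intro u hu
    by_contra hu0
    obtain ⟨x, hx⟩ := (hn₁ u hu0).2
    apply hx
    have := hform k k u x
    rw [hu, hf0, if_pos rfl] at this
    exact (mul_eq_zero.1 this.symm).resolve_right hy.ne
  have horth : ∀ i j, i ≠ j → ∀ x ∈ LinearMap.range (t33Phi e P (y i)),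
      ∀ z ∈ LinearMap.range (t33Phi e P (y j)), f x z = 0 := by
    rintro i j hij _ ⟨u, rfl⟩ _ ⟨u', rfl⟩
    rw [hform, if_neg hij, mul_zero]
  have hnd : ∀ k, IsNondegenerateOn f (LinearMap.range (t33Phi e P (y k))) := by
    rintro k _ ⟨u, rfl⟩ hw0
    have hu0 : u ≠ 0 := by
      rintro rfl
      exact hw0 (map_zero _)
    obtain ⟨⟨x, hx⟩, ⟨x', hx'⟩⟩ := hn₁ u hu0
    refine ⟨⟨t33Phi e P (y k) x, ⟨x, rfl⟩, ?_⟩, ⟨t33Phi e P (y k) x', ⟨x', rfl⟩, ?_⟩⟩
    · rw [hform, if_pos rfl]; exact mul_ne_zero hx hy.ne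
    · rw [hform, if_pos rfl]; exact mul_ne_zero hx' hy.ne
  refine ⟨fun k => LinearMap.range (t33Phi e P (y k)),
    ⟨⟨by norm_num, by norm_num, ?_, ?_, ?_⟩, hnd, horth⟩, ?_⟩
  · intro k
    rw [LinearMap.finrank_range_of_inj (hinj k)]
    simp
  · rw [iSupIndep_def]
    intro i
    rw [Submodule.disjoint_def]
    intro x hx hx'
    let W : Submodule F (ι → F) :=
      { carrier := {z | ∀ v ∈ LinearMap.range (t33Phi e P (y i)), f z v = 0}
        add_mem' := by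
          intro p q hp hq v hv
          rw [hf.bilinear.add_left, hp v hv, hq v hv, add_zero]
        zero_mem' := fun v _ => hf0 v
        smul_mem' := by
          intro c p hp v hv
          rw [hf.bilinear.smul_left, hp v hv, mul_zero] }
    have hle : (⨆ j, ⨆ (_ : j ≠ i), LinearMap.range (t33Phi e P (y j))) ≤ W :=
      iSup₂_le (fun j hj z hz v hv => horth j i hj z hz v hv)
    have hxW : x ∈ W := hle hx'
    by_contra hx0
    obtain ⟨_, ⟨v, hv, hne⟩⟩ := hnd i x hx hx0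
    exact hne (hxW v hv)
  · rw [eq_top_iff]
    intro v _
    obtain ⟨x, hx⟩ : ∃ x : Fin 2 × Fin 3 → F, x = (((P⁻¹ : GL ι F) : Matrix ι ι F) *ᵥ v) ∘ e.symm :=
      ⟨_, rfl⟩
    have hv : v = (P : Matrix ι ι F) *ᵥ (x ∘ e) := by
      have : x ∘ e = ((P⁻¹ : GL ι F) : Matrix ι ι F) *ᵥ v := by funext i; simp [hx]
      rw [this, Matrix.mulVec_mulVec, tmul_mul_inv, Matrix.one_mulVec]
    choose a ha using fun i : Fin 2 => hy.span (fun j => x (i, j))
    have hx' : x = tp (fun i => a i 0) (y 0) + tp (fun i => a i 1) (y 1) + tp (fun i => a i 2) (y 2) := by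
      funext ⟨i, j⟩
      have := congrFun (ha i) j
      simpa [tp_apply] using this
    have hv' : v = t33Phi e P (y 0) (fun i => a i 0) + t33Phi e P (y 1) (fun i => a i 1) +
        t33Phi e P (y 2) (fun i => a i 2) := by
      rw [hv, hx', t33Phi_apply, t33Phi_apply, t33Phi_apply, ← Matrix.mulVec_add, ← Matrix.mulVec_add]
      rfl
    rw [hv']
    exact add_mem (add_mem (Submodule.mem_iSup_of_mem 0 ⟨_, rfl⟩) (Submodule.mem_iSup_of_mem 1 ⟨_, rfl⟩))
      (Submodule.mem_iSup_of_mem 2 ⟨_, rfl⟩)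
  · intro g hg
    obtain ⟨a, b, hab⟩ := (mem_tensor_iff e P g).1 (hΓt hg)
    obtain ⟨c, hc⟩ := hΓ hg
    have hact : ∀ w u, (g : Matrix ι ι F) *ᵥ t33Phi e P w u =
        t33Phi e P ((b : Matrix (Fin 3) (Fin 3) F) *ᵥ w) ((a : Matrix (Fin 2) (Fin 2) F) *ᵥ u) := by
      intro w u; rw [hab, t33_act]
    have hsim : ∀ u u' w w', toddForm J₁ ((a : Matrix (Fin 2) (Fin 2) F) *ᵥ u)
        ((a : Matrix (Fin 2) (Fin 2) F) *ᵥ u') * toddForm J₂ ((b : Matrix (Fin 3) (Fin 3) F) *ᵥ w)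
        ((b : Matrix (Fin 3) (Fin 3) F) *ᵥ w') = c * (toddForm J₁ u u' * toddForm J₂ w w') := by
      intro u u' w w'
      rw [← t33_form f e P J₁ J₂ hJ, ← t33_form f e P J₁ J₂ hJ, ← hact, ← hact, hc]
    have hbinv : ∀ w, (b : Matrix (Fin 3) (Fin 3) F) *ᵥ
        (((b⁻¹ : GL (Fin 3) F) : Matrix (Fin 3) (Fin 3) F) *ᵥ w) = w := by
      intro w; rw [Matrix.mulVec_mulVec, tmul_mul_inv, Matrix.one_mulVec]
    have hainv : ∀ w, (a : Matrix (Fin 2) (Fin 2) F) *ᵥ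
        (((a⁻¹ : GL (Fin 2) F) : Matrix (Fin 2) (Fin 2) F) *ᵥ w) = w := by
      intro w; rw [Matrix.mulVec_mulVec, tmul_mul_inv, Matrix.one_mulVec]
    have hbinj : ∀ w, (b : Matrix (Fin 3) (Fin 3) F) *ᵥ w = 0 → w = 0 := by
      intro w hw
      have : ((b⁻¹ : GL (Fin 3) F) : Matrix (Fin 3) (Fin 3) F) *ᵥ
          ((b : Matrix (Fin 3) (Fin 3) F) *ᵥ w) = w := by
        rw [Matrix.mulVec_mulVec, tmul_inv_mul, Matrix.one_mulVec]
      rw [← this, hw, Matrix.mulVec_zero]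
    obtain ⟨v₀, hv₀⟩ : ∃ v₀ : Fin 2 → F, v₀ ≠ 0 := ⟨Pi.single 0 1, by
      intro h0
      have := congrFun h0 0
      simp at this⟩
    obtain ⟨v₁, hv₁⟩ := (hn₁ v₀ hv₀).2
    obtain ⟨μ, hμ⟩ : ∃ μ : F, ∀ w w', toddForm J₂ ((b : Matrix (Fin 3) (Fin 3) F) *ᵥ w)
        ((b : Matrix (Fin 3) (Fin 3) F) *ᵥ w') = μ * toddForm J₂ w w' := by
      refine ⟨c * toddForm J₁ (((a⁻¹ : GL (Fin 2) F) : Matrix (Fin 2) (Fin 2) F) *ᵥ v₀)
        (((a⁻¹ : GL (Fin 2) F) : Matrix (Fin 2) (Fin 2) F) *ᵥ v₁) / toddForm J₁ v₀ v₁, ?_⟩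
      intro w w'
      have := hsim (((a⁻¹ : GL (Fin 2) F) : Matrix (Fin 2) (Fin 2) F) *ᵥ v₀)
        (((a⁻¹ : GL (Fin 2) F) : Matrix (Fin 2) (Fin 2) F) *ᵥ v₁) w w'
      rw [hainv, hainv] at this
      field_simp
      linear_combination this
    have hμ0 : μ ≠ 0 := by
      intro h0
      have := hμ (((b⁻¹ : GL (Fin 3) F) : Matrix (Fin 3) (Fin 3) F) *ᵥ y 0)
        (((b⁻¹ : GL (Fin 3) F) : Matrix (Fin 3) (Fin 3) F) *ᵥ y 0)
      rw [hbinv, hy.orth, if_pos rfl, h0, zero_mul] at this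
      exact hy.ne this
    have hFr : ∀ k, Fr (toddForm J₂) ((b : Matrix (Fin 3) (Fin 3) F) *ᵥ y k) := by
      intro k
      obtain ⟨hk1, hk2⟩ := hy.fr hF h3 hf₂.bilinear k
      refine ⟨by rw [hμ]; exact mul_ne_zero hμ0 hk1, ?_⟩
      intro v hv hvv
      rw [← hbinv v] at hv hvv ⊢
      rw [hμ] at hv hvv
      rw [hk2 _ ((mul_eq_zero.1 hv).resolve_left hμ0) ((mul_eq_zero.1 hvv).resolve_left hμ0),
        Matrix.mulVec_zero]
    choose σ d hσ using fun k => hy.eq_of_fr hF h3 hf₂.bilinear (hFr k)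
    have hd0 : ∀ k, d k ≠ 0 := by
      intro k h0
      have := hσ k
      rw [h0, zero_smul] at this
      exact hy.ne_zero hf₂.bilinear k (hbinj _ this)
    have hσinj : Function.Injective σ := by
      intro k l hkl
      by_contra hne
      have := hμ (y k) (y l)
      rw [hσ k, hσ l, hkl, hy.orth k l, if_neg hne, mul_zero, hf₂.bilinear.smul_left,
        hf₂.bilinear.smul_right, hy.orth, if_pos rfl] at this
      exact (mul_ne_zero (hd0 k) (mul_ne_zero (hd0 l) hy.ne)) this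
    refine ⟨Equiv.ofBijective σ (Finite.injective_iff_bijective.1 hσinj), fun k => ?_⟩
    rw [Equiv.ofBijective_apply]
    apply le_antisymm
    · rintro _ ⟨_, ⟨u, rfl⟩, rfl⟩
      rw [Matrix.toLin'_apply]
      refine ⟨d k • ((a : Matrix (Fin 2) (Fin 2) F) *ᵥ u), ?_⟩
      rw [hact, hσ k, t33_smul]
    · rintro _ ⟨u, rfl⟩
      refine ⟨t33Phi e P (y k) ((d k)⁻¹ • (((a⁻¹ : GL (Fin 2) F) : Matrix (Fin 2) (Fin 2) F) *ᵥ u)),
        ⟨_, rfl⟩, ?_⟩
      rw [Matrix.toLin'_apply, hact, hσ k, t33_smul, Matrix.mulVec_smul, hainv, smul_smul,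
        mul_inv_cancel₀ (hd0 k), one_smul]

end Cfsg.Agent.Lib.Helper80.AS
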