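import Cfsg.Agent.Lib.Helper80.AS.Defs
import Cfsg.Agent.Lib.Helper80.AS.PAR
import Cfsg.Agent.Lib.Helper80.AS.TODD
import Cfsg.Agent.Lib.Helper80.AS.TCH2
import Cfsg.Agent.Lib.Helper80.AS.T33

/-! Ladder ASCHS, rung TFIN. -/

set_option autoImplicit false

namespace Cfsg.Agent.Lib.Helper80.AS

open Cfsg Cfsg.Geo
open Cfsg.Agent.Lib.Helper77.Asch (NormBy MinOver)
open scoped MatrixGroups Matrix Kronecker

variable {ι : Type} [Fintype ι] [DecidableEq ι] {F : Type*} [Field F]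

/-- TFIN (assembly).  `q` even: `tensor_char_two` contradicts `hirr`.  `q` odd: `tensor_struct_odd`; if `m = 3` and `q = 3`: `tensor_three`, third alternative; else seventh alternative (`q` odd, `q ≠ 3` ⇒ `5 ≤ q`). -/
theorem tensor_final [Fintype F] [Nonempty ι] (m : ℕ) (hm : m.Prime) (hm2 : m ≠ 2) (f : (ι → F) → (ι → F) → F)
    (hf : IsSymplecticForm f) (Γ : Subgroup (GL ι F)) (hΓ : Γ ≤ similarityGroup f)
    (hirr : ActsIrreducibly (matrixSet Γ)) (e : ι ≃ Fin 2 × Fin m) (P : GL ι F)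
    (J₁ : Matrix (Fin 2) (Fin 2) F) (J₂ : Matrix (Fin m) (Fin m) F) (hJ : GramTensor f e P J₁ J₂)
    (hΓt : Γ ≤ tensorProductSubgroup 2 m e P) : InGeoS m f Γ := by
  have hodd : Odd m := hm.odd_of_ne_two hm2
  by_cases h2 : (2 : F) = 0
  · exact absurd hirr (tensor_char_two h2 m hodd hm.one_lt f hf e P J₁ J₂ hJ Γ hΓ hΓt)
  · have hq : Odd (Fintype.card F) := odd_card_iff.mpr h2
    obtain ⟨⟨hJ1, hJ2⟩, f₁, f₂, hf₁, hf₂, hstr⟩ := tensor_struct_odd h2 m hodd f hf e P J₁ J₂ hJ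
    by_cases hcase : m = 3 ∧ Fintype.card F = 3
    · obtain ⟨rfl, hq3⟩ := hcase
      obtain ⟨D, hD, hle⟩ := tensor_three hq3 f hf e P J₁ J₂ hJ hJ1 hJ2 Γ hΓ hΓt
      exact Or.inr (Or.inr (Or.inl ⟨hq3.ge, D, hD, hle⟩))
    · refine Or.inr (Or.inr (Or.inr (Or.inr (Or.inr (Or.inr (Or.inl
        ⟨hq, ?_, e, P, f₁, f₂, hf₁, hf₂, hstr, hΓt⟩))))))
      intro hm3
      have hne : Fintype.card F ≠ 3 := fun h => hcase ⟨hm3, h⟩
      have h1 : 1 < Fintype.card F := Fintype.one_lt_card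
      obtain ⟨r, hr⟩ := hq
      omega

end Cfsg.Agent.Lib.Helper80.AS
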