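import Cfsg.Agent.Lib.Helper80.AS.TNORM0
import Cfsg.Agent.Lib.Helper80.AS.TMEM

/-! Ladder ASCHS, rung TNORM: the normaliser of the left factor lies in the tensor product subgroup. -/

set_option autoImplicit false

namespace Cfsg.Agent.Lib.Helper80.AS

open Cfsg Cfsg.Geo
open scoped MatrixGroups Matrix Kronecker

variable {ι : Type} [Fintype ι] [DecidableEq ι] {F : Type*} [Field F]

theorem norm_le_tensor [Nonempty ι] {s k : ℕ} (B : Subalgebra F (Matrix ι ι F)) (e : ι ≃ Fin s × Fin k)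
    (P : GL ι F) (hB : IsLeftFactor B e P) : subalgebraNormalizer B ≤ tensorProductSubgroup s k e P := by
  classical
  intro g hg
  have hg' : ∀ x : Matrix ι ι F, x ∈ B ↔ (g : Matrix ι ι F) * x * ((g⁻¹ : GL ι F) : Matrix ι ι F) ∈ B := hg
  let i0 : ι := Classical.arbitrary ι
  let o : Fin k := (e i0).2
  have hs : 0 < s := (e i0).1.pos
  obtain ⟨C, hC⟩ := tmat_surjective e P (g : Matrix ι ι F)
  obtain ⟨C', hC'⟩ := tmat_surjective e P ((g⁻¹ : GL ι F) : Matrix ι ι F)
  have h1 : C * C' = 1 := by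
    apply tmat_injective e P
    rw [tmat_mul, tmat_one, hC, hC', tmul_mul_inv]
  have h2 : C' * C = 1 := by
    apply tmat_injective e P
    rw [tmat_mul, tmat_one, hC, hC', tmul_inv_mul]
  obtain ⟨a, a', y, ha1, ha2, hCy⟩ := tnorm_core o C C' h1 h2 (by
    intro x
    have hx : tmat e P (x ⊗ₖ (1 : Matrix (Fin k) (Fin k) F)) ∈ B := (hB _).mpr ⟨x, rfl⟩
    obtain ⟨x', hx'⟩ := (hB _).mp ((hg' _).mp hx)
    refine ⟨x', ?_⟩
    apply tmat_injective e P
    rw [tmat_mul, tmat_mul, hC, hC', hx'])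
  have hdetC : C.det ≠ 0 := by
    intro h0
    have := congrArg Matrix.det h1
    rw [Matrix.det_mul, h0, zero_mul, Matrix.det_one] at this
    exact zero_ne_one this
  have hdety : y.det ≠ 0 := by
    intro h0
    apply hdetC
    rw [hCy, Matrix.det_kronecker, h0, Fintype.card_fin, Fintype.card_fin, zero_pow hs.ne', mul_zero]
  rw [mem_tensor_iff]
  refine ⟨⟨a, a', ha1, ha2⟩, Matrix.GeneralLinearGroup.mkOfDetNeZero y hdety, ?_⟩
  rw [← hC, hCy]
  rfl

end Cfsg.Agent.Lib.Helper80.AS
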