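import Cfsg.Agent.Lib.Helper80.AS.Defs
import Cfsg.Agent.Lib.Helper80.AS.ENVN
import Cfsg.Agent.Lib.Helper80.AS.ENVA
import Cfsg.Agent.Lib.Helper80.AS.ENVS
import Cfsg.Agent.Lib.Helper80.AS.TENS
import Cfsg.Agent.Lib.Helper80.AS.S1K1
import Cfsg.Agent.Lib.Helper80.AS.TNORM
import Cfsg.Agent.Lib.Helper80.AS.TFORM
import Cfsg.Agent.Lib.Helper80.AS.SWAP
import Cfsg.Agent.Lib.Helper80.AS.TFIN

/-! Ladder ASCHS, rung T2. -/

set_option autoImplicit false

namespace Cfsg.Agent.Lib.Helper80.AS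

open Cfsg Cfsg.Geo
open Cfsg.Agent.Lib.Helper77.Asch (NormBy MinOver)
open scoped MatrixGroups Matrix Kronecker

variable {ι : Type} [Fintype ι] [DecidableEq ι] {F : Type*} [Field F]

theorem t2_arith {s k m : ℕ} (hm : m.Prime) (h : s * k = 2 * m) :
    s = 1 ∨ k = 1 ∨ (s = 2 ∧ k = m) ∨ (s = m ∧ k = 2) := by
  have hd : m ∣ s * k := h ▸ Dvd.intro_left 2 rfl
  rcases (Nat.Prime.dvd_mul hm).mp hd with ⟨a, ha⟩ | ⟨a, ha⟩
  · have h1 : a * k = 2 := by
      have : m * (a * k) = m * 2 := by rw [← mul_assoc, ← ha, h, mul_comm]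
      exact Nat.eq_of_mul_eq_mul_left hm.pos this
    have h2 : a ∣ 2 := Dvd.intro _ h1
    rcases (Nat.dvd_prime Nat.prime_two).mp h2 with rfl | rfl
    · right; right; right
      exact ⟨by rw [ha, mul_one], by rw [← h1, one_mul]⟩
    · right; left
      omega
  · have h1 : s * a = 2 := by
      have : m * (s * a) = m * 2 := by
        calc m * (s * a) = s * (m * a) := by ring
          _ = m * 2 := by rw [← ha, h, mul_comm]
      exact Nat.eq_of_mul_eq_mul_left hm.pos this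
    have h2 : s ∣ 2 := Dvd.intro _ h1
    rcases (Nat.dvd_prime Nat.prime_two).mp h2 with rfl | rfl
    · left; rfl
    · right; right; left
      have h3 : a = 1 := by omega
      exact ⟨rfl, by rw [ha, h3, mul_one]⟩

/-- T2 (assembly).  `exists_leftFactor Γ (env N)` (`env_norm`): `s k = 2m` (card of `e`).  `s = 1`: `scal_of_leftFactor_one`, `le_scalars_of_env`.  `k = 1`: `top_of_leftFactor_one`, `absIrr_of_env_top`.
Else `(s,k) = (2,m)` or `(m,2)`; `norm_le_tensor`, `tensor_gram` (`env_adj`), in the second case `tensor_swap`, `gram_swap`; `tensor_final`. -/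
theorem tensor_cases [Fintype F] (m : ℕ) (hm : m.Prime) (hm2 : m ≠ 2) (hcard : Fintype.card ι = 2 * m)
    (f : (ι → F) → (ι → F) → F) (hf : IsSymplecticForm f) (Γ : Subgroup (GL ι F))
    (hΓ : Γ ≤ similarityGroup f) (hirr : ActsIrreducibly (matrixSet Γ)) (N : Subgroup (GL ι F))
    (hN : N ≤ Γ) (hnorm : NormBy Γ N) (hcen : IsScal (cen (env N))) :
    InGeoS m f Γ ∨ N ≤ scalars ι F ∨ ActsAbsolutelyIrreducibly (matrixSet N) := by
  have hne : Nonempty ι := by
    apply Fintype.card_pos_iff.mp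
    rw [hcard]
    exact Nat.mul_pos (by norm_num) hm.pos
  have hn := env_norm Γ N hnorm
  obtain ⟨s, k, e, P, hB⟩ := exists_leftFactor Γ hirr (env N) hn hcen
  have hsk : s * k = 2 * m := by
    rw [← hcard, Fintype.card_congr e, Fintype.card_prod, Fintype.card_fin, Fintype.card_fin]
  have hadj := env_adj f hf.bilinear N (hN.trans hΓ)
  have hΓt : Γ ≤ tensorProductSubgroup s k e P := hn.trans (norm_le_tensor (env N) e P hB)
  obtain ⟨J₁, J₂, hJ⟩ := tensor_gram f hf (env N) e P hB hadj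
  rcases t2_arith hm hsk with rfl | rfl | ⟨rfl, rfl⟩ | ⟨rfl, rfl⟩
  · exact Or.inr (Or.inl (le_scalars_of_env N (scal_of_leftFactor_one (env N) e P hB)))
  · exact Or.inr (Or.inr (absIrr_of_env_top N (top_of_leftFactor_one (env N) e P hB)))
  · exact Or.inl (tensor_final k hm hm2 f hf Γ hΓ hirr e P J₁ J₂ hJ hΓt)
  · refine Or.inl (tensor_final s hm hm2 f hf Γ hΓ hirr (e.trans (Equiv.prodComm _ _)) P J₂ J₁
      (gram_swap f e P J₁ J₂ hJ) ?_)
    rw [← tensor_swap]
    exact hΓt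

end Cfsg.Agent.Lib.Helper80.AS
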