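import Cfsg.Agent.Lib.Helper80.AS.Defs

/-! Ladder ASCHS (helper80), rung CL2B (helper56). -/

set_option autoImplicit false

namespace Cfsg.Agent.Lib.Helper80.AS

open Cfsg Cfsg.Geo
open Cfsg.Agent.Lib.Helper77.Asch (NormBy MinOver)
open scoped MatrixGroups Matrix Kronecker commutatorElement

/-- CL2B. -/
theorem card_quot_prime_pow {G : Type*} [Group G] [Finite G] (H Z N : Subgroup G) [Z.Normal]
    (hm : MinOver H Z N) (hab : ⁅N, N⁆ ≤ Z) :
    ∃ r j : ℕ, r.Prime ∧ Nat.card (N ⧸ Z.subgroupOf N) = r ^ j := by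
  classical
  have hcard1 : Nat.card (N ⧸ Z.subgroupOf N) ≠ 1 := by
    intro h1
    have h2 : (Z.subgroupOf N).index = 1 := h1
    rw [Subgroup.index_eq_one, Subgroup.subgroupOf_eq_top] at h2
    exact absurd h2 (not_le_of_gt hm.lt)
  obtain ⟨r, hr⟩ : ∃ r, r = (Nat.card (N ⧸ Z.subgroupOf N)).minFac := ⟨_, rfl⟩
  have hrp : r.Prime := by rw [hr]; exact Nat.minFac_prime hcard1
  have : Fact r.Prime := ⟨hrp⟩
  have hdvd : r ∣ Nat.card (N ⧸ Z.subgroupOf N) := by rw [hr]; exact Nat.minFac_dvd _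
  obtain ⟨q, hq⟩ := exists_prime_orderOf_dvd_card' r hdvd
  obtain ⟨x, rfl⟩ := QuotientGroup.mk_surjective q
  have hxZ : (x : G) ∉ Z := by
    intro h
    have h1 : (QuotientGroup.mk x : N ⧸ Z.subgroupOf N) = 1 := by
      rw [QuotientGroup.eq_one_iff]
      exact h
    rw [h1, orderOf_one] at hq
    exact hrp.one_lt.ne hq
  have hxr : (x : G) ^ r ∈ Z := by
    have h1 : (QuotientGroup.mk x : N ⧸ Z.subgroupOf N) ^ r = 1 := by rw [← hq, pow_orderOf_eq_one]
    rw [← QuotientGroup.mk_pow, QuotientGroup.eq_one_iff] at h1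
    exact h1
  have hcomm : ∀ a ∈ N, ∀ b ∈ N, Commute (QuotientGroup.mk a : G ⧸ Z) (QuotientGroup.mk b) := by
    intro a ha b hb
    have h1 : ⁅a, b⁆ ∈ Z := hab (Subgroup.commutator_mem_commutator ha hb)
    have h2 : (QuotientGroup.mk ⁅a, b⁆ : G ⧸ Z) = 1 := (QuotientGroup.eq_one_iff _).2 h1
    rw [commutatorElement_def] at h2
    simp only [QuotientGroup.mk_mul, QuotientGroup.mk_inv] at h2
    show _ * _ = _ * _
    calc (QuotientGroup.mk a : G ⧸ Z) * QuotientGroup.mk b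
        = ((QuotientGroup.mk a : G ⧸ Z) * QuotientGroup.mk b * (QuotientGroup.mk a)⁻¹ * (QuotientGroup.mk b)⁻¹)
            * (QuotientGroup.mk b * QuotientGroup.mk a) := by group
      _ = _ := by rw [h2, one_mul]
  let M : Subgroup G :=
    { carrier := {y | y ∈ N ∧ y ^ r ∈ Z}
      one_mem' := ⟨N.one_mem, by rw [one_pow]; exact Z.one_mem⟩
      mul_mem' := by
        rintro a b ⟨ha, har⟩ ⟨hb, hbr⟩
        refine ⟨N.mul_mem ha hb, ?_⟩
        rw [← QuotientGroup.eq_one_iff, QuotientGroup.mk_pow, QuotientGroup.mk_mul, (hcomm a ha b hb).mul_pow,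
          ← QuotientGroup.mk_pow, ← QuotientGroup.mk_pow, (QuotientGroup.eq_one_iff _).2 har,
          (QuotientGroup.eq_one_iff _).2 hbr, one_mul]
      inv_mem' := by
        rintro a ⟨ha, har⟩
        exact ⟨N.inv_mem ha, by rw [inv_pow]; exact Z.inv_mem har⟩ }
  have hMN : M = N := by
    rcases hm.min M (fun z hz => ⟨hm.lt.le hz, Z.pow_mem hz r⟩) (fun y hy => hy.1) (by
      intro h hh y hy
      refine ⟨hm.norm h hh y hy.1, ?_⟩
      rw [conj_pow]
      exact (inferInstance : Z.Normal).conj_mem _ hy.2 h) with h | h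
    · exfalso
      apply hxZ
      rw [← h]
      exact ⟨x.2, hxr⟩
    · exact h
  have hp : IsPGroup r (N ⧸ Z.subgroupOf N) := by
    intro q
    obtain ⟨y, rfl⟩ := QuotientGroup.mk_surjective q
    refine ⟨1, ?_⟩
    rw [pow_one, ← QuotientGroup.mk_pow, QuotientGroup.eq_one_iff]
    have : (y : G) ∈ M := by rw [hMN]; exact y.2
    exact this.2
  obtain ⟨j, hj⟩ := IsPGroup.iff_card.1 hp
  exact ⟨r, j, hrp, hj⟩

end Cfsg.Agent.Lib.Helper80.AS
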