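import Cfsg.Agent.Lib.Helper80.AS.Defs
import Cfsg.Agent.Lib.Helper80.AS.CL2A
import Cfsg.Agent.Lib.Helper80.AS.CL2B

/-! Ladder ASCHS (helper80), rung T3 (helper1): no class-two minimal normal subgroup in dimension `2m`, `m` an odd prime. -/

set_option autoImplicit false

namespace Cfsg.Agent.Lib.Helper80.AS

open Cfsg Cfsg.Geo
open Cfsg.Agent.Lib.Helper77.Asch (NormBy MinOver)
open scoped MatrixGroups Matrix Kronecker

variable {ι : Type} [Fintype ι] [DecidableEq ι] {F : Type*} [Field F]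

theorem not_class_two [Fintype F] (m : ℕ) (hm : m.Prime) (hm2 : m ≠ 2) (hcard : Fintype.card ι = 2 * m)
    (Γ N : Subgroup (GL ι F)) (hmin : MinOver Γ (scalars ι F) N)
    (habs : ActsAbsolutelyIrreducibly (matrixSet N)) (hab : ⁅N, N⁆ ≤ scalars ι F) : False := by
  have hne : Nonempty ι := Fintype.card_pos_iff.mp (by rw [hcard]; have := hm.pos; omega)
  have h1 := card_quot_eq_sq N hmin.lt.le habs hab
  obtain ⟨r, j, hr, h2⟩ := card_quot_prime_pow Γ (scalars ι F) N hmin hab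
  rw [h1, hcard] at h2
  have h3 : 2 ∣ r ^ j := by
    rw [← h2]
    exact Dvd.dvd.pow (Dvd.intro _ rfl) (by norm_num)
  have h4 : m ∣ r ^ j := by
    rw [← h2]
    exact Dvd.dvd.pow (Dvd.intro_left _ rfl) (by norm_num)
  have h5 : 2 = r := (Nat.prime_dvd_prime_iff_eq Nat.prime_two hr).1 (Nat.prime_two.dvd_of_dvd_pow h3)
  have h6 : m = r := (Nat.prime_dvd_prime_iff_eq hm hr).1 (hm.dvd_of_dvd_pow h4)
  exact hm2 (h6.trans h5.symm)

end Cfsg.Agent.Lib.Helper80.AS
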