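import Cfsg.Agent.Lib.Helper80.AS.Defs
import Cfsg.Agent.Lib.Helper28.Descent.Gram

set_option autoImplicit false

namespace Cfsg.Agent.Lib.Helper80.AS

open Cfsg Cfsg.Geo
open Cfsg.Agent.Lib.Helper77.Asch (NormBy MinOver)
open scoped MatrixGroups Matrix Kronecker

variable {ι : Type} [Fintype ι] [DecidableEq ι] {F : Type*} [Field F]

/-- UNIT (Galois descent): wrapper of `Helper28.Descent.realisable_of_bilin_unitary`. -/
theorem realisable_of_unitary [Fintype F] [Nonempty ι] (f : (ι → F) → (ι → F) → F) (hf : IsBilinearForm f)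
    (hfn : IsNondegenerateForm f) (P : Subgroup (GL ι F)) (hP : ActsAbsolutelyIrreducibly (matrixSet P))
    (hfix : FixesForm (matrixSet P) f) (σ : F ≃+* F) (u : (ι → F) → (ι → F) → F) (hu : IsUnitaryForm σ u)
    (hfixu : FixesForm (matrixSet P) u) :
    ∃ F₀ : Subfield F, F₀ ≠ ⊤ ∧ RealisableOver F₀ (matrixSet P) :=
  Cfsg.Agent.Lib.Helper28.Descent.realisable_of_bilin_unitary P hP f hf hfn hfix σ u hu hfixu

end Cfsg.Agent.Lib.Helper80.AS
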