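import Cfsg.Agent.Lib.Helper80.AS.T0
import Cfsg.Agent.Lib.Helper80.AS.MONO
import Cfsg.Agent.Lib.Helper80.AS.SCR
import Cfsg.Agent.Lib.Helper80.AS.SCS
import Cfsg.Agent.Lib.Helper80.AS.CEN
import Cfsg.Agent.Lib.Helper80.AS.ENVN
import Cfsg.Agent.Lib.Helper80.AS.ENVA
import Cfsg.Agent.Lib.Helper80.AS.T1A
import Cfsg.Agent.Lib.Helper80.AS.T1B
import Cfsg.Agent.Lib.Helper80.AS.T1C
import Cfsg.Agent.Lib.Helper80.AS.T2
import Cfsg.Agent.Lib.Helper80.AS.T3
import Cfsg.Agent.Lib.Helper80.AS.T4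
import Cfsg.Agent.Lib.Helper80.AS.ABSR
import Cfsg.Agent.Lib.Helper80.AS.MULT
import Cfsg.Agent.Lib.Helper80.AS.FRAT
import Cfsg.Agent.Lib.Helper80.AS.SUBF
import Cfsg.Agent.Lib.Helper80.AS.QEVEN
import Cfsg.Agent.Lib.Helper80.AS.QODD
import Cfsg.Agent.Lib.Helper80.AS.PAR
import Cfsg.Agent.Lib.Helper80.AS.UNIT
import Cfsg.Agent.Lib.Helper77.Asch.AG0
import Cfsg.Agent.Lib.Helper77.Asch.AG3
import Cfsg.Agent.Lib.Helper77.Asch.AG4
import Cfsg.Agent.Lib.Helper77.Asch.AG5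
import Cfsg.Agent.Lib.Helper77.Asch.SUBF2

set_option autoImplicit false

namespace Cfsg.Agent.Lib.Helper80.AS

open Cfsg Cfsg.Geo
open Cfsg.Agent.Lib.Helper77.Asch (NormBy MinOver)
open scoped MatrixGroups Matrix Kronecker

variable {ι : Type} [Fintype ι] [DecidableEq ι] {F : Type*} [Field F]

theorem mn_normBy_iff {G : Type*} [Group G] {H N : Subgroup G} (h : NormBy H N) {g : G} (hg : g ∈ H) (x : G) :
    x ∈ N ↔ g * x * g⁻¹ ∈ N := by
  refine ⟨fun hx => h g hg x hx, fun hx => ?_⟩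
  have := h g⁻¹ (H.inv_mem hg) _ hx
  simpa [mul_assoc] using this

theorem mn_le_normalizer {H R : Subgroup (GL ι F)} (h : NormBy H R) :
    H ≤ subgroupNormalizer R := by
  intro g hg
  unfold subgroupNormalizer
  rw [Subgroup.mem_normalizer_iff]
  intro x
  exact mn_normBy_iff h hg x

theorem mn_scalars_central (z : GL ι F) (hz : z ∈ scalars ι F) (g : GL ι F) :
    g * z = z * g := by
  obtain ⟨c, hc⟩ := (mem_scalars_iff z).1 hz
  apply Units.ext
  rw [Units.val_mul, Units.val_mul, hc]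
  simp

theorem mn_normBy_commutator {G : Type*} [Group G] {H N : Subgroup G} (h : NormBy H N) : NormBy H ⁅N, N⁆ := by
  intro g hg x hx
  have h1 : (⁅N, N⁆).map (MulAut.conj g).toMonoidHom ≤ ⁅N, N⁆ := by
    rw [Subgroup.map_commutator]
    have h2 : N.map (MulAut.conj g).toMonoidHom ≤ N := by
      rintro _ ⟨y, hy, rfl⟩
      exact h g hg y hy
    exact Subgroup.commutator_mono h2 h2
  exact h1 ⟨x, hx, rfl⟩

theorem mn_mem_scalars_of_commute [Nonempty ι] (P : Subgroup (GL ι F))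
    (hP : ActsAbsolutelyIrreducibly (matrixSet P)) (g : GL ι F) (hg : ∀ x ∈ P, g * x = x * g) :
    g ∈ scalars ι F := by
  obtain ⟨c, hc⟩ := hP.2 (g : Matrix ι ι F) (by
    rintro _ ⟨x, hx, rfl⟩
    rw [← Units.val_mul, ← Units.val_mul, hg x hx])
  have hc0 : c ≠ 0 := by
    rintro rfl
    have h1 : (g : Matrix ι ι F) = 0 := by rw [hc, zero_smul]
    have h2 := g.isUnit
    rw [h1] at h2
    exact not_isUnit_zero h2
  exact (mem_scalars_iff g).2 ⟨Units.mk0 c hc0, hc⟩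

/-- Aschbacher's theorem for subgroups of the conformal symplectic group in dimension `2m`, `m` an odd prime. -/
theorem main [Fintype F] (m : ℕ) (hm : m.Prime) (hm2 : m ≠ 2) (hcard : Fintype.card ι = 2 * m)
    (f : (ι → F) → (ι → F) → F) (hf : IsSymplecticForm f) (H : Subgroup (GL ι F))
    (hH : H ≤ similarityGroup f) : InGeoS m f H ∨ InSymplecticResidualClass H := by
  classical
  have hmpos : 0 < m := hm.pos
  have hne : Nonempty ι := Fintype.card_pos_iff.mp (by omega)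
  have hodd : Odd m := hm.odd_of_ne_two hm2
  obtain ⟨Z, hZ⟩ : ∃ Z, Z = scalars ι F := ⟨_, rfl⟩
  have hZc : ∀ z ∈ Z, ∀ g : GL ι F, g * z = z * g := by
    intro z hz g
    exact mn_scalars_central z (hZ ▸ hz) g
  obtain ⟨Γ, hΓd⟩ : ∃ Γ, Γ = H ⊔ Z := ⟨_, rfl⟩
  have hHle : H ≤ Γ := hΓd ▸ le_sup_left
  have hZle : Z ≤ Γ := hΓd ▸ le_sup_right
  have hΓ : Γ ≤ similarityGroup f := by
    rw [hΓd, hZ]
    exact sup_le hH (scalars_le_sim f hf.bilinear)
  suffices InGeoS m f Γ ∨ InSymplecticResidualClass H by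
    rcases this with h | h
    · exact Or.inl (h.mono hHle)
    · exact Or.inr h
  by_cases hirr : ActsIrreducibly (matrixSet Γ)
  swap
  · exact Or.inl (red_cases m hodd hcard f hf Γ hΓ hirr)
  have hZlt : Z < Γ := by
    refine lt_of_le_of_ne hZle (fun h => ?_)
    apply not_irr_scalars (ι := ι) (F := F) (by omega)
    rw [← hZ, h]
    exact hirr
  obtain ⟨N, hmin⟩ := Helper77.Asch.exists_minOver Γ Z hZlt
  have hNsim : N ≤ similarityGroup f := hmin.le.trans hΓ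
  have hEn : Γ ≤ subalgebraNormalizer (cen (env N)) := cen_norm Γ _ (env_norm Γ N hmin.norm)
  have hEadj : IsAdjointClosedFor f (cen (env N)) := cen_adj f hf _ (env_adj f hf.bilinear N hNsim)
  have hEc : IsComm (cen (env N)) := cen_comm (env N)
  rcases comm_cases_a m hm hm2 hcard f hf Γ hΓ hirr _ hEc hEn with h | h0
  · exact Or.inl h
  rcases comm_cases_b m hcard f hf Γ hΓ hirr _ hEc hEn hEadj h0 with h | hfield
  · exact Or.inl h
  rcases comm_cases_c m hm hm2 hcard f hf Γ hΓ _ hEn hEadj _ hfield with h | hscal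
  · exact Or.inl h
  rcases tensor_cases m hm hm2 hcard f hf Γ hΓ hirr N hmin.le hmin.norm hscal with h | h | hNabs
  · exact Or.inl h
  · exact absurd (hZ ▸ h) (not_le_of_gt hmin.lt)
  have hab : ¬ ⁅N, N⁆ ≤ Z := fun hab =>
    not_class_two m hm hm2 hcard Γ N (hZ ▸ hmin) hNabs (hZ ▸ hab)
  have hsimple := simple_of_absIrr m hm hm2 hcard Γ N (hZ ▸ hmin) hNabs (hZ ▸ hab)
  obtain ⟨P, hP⟩ : ∃ P, P = ⁅N, N⁆ := ⟨_, rfl⟩
  obtain ⟨hperf, hPZ⟩ := Helper77.Asch.perfect_core Γ Z N hZc hmin hab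
  rw [← hP] at hperf hPZ hab
  have hPnorm : NormBy Γ P := hP ▸ mn_normBy_commutator hmin.norm
  have hPabs : ActsAbsolutelyIrreducibly (matrixSet P) :=
    absIrr_of_sup P (by rw [← hZ, hPZ]; exact hNabs)
  have hPfix : FixesForm (matrixSet P) f := hP ▸ commutator_fixes f N hNsim
  have hnormH : Γ ≤ subgroupNormalizer P := mn_le_normalizer hPnorm
  have key : (∃ F₀ : Subfield F, F₀ ≠ ⊤ ∧ RealisableOver F₀ (matrixSet P)) → InGeoS m f Γ := by
    rintro ⟨F₀, hF₀, B, hB⟩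
    obtain ⟨F₁, r, hle1, hr, hcardF⟩ := Helper77.Asch.exists_prime_subfield F₀ hF₀
    have hB1 : ∀ s ∈ matrixSet P, ∀ i j,
        ((B : Matrix ι ι F) * s * ((B⁻¹ : GL ι F) : Matrix ι ι F)) i j ∈ F₁ :=
      fun s hs i j => hle1 (hB s hs i j)
    obtain ⟨ζ, hζ, hrat⟩ := form_rational f hf.bilinear hf.nondegenerate P hPabs hPfix F₁ B hB1
    exact Or.inr (Or.inr (Or.inr (Or.inr (Or.inr (Or.inr (Or.inr (Or.inl
      ⟨F₁, r, B⁻¹, ζ, hr, hcardF, hζ, hrat,
        hnormH.trans (normalizer_le_subfield P hPabs F₁ B hB1)⟩)))))))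
  by_cases hsub : ∃ F₀ : Subfield F, F₀ ≠ ⊤ ∧ RealisableOver F₀ (matrixSet P)
  · exact Or.inl (key hsub)
  by_cases hq : ∃ Q : (ι → F) → F, IsNondegenerateQuadraticForm Q ∧ FixesQuadForm (matrixSet P) Q
  · obtain ⟨Q, hQ, hfixQ⟩ := hq
    by_cases h2F : (2 : F) = 0
    · left
      obtain ⟨Q', hQ', hpol, hle⟩ := quad_of_even h2F (by omega) f hf P hPabs hPfix Q hQ hfixQ Γ hΓ hnormH
      refine Or.inr (Or.inr (Or.inr (Or.inr (Or.inr (Or.inr (Or.inr (Or.inr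
        ⟨?_, Q', hQ', hpol, hle⟩)))))))
      intro ho
      exact (odd_card_iff.1 ho) h2F
    · exact (no_quad_of_odd h2F f hf P hPabs hPfix Q hQ hfixQ).elim
  by_cases hu : ∃ (σ : F ≃+* F) (u : (ι → F) → (ι → F) → F),
      IsUnitaryForm σ u ∧ FixesForm (matrixSet P) u
  · obtain ⟨σ, u, hu1, hu2⟩ := hu
    exact absurd (realisable_of_unitary f hf.bilinear hf.nondegenerate P hPabs hPfix σ u hu1 hu2) hsub
  right
  subst hZ
  refine ⟨P, ⟨?_, ?_, hperf, ?_, ?_, ?_, hPabs, ?_⟩, hq, hu⟩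
  · calc P ≤ ⁅Γ, Γ⁆ := hP ▸ Subgroup.commutator_mono hmin.le hmin.le
      _ ≤ H := hΓd ▸ Helper77.Asch.commutator_sup_le H _ hZc
  · intro h hh x hx
    exact hPnorm h (hHle hh) x hx
  · exact Helper77.Asch.simple_quot _ N P hPZ hmin.lt hsimple
  · exact Helper77.Asch.nonabelian_quot _ P (by rw [hperf]; exact hab)
  · intro h _ hx
    exact mn_mem_scalars_of_commute P hPabs h (Helper77.Asch.centralizes_of_perfect _ P hZc hperf h hx)
  · intro F₀ hF₀ hr
    exact hsub ⟨F₀, hF₀, hr⟩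

end Cfsg.Agent.Lib.Helper80.AS
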