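import Cfsg.Agent.Lib.Helper80.AS.Defs12
import Cfsg.Agent.Lib.Helper80.AS.TSIGN
import Cfsg.Agent.Lib.Helper80.AS.TFORM
import Cfsg.Agent.Lib.Helper80.AS.TMEM
import Cfsg.Agent.Lib.Helper80.AS.TMUL
import Cfsg.Agent.Lib.Helper80.AS.UNIQ

/-! Ladder ASCHS12, rung O2ALG: a symmetric 2-dimensional tensor factor gives an invariant commutative algebra. -/

set_option autoImplicit false

namespace Cfsg.Agent.Lib.Helper80.AS

open Cfsg Cfsg.Geo
open Cfsg.Agent.Lib.Helper77.Asch (NormBy MinOver)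
open scoped MatrixGroups Matrix Kronecker

variable {ι : Type} [Fintype ι] [DecidableEq ι] {F : Type*} [Field F]

/-- the form in coordinates as a dot product. -/
theorem o2_form {κ : Type} [Fintype κ] (G : Matrix κ κ F) (x y : κ → F) :
    formOfGram id G x y = x ⬝ᵥ (G *ᵥ y) := by
  rw [tsign_mulVec]
  rfl

/-- a similitude `a ⊗ b` of `J₁ ⊗ J₂` : `b` is a similitude of `J₂`. -/
theorem o2_sim [Nonempty ι] {s k : ℕ} (f : (ι → F) → (ι → F) → F) (hf : IsSymplecticForm f)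
    (e : ι ≃ Fin s × Fin k) (P : GL ι F)
    (J₁ : Matrix (Fin s) (Fin s) F) (J₂ : Matrix (Fin k) (Fin k) F) (hJ : GramTensor f e P J₁ J₂)
    (g : GL ι F) (hg : g ∈ similarityGroup f) (a : GL (Fin s) F) (b : GL (Fin k) F)
    (hab : (g : Matrix ι ι F) = tmat e P ((a : Matrix (Fin s) (Fin s) F) ⊗ₖ (b : Matrix (Fin k) (Fin k) F))) :
    ∃ μ : F, (b : Matrix (Fin k) (Fin k) F)ᵀ * J₂ * (b : Matrix (Fin k) (Fin k) F) = μ • J₂ := by
  classical
  obtain ⟨hd1, hd2, -⟩ := tensor_sign f hf e P J₁ J₂ hJ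
  obtain ⟨c, hc⟩ := hg
  set X : Matrix (Fin s × Fin k) (Fin s × Fin k) F :=
    (a : Matrix (Fin s) (Fin s) F) ⊗ₖ (b : Matrix (Fin k) (Fin k) F) with hX
  have hmat : Xᵀ * (J₁ ⊗ₖ J₂) * X = (c : F) • (J₁ ⊗ₖ J₂) := by
    apply uniq_ext
    intro x y
    rw [← uniq_dot, ← o2_form, ← hJ, ← tmat_mulVec, ← tmat_mulVec, ← hab, hc, hJ, o2_form, Matrix.smul_mulVec,
      dotProduct_smul, smul_eq_mul]
  have hmat2 : ((a : Matrix (Fin s) (Fin s) F)ᵀ * J₁ * (a : Matrix (Fin s) (Fin s) F)) ⊗ₖ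
      ((b : Matrix (Fin k) (Fin k) F)ᵀ * J₂ * (b : Matrix (Fin k) (Fin k) F)) = (c : F) • (J₁ ⊗ₖ J₂) := by
    rw [← hmat, hX, ← Matrix.kroneckerMap_transpose, ← Matrix.mul_kronecker_mul, ← Matrix.mul_kronecker_mul]
  set A := (a : Matrix (Fin s) (Fin s) F)ᵀ * J₁ * (a : Matrix (Fin s) (Fin s) F) with hA
  have hAdet : A.det ≠ 0 := by
    rw [hA, Matrix.det_mul, Matrix.det_mul, Matrix.det_transpose]
    have hadet : (a : Matrix (Fin s) (Fin s) F).det ≠ 0 :=
      ((Matrix.isUnit_iff_isUnit_det _).mp a.isUnit).ne_zero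
    exact mul_ne_zero (mul_ne_zero hadet hd1) hadet
  have hs : Nonempty (Fin s) := by
    obtain ⟨i⟩ := ‹Nonempty ι›
    exact ⟨(e i).1⟩
  obtain ⟨i, l, hil⟩ : ∃ i l, A i l ≠ 0 := by
    by_contra hcon
    push Not at hcon
    apply hAdet
    have : A = 0 := by
      ext i l
      exact hcon i l
    rw [this, Matrix.det_zero]
  refine ⟨(c : F) * J₁ i l / A i l, ?_⟩
  ext j n
  have h1 := congrFun (congrFun hmat2 (i, j)) (l, n)
  rw [Matrix.kroneckerMap_apply, Matrix.smul_apply, Matrix.kroneckerMap_apply, smul_eq_mul] at h1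
  rw [Matrix.smul_apply, smul_eq_mul]
  field_simp
  linear_combination h1

/-- the generator of the algebra. -/
def o2w (J : Matrix (Fin 2) (Fin 2) F) : Matrix (Fin 2) (Fin 2) F :=
  !![J 0 1, J 1 1; - J 0 0, - J 0 1]

theorem o2w_mul (J : Matrix (Fin 2) (Fin 2) F) (a b c d : F) :
    (a • (1 : Matrix (Fin 2) (Fin 2) F) + b • o2w J) * (c • (1 : Matrix (Fin 2) (Fin 2) F) + d • o2w J) =
      (a * c + b * d * (J 0 1 * J 0 1 - J 0 0 * J 1 1)) • (1 : Matrix (Fin 2) (Fin 2) F) +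
        (a * d + b * c) • o2w J := by
  ext i j
  fin_cases i <;> fin_cases j <;> simp [o2w, Matrix.mul_apply, Fin.sum_univ_two] <;> ring

theorem o2w_gram (J : Matrix (Fin 2) (Fin 2) F) (hs : Jᵀ = J) :
    J * o2w J = J.det • (!![0, 1; -1, 0] : Matrix (Fin 2) (Fin 2) F) := by
  have h10 : J 1 0 = J 0 1 := by
    have := congrFun (congrFun hs 0) 1
    simpa using this
  ext i j
  fin_cases i <;> fin_cases j <;> simp [o2w, Matrix.mul_apply, Fin.sum_univ_two, Matrix.det_fin_two, h10] <;> ring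

theorem o2w_adj (J : Matrix (Fin 2) (Fin 2) F) (hs : Jᵀ = J) (a b : F) :
    (a • (1 : Matrix (Fin 2) (Fin 2) F) + b • o2w J)ᵀ * J = J * (a • (1 : Matrix (Fin 2) (Fin 2) F) + (-b) • o2w J) := by
  have h10 : J 1 0 = J 0 1 := by
    have := congrFun (congrFun hs 0) 1
    simpa using this
  ext i j
  fin_cases i <;> fin_cases j <;> simp [o2w, Matrix.mul_apply, Fin.sum_univ_two, h10] <;> ring

theorem o2_eps (B : Matrix (Fin 2) (Fin 2) F) :
    Bᵀ * (!![0, 1; -1, 0] : Matrix (Fin 2) (Fin 2) F) * B = B.det • (!![0, 1; -1, 0] : Matrix (Fin 2) (Fin 2) F) := by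
  ext i j
  fin_cases i <;> fin_cases j <;> simp [Matrix.mul_apply, Fin.sum_univ_two, Matrix.det_fin_two] <;> ring

/-- a similitude of `J` normalises `F[w]`. -/
theorem o2w_conj (J : Matrix (Fin 2) (Fin 2) F) (hs : Jᵀ = J) (hd : J.det ≠ 0) (B Bi : Matrix (Fin 2) (Fin 2) F)
    (hB : B * Bi = 1) (μ : F) (hμ : Bᵀ * J * B = μ • J) :
    B * o2w J * Bi = (μ / B.det) • o2w J := by
  have hBd : B.det ≠ 0 := by
    intro h
    have := congrArg Matrix.det hB
    rw [Matrix.det_mul, h, zero_mul, Matrix.det_one] at this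
    exact zero_ne_one this
  have hu : IsUnit (Bᵀ * J) := by
    rw [Matrix.isUnit_iff_isUnit_det, Matrix.det_mul, Matrix.det_transpose]
    exact (mul_ne_zero hBd hd).isUnit
  have key : μ • (o2w J * B) = B.det • (B * o2w J) := by
    apply hu.mul_left_cancel
    have h1 : Bᵀ * J * (μ • (o2w J * B)) = μ • (Bᵀ * (J * o2w J) * B) := by
      rw [Matrix.mul_smul]
      simp only [mul_assoc]
    have h2 : Bᵀ * J * (B.det • (B * o2w J)) = B.det • ((Bᵀ * J * B) * o2w J) := by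
      rw [Matrix.mul_smul]
      simp only [mul_assoc]
    rw [h1, h2, hμ, o2w_gram J hs, Matrix.mul_smul, Matrix.smul_mul, o2_eps, Matrix.smul_mul, o2w_gram J hs]
    simp only [smul_smul]
    congr 1
    ring
  have h3 : B * o2w J = (μ / B.det) • (o2w J * B) := by
    have : B.det • (B * o2w J) = B.det • ((μ / B.det) • (o2w J * B)) := by
      rw [← key, smul_smul]
      congr 1
      field_simp
    exact smul_right_injective _ hBd this
  rw [h3, Matrix.smul_mul, mul_assoc, hB, mul_one]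

theorem exists_alg_of_two [Nonempty ι] (h2 : (2 : F) ≠ 0) {s : ℕ}
    (f : (ι → F) → (ι → F) → F) (hf : IsSymplecticForm f) (e : ι ≃ Fin s × Fin 2) (P : GL ι F)
    (J₁ : Matrix (Fin s) (Fin s) F) (J₂ : Matrix (Fin 2) (Fin 2) F) (hJ : GramTensor f e P J₁ J₂)
    (hs : J₂ᵀ = J₂)
    (Γ : Subgroup (GL ι F)) (hΓ : Γ ≤ similarityGroup f) (hΓt : Γ ≤ tensorProductSubgroup s 2 e P) :
    ∃ E : Subalgebra F (Matrix ι ι F), IsComm E ∧ Γ ≤ subalgebraNormalizer E ∧ IsAdjointClosedFor f E ∧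
      ¬ IsScal E := by
  classical
  obtain ⟨hd1, hd2, -⟩ := tensor_sign f hf e P J₁ J₂ hJ
  set w := o2w J₂ with hw
  let T : Matrix (Fin 2) (Fin 2) F → Matrix ι ι F := fun y => tmat e P ((1 : Matrix (Fin s) (Fin s) F) ⊗ₖ y)
  have hTmul : ∀ y z, T y * T z = T (y * z) := by
    intro y z
    change tmat e P _ * tmat e P _ = tmat e P _
    rw [← tmat_mul, ← Matrix.mul_kronecker_mul, one_mul]
  have hTadd : ∀ y z, T y + T z = T (y + z) := by
    intro y z
    change tmat e P _ + tmat e P _ = tmat e P _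
    rw [← tmat_add, Matrix.kronecker_add]
  have hTsmul1 : ∀ c : F, T (c • 1) = c • 1 := by
    intro c
    change tmat e P _ = _
    rw [Matrix.kronecker_smul, Matrix.one_kronecker_one, tmat_smul, tmat_one]
  let E : Subalgebra F (Matrix ι ι F) :=
    { carrier := {M | ∃ a b : F, M = T (a • 1 + b • w)}
      mul_mem' := by
        rintro _ _ ⟨a, b, rfl⟩ ⟨c, d, rfl⟩
        exact ⟨_, _, by rw [hTmul, hw, o2w_mul]⟩
      add_mem' := by
        rintro _ _ ⟨a, b, rfl⟩ ⟨c, d, rfl⟩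
        refine ⟨a + c, b + d, ?_⟩
        rw [hTadd]
        congr 1
        rw [add_smul, add_smul]
        abel
      algebraMap_mem' := by
        intro r
        refine ⟨r, 0, ?_⟩
        rw [zero_smul, add_zero, hTsmul1, Algebra.algebraMap_eq_smul_one] }
  have hmemE : ∀ M, M ∈ E ↔ ∃ a b : F, M = T (a • 1 + b • w) := fun M => Iff.rfl
  have hfwd : ∀ g ∈ Γ, ∀ k ∈ E, (g : Matrix ι ι F) * k * ((g⁻¹ : GL ι F) : Matrix ι ι F) ∈ E := by
    rintro g hg _ ⟨α, β, rfl⟩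
    obtain ⟨a, b, hab⟩ := (mem_tensor_iff e P g).mp (hΓt hg)
    obtain ⟨μ, hμ⟩ := o2_sim f hf e P J₁ J₂ hJ g (hΓ hg) a b hab
    have hgi : ((g⁻¹ : GL ι F) : Matrix ι ι F) = tmat e P (((a⁻¹ : GL (Fin s) F) : Matrix (Fin s) (Fin s) F) ⊗ₖ
        ((b⁻¹ : GL (Fin 2) F) : Matrix (Fin 2) (Fin 2) F)) := by
      have h1 : (g : Matrix ι ι F) * tmat e P (((a⁻¹ : GL (Fin s) F) : Matrix (Fin s) (Fin s) F) ⊗ₖ
        ((b⁻¹ : GL (Fin 2) F) : Matrix (Fin 2) (Fin 2) F)) = 1 := by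
        rw [hab, ← tmat_mul, ← Matrix.mul_kronecker_mul, tmul_mul_inv, tmul_mul_inv, Matrix.one_kronecker_one,
          tmat_one]
      calc ((g⁻¹ : GL ι F) : Matrix ι ι F) = ((g⁻¹ : GL ι F) : Matrix ι ι F) * ((g : Matrix ι ι F) *
            tmat e P (((a⁻¹ : GL (Fin s) F) : Matrix (Fin s) (Fin s) F) ⊗ₖ
              ((b⁻¹ : GL (Fin 2) F) : Matrix (Fin 2) (Fin 2) F))) := by rw [h1, mul_one]
        _ = _ := by rw [← mul_assoc, tmul_inv_mul, one_mul]
    refine ⟨α, β * (μ / (b : Matrix (Fin 2) (Fin 2) F).det), ?_⟩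
    rw [hgi, hab]
    change tmat e P _ * tmat e P _ * tmat e P _ = tmat e P _
    rw [← tmat_mul, ← tmat_mul, ← Matrix.mul_kronecker_mul, ← Matrix.mul_kronecker_mul, mul_one, tmul_mul_inv]
    congr 2
    rw [mul_add, add_mul, Matrix.mul_smul, Matrix.smul_mul, mul_one, tmul_mul_inv, Matrix.mul_smul,
      Matrix.smul_mul, hw, o2w_conj J₂ hs hd2 _ _ (tmul_mul_inv b) μ hμ, smul_smul]
  refine ⟨E, ?_, ?_, ?_, ?_⟩
  · rintro _ ⟨a, b, rfl⟩ _ ⟨c, d, rfl⟩
    rw [hTmul, hTmul, hw, o2w_mul, o2w_mul]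
    congr 3 <;> ring
  · intro g hg k
    constructor
    · exact hfwd g hg k
    · intro hk
      have := hfwd g⁻¹ (Γ.inv_mem hg) _ hk
      rw [inv_inv] at this
      have h3 : ((g⁻¹ : GL ι F) : Matrix ι ι F) * ((g : Matrix ι ι F) * k * ((g⁻¹ : GL ι F) : Matrix ι ι F)) *
          (g : Matrix ι ι F) = k := by
        calc _ = (((g⁻¹ : GL ι F) : Matrix ι ι F) * (g : Matrix ι ι F)) * k *
            (((g⁻¹ : GL ι F) : Matrix ι ι F) * (g : Matrix ι ι F)) := by simp only [mul_assoc]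
          _ = k := by rw [tmul_inv_mul, one_mul, mul_one]
      rwa [h3] at this
  · rintro _ ⟨a, b, rfl⟩
    refine ⟨T (a • 1 + (-b) • w), ⟨a, -b, rfl⟩, ?_⟩
    intro u v
    obtain ⟨x, rfl⟩ := tform_surj e P u
    obtain ⟨z, rfl⟩ := tform_surj e P v
    change f (tmat e P _ *ᵥ _) _ = f _ (tmat e P _ *ᵥ _)
    rw [tmat_mulVec, tmat_mulVec, hJ, hJ, o2_form, o2_form, Matrix.mulVec_mulVec, ← Matrix.mul_kronecker_mul,
      mul_one, hw, ← o2w_adj J₂ hs, ← Matrix.vecMul_transpose, ← Matrix.dotProduct_mulVec, Matrix.mulVec_mulVec,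
      ← Matrix.kroneckerMap_transpose, ← Matrix.mul_kronecker_mul, Matrix.transpose_one, one_mul]
  · intro hsc
    obtain ⟨c, hc⟩ := hsc (T w) ⟨0, 1, by rw [zero_smul, zero_add, one_smul]⟩
    rw [← hTsmul1] at hc
    have h4 := tmat_injective e P hc
    obtain ⟨i0⟩ := ‹Nonempty ι›
    have h5 : ∀ p q, w p q = (c • (1 : Matrix (Fin 2) (Fin 2) F)) p q := by
      intro p q
      have := congrFun (congrFun h4 ((e i0).1, p)) ((e i0).1, q)
      simpa [Matrix.kroneckerMap_apply] using this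
    have h01 := h5 0 1
    have h10 := h5 1 0
    have h00 := h5 0 0
    have h11 := h5 1 1
    simp [hw, o2w] at h01 h10 h00 h11
    have hq : J₂ 0 1 = 0 := by
      have : (2 : F) * J₂ 0 1 = 0 := by linear_combination h00 - h11
      rcases mul_eq_zero.mp this with h | h
      · exact absurd h h2
      · exact h
    apply hd2
    rw [Matrix.det_fin_two, h10, hq]
    ring

end Cfsg.Agent.Lib.Helper80.AS
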