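import Cfsg.Agent.Lib.Helper80.AS.Defs12
import Cfsg.Agent.Lib.Helper80.AS.TSIGN
import Cfsg.Agent.Lib.Helper80.AS.TODD

/-! Ladder ASCHS12 (S5868), rung TSTR. -/

set_option autoImplicit false

namespace Cfsg.Agent.Lib.Helper80.AS

open Cfsg Cfsg.Geo
open Cfsg.Agent.Lib.Helper77.Asch (NormBy MinOver)
open scoped MatrixGroups Matrix Kronecker

variable {ι : Type} [Fintype ι] [DecidableEq ι] {F : Type*} [Field F]

/-- TSTR. -/
theorem tensor_struct [Nonempty ι] (h2 : (2 : F) ≠ 0) {s k : ℕ} (f : (ι → F) → (ι → F) → F)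
    (hf : IsSymplecticForm f) (e : ι ≃ Fin s × Fin k) (P : GL ι F) (J₁ : Matrix (Fin s) (Fin s) F)
    (J₂ : Matrix (Fin k) (Fin k) F) (hJ : GramTensor f e P J₁ J₂) (h1 : J₁ᵀ = -J₁) (h3 : J₂ᵀ = J₂) :
    ∃ (f₁ : (Fin s → F) → (Fin s → F) → F) (f₂ : (Fin k → F) → (Fin k → F) → F),
      IsSymplecticForm f₁ ∧ IsSymmetricForm f₂ ∧ IsTensorFormStructure id f f₁ f₂ e P := by
  obtain ⟨hd1, hd2, -⟩ := tensor_sign f hf e P J₁ J₂ hJ
  refine ⟨toddForm J₁, toddForm J₂, todd_symp h2 J₁ hd1 h1, todd_symm J₂ hd2 h3,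
    1, one_ne_zero, ?_⟩
  intro x y
  rw [todd_gram, todd_gram, one_mul]
  exact hJ x y

end Cfsg.Agent.Lib.Helper80.AS
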