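import Cfsg.Agent.Lib.Helper80.AS.Defs
import Cfsg.Agent.Lib.Helper77.Asch.AG2
import Cfsg.Agent.Lib.Helper77.Asch.AG5

/-! Ladder ASCHS (helper80), rung AG2S (helper56). -/

set_option autoImplicit false

namespace Cfsg.Agent.Lib.Helper80.AS

open Cfsg Cfsg.Geo
open Cfsg.Agent.Lib.Helper77.Asch
open scoped MatrixGroups Matrix Kronecker commutatorElement

/-- AG2S. -/
theorem simple_or_commuting {G : Type*} [Group G] [Finite G] (H Z N : Subgroup G)
    (hZc : ∀ z ∈ Z, ∀ g : G, g * z = z * g) (hm : MinOver H Z N) (hnab : ¬ ⁅N, N⁆ ≤ Z) :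
    (∀ M : Subgroup G, Z ≤ M → M ≤ N → NormBy N M → M = Z ∨ M = N) ∨
    ∃ (L : Subgroup G) (h : G), L ≤ N ∧ NormBy N L ∧ (∃ a ∈ L, ∃ b ∈ L, a * b ≠ b * a) ∧
      (∀ g ∈ N, ∃ a ∈ L, ∃ c : G, g = a * c ∧ ∀ x ∈ L, c * x = x * c) ∧
      (∀ x ∈ L, ∀ y ∈ L, (h * y * h⁻¹) * x = x * (h * y * h⁻¹)) := by
  classical
  by_cases hfirst : ∀ M : Subgroup G, Z ≤ M → M ≤ N → NormBy N M → M = Z ∨ M = N
  · exact Or.inl hfirst
  right
  push Not at hfirst
  obtain ⟨M₀, h1, h2, h3, h4, h5⟩ := hfirst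
  have hne : {K : Subgroup G | Z ≤ K ∧ K ≤ N ∧ NormBy N K ∧ K ≠ Z ∧ K ≠ N}.Nonempty :=
    ⟨M₀, h1, h2, h3, h4, h5⟩
  obtain ⟨M, ⟨hZM, hMN, hMn, hMZ, hMneN⟩, hmin⟩ := (Set.toFinite _).exists_minimal hne
  have hminimal : ∀ K : Subgroup G, Z ≤ K → K ≤ M → NormBy N K → K = Z ∨ K = M := by
    intro K hZK hKM hKn
    by_cases hKZ : K = Z
    · exact Or.inl hKZ
    · right
      have hKN : K ≠ N := by
        rintro rfl
        exact hMneN (le_antisymm hMN hKM)
      exact le_antisymm hKM (hmin ⟨hZK, hKM.trans hMN, hKn, hKZ, hKN⟩ hKM)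
  -- `M` is not solvable
  have hMns : ¬ Group.IsSolvable M := by
    intro hs
    exact hMZ (le_antisymm (ag2_alpha H Z N hZc hm hnab M hMN hMn hs) hZM)
  obtain ⟨L, hL⟩ : ∃ L : Subgroup G, L = ⁅M, M⁆ := ⟨_, rfl⟩
  have hLM : L ≤ M := by rw [hL]; exact ag5_commutator_le_self M
  have hLn : NormBy N L := by rw [hL]; exact ag5_normBy_commutator hMn hMn
  have hLZ : ¬ L ≤ Z := by
    intro h
    apply hMns
    apply ag2_solvable_of_comm_derived
    intro a ha b hb
    rw [← hL] at ha hb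
    exact hZc b (h hb) a
  have hLZM : L ⊔ Z = M := by
    rcases hminimal (L ⊔ Z) le_sup_right (sup_le hLM hZM)
      (ag5_normBy_sup hLn (ag5_normBy_central N Z hZc)) with h | h
    · exact absurd (h ▸ le_sup_left) hLZ
    · exact h
  have hperf : ⁅L, L⁆ = L := by
    apply le_antisymm (ag5_commutator_le_self L)
    calc L = ⁅M, M⁆ := hL
      _ = ⁅L ⊔ Z, L ⊔ Z⁆ := by rw [hLZM]
      _ ≤ ⁅L, L⁆ := ag5_commutator_sup L Z hZc
  have hLna : ∃ a ∈ L, ∃ b ∈ L, a * b ≠ b * a := by
    by_contra hcon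
    push Not at hcon
    apply hLZ
    rw [← hperf, Subgroup.commutator_le]
    intro a ha b hb
    rw [commutatorElement_def, hcon a ha b hb]
    simp
  -- conjugates
  have hconjZ : ∀ h : G, Z ≤ M.map (MulAut.conj h).toMonoidHom := by
    intro h z hz
    refine ⟨z, hZM hz, ?_⟩
    show h * z * h⁻¹ = z
    rw [hZc z hz h, mul_inv_cancel_right]
  have hdich : ∀ h ∈ H, M.map (MulAut.conj h).toMonoidHom = M ∨
      ∀ y ∈ M.map (MulAut.conj h).toMonoidHom, ∀ x ∈ L, y * x = x * y := by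
    intro h hh
    have hcn : NormBy N (M.map (MulAut.conj h).toMonoidHom) := ag2_conj_normBy hm.norm hMn hh
    have hcN : M.map (MulAut.conj h).toMonoidHom ≤ N := ag2_conj_le hm.norm hMN hh
    rcases hminimal (M ⊓ M.map (MulAut.conj h).toMonoidHom) (le_inf hZM (hconjZ h)) inf_le_left
      (ag5_normBy_inf hMn hcn) with h0 | h0
    · right
      intro y hy
      apply centralizes_of_perfect Z L hZc hperf y
      intro x hx
      rw [← h0]
      refine ⟨?_, ?_⟩
      · exact M.mul_mem (hMn y (hcN hy) x (hLM hx)) (M.inv_mem (hLM hx))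
      · have := hcn x (hMN (hLM hx)) y⁻¹ (inv_mem hy)
        have h6 := mul_mem hy this
        have e : y * (x * y⁻¹ * x⁻¹) = y * x * y⁻¹ * x⁻¹ := by group
        rwa [e] at h6
    · left
      have hle : M ≤ M.map (MulAut.conj h).toMonoidHom := inf_eq_left.1 h0
      symm
      apply Subgroup.eq_of_le_of_card_ge hle
      rw [Subgroup.card_map_of_injective (MulAut.conj h).injective]
  obtain ⟨S, hS⟩ : ∃ S : Subgroup G, S = ⨆ h : H, M.map (MulAut.conj (h : G)).toMonoidHom := ⟨_, rfl⟩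
  have hSn : NormBy H S := by
    rw [ag5_normBy_map]
    intro g hg
    rw [hS, Subgroup.map_iSup]
    apply iSup_le
    intro h
    rw [Subgroup.map_map]
    have e : (MulAut.conj g).toMonoidHom.comp (MulAut.conj (h : G)).toMonoidHom
        = (MulAut.conj (g * h)).toMonoidHom := by
      ext x
      simp [MulAut.conj_apply, mul_assoc]
    rw [e]
    exact le_iSup (fun k : H => M.map (MulAut.conj (k : G)).toMonoidHom) ⟨g * h, H.mul_mem hg h.2⟩
  have hMS : M ≤ S := by
    rw [hS]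
    refine le_trans ?_ (le_iSup (fun k : H => M.map (MulAut.conj (k : G)).toMonoidHom) 1)
    intro x hx
    exact ⟨x, hx, by simp⟩
  have hSN : S ≤ N := by
    rw [hS]
    apply iSup_le
    intro h
    exact ag2_conj_le hm.norm hMN h.2
  have hSeq : S = N := by
    rcases hm.min S (hZM.trans hMS) hSN hSn with h | h
    · exfalso
      apply hMZ
      exact le_antisymm (h ▸ hMS) hZM
    · exact h
  have hcentN : Subgroup.centralizer (L : Set G) ≤ Subgroup.normalizer (L : Set G) := by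
    intro c hc
    rw [Subgroup.mem_normalizer_iff]
    intro x
    rw [Subgroup.mem_centralizer_iff] at hc
    constructor
    · intro hx
      rw [← hc x hx, mul_inv_cancel_right]
      exact hx
    · intro hx
      have := hc _ hx
      have e : x = c * x * c⁻¹ := by
        calc x = c⁻¹ * (c * x * c⁻¹ * c) := by group
          _ = c⁻¹ * (c * (c * x * c⁻¹)) := by rw [this]
          _ = c * x * c⁻¹ := by group
      rw [e]
      exact hx
  have hST : S ≤ L ⊔ Subgroup.centralizer (L : Set G) := by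
    rw [hS]
    apply iSup_le
    intro h
    rcases hdich h h.2 with h0 | h0
    · rw [h0, ← hLZM]
      apply sup_le_sup_left
      intro z hz
      rw [Subgroup.mem_centralizer_iff]
      intro x _
      exact hZc z hz x
    · refine le_trans ?_ le_sup_right
      intro y hy
      rw [Subgroup.mem_centralizer_iff]
      intro x hx
      exact (h0 y hy x hx).symm
  have hex : ∃ h ∈ H, ∀ y ∈ M.map (MulAut.conj h).toMonoidHom, ∀ x ∈ L, y * x = x * y := by
    by_contra hcon
    push Not at hcon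
    have hall : NormBy H M := by
      rw [ag5_normBy_map]
      intro h hh
      rcases hdich h hh with h0 | h0
      · exact h0.le
      · obtain ⟨y, hy, x, hx, hne⟩ := hcon h hh
        exact absurd (h0 y hy x hx) hne
    rcases hm.min M hZM hMN hall with h | h
    · exact hMZ h
    · exact hMneN h
  obtain ⟨h, _, hh⟩ := hex
  refine ⟨L, h, hLM.trans hMN, hLn, hLna, ?_, ?_⟩
  · intro g hg
    have hgT : g ∈ L ⊔ Subgroup.centralizer (L : Set G) := hST (by rw [hSeq]; exact hg)
    obtain ⟨a, ha, c, hc, rfl⟩ := (ag2_mem_sup hcentN).1 hgT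
    refine ⟨a, ha, c, rfl, ?_⟩
    intro x hx
    rw [Subgroup.mem_centralizer_iff] at hc
    exact (hc x hx).symm
  · intro x hx y hy
    exact hh _ ⟨y, hLM hy, rfl⟩ x hx

end Cfsg.Agent.Lib.Helper80.AS
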