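import Cfsg.Agent.Lib.Helper80.AS.Defs12
import Cfsg.Agent.Lib.Helper80.AS.AG2S
import Cfsg.Agent.Lib.Helper77.Asch.AG2
import Cfsg.Agent.Lib.Helper77.Asch.AG5

/-! Ladder ASCHS12 (helper80), rung AG2T (helper56). -/

set_option autoImplicit false

namespace Cfsg.Agent.Lib.Helper80.AS

open Cfsg Cfsg.Geo
open Cfsg.Agent.Lib.Helper77.Asch
open scoped MatrixGroups Matrix Kronecker commutatorElement

theorem ag2t_prod_decomp {G : Type*} [Group G] (t : ℕ) (K : Fin t → Subgroup G)
    (hc : Pairwise fun i j : Fin t => ∀ x y : G, x ∈ K i → y ∈ K j → Commute x y) (g : G)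
    (hg : g ∈ ⨆ i, K i) : ∃ a : Fin t → G, (∀ i, a i ∈ K i) ∧ g = (List.ofFn a).prod := by
  classical
  rw [← Subgroup.noncommPiCoprod_range (hcomm := hc)] at hg
  obtain ⟨f, rfl⟩ := hg
  refine ⟨fun i => (f i : G), fun i => (f i).2, ?_⟩
  rw [List.ofFn_eq_map]
  have h1 := Finset.noncommProd_toFinset (List.finRange t) (fun i => (f i : G))
    (by
      intro i _ j _ hij
      exact hc hij _ _ (f i).2 (f j).2) (List.nodup_finRange t)
  rw [← h1]
  show Finset.univ.noncommProd (fun i => (f i : G))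
    (fun i _ j _ hij => hc hij _ _ (f i).2 (f j).2) = _
  apply Finset.noncommProd_congr
  · exact (List.toFinset_finRange t).symm
  · intro x _
    rfl

/-- AG2T. -/
theorem simple_or_family {G : Type*} [Group G] [Finite G] (H Z N : Subgroup G)
    (hZc : ∀ z ∈ Z, ∀ g : G, g * z = z * g) (hm : MinOver H Z N) (hnab : ¬ ⁅N, N⁆ ≤ Z) :
    (∀ M : Subgroup G, Z ≤ M → M ≤ N → NormBy N M → M = Z ∨ M = N) ∨
    ∃ (L : Subgroup G) (t : ℕ) (h : Fin t → G), 2 ≤ t ∧ L ≤ N ∧ NormBy N L ∧
      (∃ a ∈ L, ∃ b ∈ L, a * b ≠ b * a) ∧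
      (∀ g ∈ N, ∃ a ∈ L, ∃ c : G, g = a * c ∧ ∀ x ∈ L, c * x = x * c) ∧
      (∀ i j, i ≠ j → ∀ x ∈ L, ∀ y ∈ L,
        (h i * x * (h i)⁻¹) * (h j * y * (h j)⁻¹) = (h j * y * (h j)⁻¹) * (h i * x * (h i)⁻¹)) ∧
      (∀ g ∈ N, ∃ (z : G) (a : Fin t → G), z ∈ Z ∧ (∀ i, a i ∈ L) ∧
        g = z * (List.ofFn (fun i => h i * a i * (h i)⁻¹)).prod) := by
  classical
  by_cases hfirst : ∀ M : Subgroup G, Z ≤ M → M ≤ N → NormBy N M → M = Z ∨ M = N
  · exact Or.inl hfirst
  right
  push Not at hfirst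
  obtain ⟨M₀, h1, h2, h3, h4, h5⟩ := hfirst
  have hne : {K : Subgroup G | Z ≤ K ∧ K ≤ N ∧ NormBy N K ∧ K ≠ Z ∧ K ≠ N}.Nonempty :=
    ⟨M₀, h1, h2, h3, h4, h5⟩
  obtain ⟨M, ⟨hZM, hMN, hMn, hMZ, hMneN⟩, hmin⟩ := (Set.toFinite _).exists_minimal hne
  have hminimal : ∀ K : Subgroup G, Z ≤ K → K ≤ M → NormBy N K → K = Z ∨ K = M := by
    intro K hZK hKM hKn
    by_cases hKZ : K = Z
    · exact Or.inl hKZ
    · right
      have hKN : K ≠ N := by
        rintro rfl
        exact hMneN (le_antisymm hMN hKM)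
      exact le_antisymm hKM (hmin ⟨hZK, hKM.trans hMN, hKn, hKZ, hKN⟩ hKM)
  -- `M` is not solvable
  have hMns : ¬ Group.IsSolvable M := by
    intro hs
    exact hMZ (le_antisymm (ag2_alpha H Z N hZc hm hnab M hMN hMn hs) hZM)
  obtain ⟨L, hL⟩ : ∃ L : Subgroup G, L = ⁅M, M⁆ := ⟨_, rfl⟩
  have hLM : L ≤ M := by rw [hL]; exact ag5_commutator_le_self M
  have hLn : NormBy N L := by rw [hL]; exact ag5_normBy_commutator hMn hMn
  have hLZ : ¬ L ≤ Z := by
    intro h
    apply hMns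
    apply ag2_solvable_of_comm_derived
    intro a ha b hb
    rw [← hL] at ha hb
    exact hZc b (h hb) a
  have hLZM : L ⊔ Z = M := by
    rcases hminimal (L ⊔ Z) le_sup_right (sup_le hLM hZM)
      (ag5_normBy_sup hLn (ag5_normBy_central N Z hZc)) with h | h
    · exact absurd (h ▸ le_sup_left) hLZ
    · exact h
  have hperf : ⁅L, L⁆ = L := by
    apply le_antisymm (ag5_commutator_le_self L)
    calc L = ⁅M, M⁆ := hL
      _ = ⁅L ⊔ Z, L ⊔ Z⁆ := by rw [hLZM]
      _ ≤ ⁅L, L⁆ := ag5_commutator_sup L Z hZc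
  have hLna : ∃ a ∈ L, ∃ b ∈ L, a * b ≠ b * a := by
    by_contra hcon
    push Not at hcon
    apply hLZ
    rw [← hperf, Subgroup.commutator_le]
    intro a ha b hb
    rw [commutatorElement_def, hcon a ha b hb]
    simp
  -- conjugates
  have hconjZ : ∀ h : G, Z ≤ M.map (MulAut.conj h).toMonoidHom := by
    intro h z hz
    refine ⟨z, hZM hz, ?_⟩
    show h * z * h⁻¹ = z
    rw [hZc z hz h, mul_inv_cancel_right]
  have hdich : ∀ h ∈ H, M.map (MulAut.conj h).toMonoidHom = M ∨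
      ∀ y ∈ M.map (MulAut.conj h).toMonoidHom, ∀ x ∈ L, y * x = x * y := by
    intro h hh
    have hcn : NormBy N (M.map (MulAut.conj h).toMonoidHom) := ag2_conj_normBy hm.norm hMn hh
    have hcN : M.map (MulAut.conj h).toMonoidHom ≤ N := ag2_conj_le hm.norm hMN hh
    rcases hminimal (M ⊓ M.map (MulAut.conj h).toMonoidHom) (le_inf hZM (hconjZ h)) inf_le_left
      (ag5_normBy_inf hMn hcn) with h0 | h0
    · right
      intro y hy
      apply centralizes_of_perfect Z L hZc hperf y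
      intro x hx
      rw [← h0]
      refine ⟨?_, ?_⟩
      · exact M.mul_mem (hMn y (hcN hy) x (hLM hx)) (M.inv_mem (hLM hx))
      · have := hcn x (hMN (hLM hx)) y⁻¹ (inv_mem hy)
        have h6 := mul_mem hy this
        have e : y * (x * y⁻¹ * x⁻¹) = y * x * y⁻¹ * x⁻¹ := by group
        rwa [e] at h6
    · left
      have hle : M ≤ M.map (MulAut.conj h).toMonoidHom := inf_eq_left.1 h0
      symm
      apply Subgroup.eq_of_le_of_card_ge hle
      rw [Subgroup.card_map_of_injective (MulAut.conj h).injective]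
  obtain ⟨S, hS⟩ : ∃ S : Subgroup G, S = ⨆ h : H, M.map (MulAut.conj (h : G)).toMonoidHom := ⟨_, rfl⟩
  have hSn : NormBy H S := by
    rw [ag5_normBy_map]
    intro g hg
    rw [hS, Subgroup.map_iSup]
    apply iSup_le
    intro h
    rw [Subgroup.map_map]
    have e : (MulAut.conj g).toMonoidHom.comp (MulAut.conj (h : G)).toMonoidHom
        = (MulAut.conj (g * h)).toMonoidHom := by
      ext x
      simp [MulAut.conj_apply, mul_assoc]
    rw [e]
    exact le_iSup (fun k : H => M.map (MulAut.conj (k : G)).toMonoidHom) ⟨g * h, H.mul_mem hg h.2⟩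
  have hMS : M ≤ S := by
    rw [hS]
    refine le_trans ?_ (le_iSup (fun k : H => M.map (MulAut.conj (k : G)).toMonoidHom) 1)
    intro x hx
    exact ⟨x, hx, by simp⟩
  have hSN : S ≤ N := by
    rw [hS]
    apply iSup_le
    intro h
    exact ag2_conj_le hm.norm hMN h.2
  have hSeq : S = N := by
    rcases hm.min S (hZM.trans hMS) hSN hSn with h | h
    · exfalso
      apply hMZ
      exact le_antisymm (h ▸ hMS) hZM
    · exact h
  have hcentN : Subgroup.centralizer (L : Set G) ≤ Subgroup.normalizer (L : Set G) := by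
    intro c hc
    rw [Subgroup.mem_normalizer_iff]
    intro x
    rw [Subgroup.mem_centralizer_iff] at hc
    constructor
    · intro hx
      rw [← hc x hx, mul_inv_cancel_right]
      exact hx
    · intro hx
      have := hc _ hx
      have e : x = c * x * c⁻¹ := by
        calc x = c⁻¹ * (c * x * c⁻¹ * c) := by group
          _ = c⁻¹ * (c * (c * x * c⁻¹)) := by rw [this]
          _ = c * x * c⁻¹ := by group
      rw [e]
      exact hx
  have hST : S ≤ L ⊔ Subgroup.centralizer (L : Set G) := by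
    rw [hS]
    apply iSup_le
    intro h
    rcases hdich h h.2 with h0 | h0
    · rw [h0, ← hLZM]
      apply sup_le_sup_left
      intro z hz
      rw [Subgroup.mem_centralizer_iff]
      intro x _
      exact hZc z hz x
    · refine le_trans ?_ le_sup_right
      intro y hy
      rw [Subgroup.mem_centralizer_iff]
      intro x hx
      exact (h0 y hy x hx).symm
  have hex : ∃ h ∈ H, ∀ y ∈ M.map (MulAut.conj h).toMonoidHom, ∀ x ∈ L, y * x = x * y := by
    by_contra hcon
    push Not at hcon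
    have hall : NormBy H M := by
      rw [ag5_normBy_map]
      intro h hh
      rcases hdich h hh with h0 | h0
      · exact h0.le
      · obtain ⟨y, hy, x, hx, hne⟩ := hcon h hh
        exact absurd (h0 y hy x hx) hne
    rcases hm.min M hZM hMN hall with h | h
    · exact hMZ h
    · exact hMneN h
  obtain ⟨h₀, hh₀H, hh₀⟩ := hex
  have hMh₀ : M.map (MulAut.conj h₀).toMonoidHom ≠ M := by
    intro heq
    obtain ⟨a, ha, b, hb, hab⟩ := hLna
    exact hab (hh₀ a (by rw [heq]; exact hLM ha) b hb)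
  obtain ⟨t, ⟨e⟩⟩ := Finite.exists_equiv_fin
    (Set.range fun h : H => M.map (MulAut.conj (h : G)).toMonoidHom)
  have hch : ∀ i : Fin t, ∃ h : H,
      M.map (MulAut.conj (h : G)).toMonoidHom = (e.symm i : Subgroup G) := fun i => (e.symm i).2
  choose hh hhh using hch
  have hdist : ∀ i j : Fin t, i ≠ j → M.map (MulAut.conj (hh i : G)).toMonoidHom
      ≠ M.map (MulAut.conj (hh j : G)).toMonoidHom := by
    intro i j hij heq
    rw [hhh, hhh] at heq
    exact hij (e.symm.injective (Subtype.ext heq))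
  have hcover : ∀ h : H, ∃ i : Fin t, M.map (MulAut.conj (h : G)).toMonoidHom
      = M.map (MulAut.conj (hh i : G)).toMonoidHom := by
    intro h
    refine ⟨e ⟨_, ⟨h, rfl⟩⟩, ?_⟩
    rw [hhh, Equiv.symm_apply_apply]
  have ht : 2 ≤ t := by
    by_contra hlt
    have h1 : t ≤ 1 := by omega
    have hsub : Subsingleton (Fin t) := Fin.subsingleton_iff_le_one.2 h1
    obtain ⟨i, hi⟩ := hcover 1
    obtain ⟨j, hj⟩ := hcover ⟨h₀, hh₀H⟩
    have hij : i = j := hsub.elim i j
    rw [hij, ← hj] at hi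
    apply hMh₀
    rw [← hi]
    ext x
    simp
  have hcomm : ∀ i j, i ≠ j → ∀ x ∈ L, ∀ y ∈ L,
        ((hh i : G) * x * (hh i : G)⁻¹) * ((hh j : G) * y * (hh j : G)⁻¹)
          = ((hh j : G) * y * (hh j : G)⁻¹) * ((hh i : G) * x * (hh i : G)⁻¹) := by
    intro i j hij x hx y hy
    obtain ⟨k, hk⟩ : ∃ k : G, k = (hh i : G)⁻¹ * (hh j : G) := ⟨_, rfl⟩
    have hkH : k ∈ H := by rw [hk]; exact H.mul_mem (H.inv_mem (hh i).2) (hh j).2
    have hj : (hh j : G) = (hh i : G) * k := by rw [hk]; group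
    have hkM : M.map (MulAut.conj k).toMonoidHom ≠ M := by
      intro heq
      apply hdist i j hij
      rw [hj]
      have e2 : (MulAut.conj ((hh i : G) * k)).toMonoidHom
          = (MulAut.conj (hh i : G)).toMonoidHom.comp (MulAut.conj k).toMonoidHom := by
        ext x
        simp [MulAut.conj_apply, mul_assoc]
      rw [e2, ← Subgroup.map_map, heq]
    rcases hdich k hkH with h0 | h0
    · exact absurd h0 hkM
    · have h1 := h0 (k * y * k⁻¹) ⟨y, hLM hy, rfl⟩ x hx
      rw [hj]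
      calc (hh i : G) * x * (hh i : G)⁻¹ * ((hh i : G) * k * y * ((hh i : G) * k)⁻¹)
          = (hh i : G) * (x * (k * y * k⁻¹)) * (hh i : G)⁻¹ := by group
        _ = (hh i : G) * ((k * y * k⁻¹) * x) * (hh i : G)⁻¹ := by rw [h1]
        _ = _ := by group
  obtain ⟨W, hW⟩ : ∃ W : Subgroup G,
      W = ⨆ i : Fin t, L.map (MulAut.conj (hh i : G)).toMonoidHom := ⟨_, rfl⟩
  have hSW : S ≤ W ⊔ Z := by
    rw [hS]
    apply iSup_le
    intro h
    obtain ⟨i, hi⟩ := hcover h
    rw [hi, ← hLZM, Subgroup.map_sup]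
    apply sup_le_sup
    · rw [hW]
      exact le_iSup (fun i : Fin t => L.map (MulAut.conj (hh i : G)).toMonoidHom) i
    · rintro _ ⟨z, hz, rfl⟩
      show (hh i : G) * z * (hh i : G)⁻¹ ∈ Z
      rw [hZc z hz (hh i : G), mul_inv_cancel_right]
      exact hz
  have hZW : Z ≤ Subgroup.normalizer (W : Set G) := by
    intro z hz
    rw [Subgroup.mem_normalizer_iff]
    intro x
    rw [← hZc z hz x, mul_inv_cancel_right]
  refine ⟨L, t, fun i => (hh i : G), ht, hLM.trans hMN, hLn, hLna, ?_, hcomm, ?_⟩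
  · intro g hg
    have hgT : g ∈ L ⊔ Subgroup.centralizer (L : Set G) := hST (by rw [hSeq]; exact hg)
    obtain ⟨a, ha, c, hc, rfl⟩ := (ag2_mem_sup hcentN).1 hgT
    refine ⟨a, ha, c, rfl, ?_⟩
    intro x hx
    rw [Subgroup.mem_centralizer_iff] at hc
    exact (hc x hx).symm
  · intro g hg
    have hgT : g ∈ W ⊔ Z := hSW (by rw [hSeq]; exact hg)
    obtain ⟨w, hw, z, hz, rfl⟩ := (ag2_mem_sup hZW).1 hgT
    rw [hW] at hw
    obtain ⟨b, hb, hwb⟩ := ag2t_prod_decomp t
      (fun i : Fin t => L.map (MulAut.conj (hh i : G)).toMonoidHom) (by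
        intro i j hij x y hx hy
        obtain ⟨x', hx', rfl⟩ := hx
        obtain ⟨y', hy', rfl⟩ := hy
        exact hcomm i j hij x' hx' y' hy') w hw
    choose a ha hab using hb
    refine ⟨z, a, hz, ha, ?_⟩
    rw [hZc z hz w, hwb]
    congr 3
    funext i
    exact (hab i).symm

end Cfsg.Agent.Lib.Helper80.AS
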