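import Cfsg.Agent.Lib.Helper80.AS.Defs

/-! Ladder ASCHS12: Aschbacher's theorem for Sp_12(q) (definitions). -/

set_option autoImplicit false

namespace Cfsg.Agent.Lib.Helper80.AS

open Cfsg Cfsg.Geo
open scoped MatrixGroups Matrix Kronecker

variable {ι : Type} [Fintype ι] [DecidableEq ι] {F : Type*} [Field F]

/-- `H` lies in a member of one of the geometric classes of the symplectic group in dimension `12`. -/
def InGeo12 [Fintype F] (f : (ι → F) → (ι → F) → F) (H : Subgroup (GL ι F)) : Prop :=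
  (∃ W : Submodule F (ι → F), W ≠ ⊥ ∧ IsTotallySingularFor f W ∧ H ≤ subspaceStabilizer W) ∨
  (∃ W : Submodule F (ι → F), W ≠ ⊥ ∧ IsNondegenerateOn f W ∧ Module.finrank F W < 6 ∧
      H ≤ subspaceStabilizer W) ∨
  (3 ≤ Fintype.card F ∧ ∃ D : Fin 6 → Submodule F (ι → F), IsNondegenerateMDecomposition f 2 D ∧
      H ≤ decompositionStabilizer D) ∨
  (∃ D : Fin 3 → Submodule F (ι → F), IsNondegenerateMDecomposition f 4 D ∧
      H ≤ decompositionStabilizer D) ∨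
  (∃ D : Fin 2 → Submodule F (ι → F), IsNondegenerateMDecomposition f 6 D ∧
      H ≤ decompositionStabilizer D) ∨
  (Odd (Fintype.card F) ∧ ∃ D : Fin 2 → Submodule F (ι → F), IsMDecomposition 6 D ∧
      (∀ i, IsTotallySingularFor f (D i)) ∧ H ≤ decompositionStabilizer D) ∨
  (∃ K : Subalgebra F (Matrix ι ι F), IsFieldSubalgebra 2 K ∧ IsSelfAdjointFor f K ∧
      (∀ k ∈ K, ∀ v : ι → F, f (k *ᵥ v) v = 0) ∧ H ≤ subalgebraNormalizer K) ∨
  (∃ K : Subalgebra F (Matrix ι ι F), IsFieldSubalgebra 3 K ∧ IsSelfAdjointFor f K ∧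
      (∀ k ∈ K, ∀ v : ι → F, f (k *ᵥ v) v = 0) ∧ H ≤ subalgebraNormalizer K) ∨
  (Odd (Fintype.card F) ∧ ∃ K : Subalgebra F (Matrix ι ι F), IsFieldSubalgebra 2 K ∧
      IsAdjointClosedFor f K ∧ ¬ IsSelfAdjointFor f K ∧ H ≤ subalgebraNormalizer K) ∨
  (Odd (Fintype.card F) ∧
      ∃ (e : ι ≃ Fin 2 × Fin 6) (P : GL ι F) (f₁ : (Fin 2 → F) → (Fin 2 → F) → F)
        (f₂ : (Fin 6 → F) → (Fin 6 → F) → F), IsSymplecticForm f₁ ∧ IsSymmetricForm f₂ ∧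
        IsTensorFormStructure id f f₁ f₂ e P ∧ H ≤ tensorProductSubgroup 2 6 e P) ∨
  (Odd (Fintype.card F) ∧ 5 ≤ Fintype.card F ∧
      ∃ (e : ι ≃ Fin 4 × Fin 3) (P : GL ι F) (f₁ : (Fin 4 → F) → (Fin 4 → F) → F)
        (f₂ : (Fin 3 → F) → (Fin 3 → F) → F), IsSymplecticForm f₁ ∧ IsSymmetricForm f₂ ∧
        IsTensorFormStructure id f f₁ f₂ e P ∧ H ≤ tensorProductSubgroup 4 3 e P) ∨
  (∃ (F₀ : Subfield F) (r : ℕ) (P : GL ι F) (ζ : F), r.Prime ∧ Fintype.card F = Nat.card F₀ ^ r ∧ ζ ≠ 0 ∧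
      IsFormRationalStructure f F₀ ζ P ∧ H ≤ subfieldSubgroup F₀ P) ∨
  (¬ Odd (Fintype.card F) ∧ ∃ Q : (ι → F) → F, IsNondegenerateQuadraticForm Q ∧
      (∀ u v : ι → F, QuadraticMap.polar Q u v = f u v) ∧ H ≤ quadSimilarityGroup Q)

end Cfsg.Agent.Lib.Helper80.AS
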