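import Cfsg.Agent.Lib.Helper80.AS.PS0

set_option autoImplicit false

namespace Cfsg.Agent.Lib.Helper80.AS

open Cfsg Cfsg.Geo
open Cfsg.Agent.Lib.Helper95
open scoped MatrixGroups Matrix Kronecker

variable {F : Type*} [Field F]

/-- PS1. -/
theorem not_le_subspace (m : ℕ) (W : Submodule F (Fin m ⊕ Fin m → F)) (h0 : W ≠ ⊥) (h1 : W ≠ ⊤) :
    ¬ spGL m F ≤ subspaceStabilizer W := by
  intro hle
  obtain ⟨u, huW, hu0⟩ := Submodule.exists_mem_ne_zero_of_ne_bot h0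
  obtain ⟨v, hv⟩ : ∃ v, v ∉ W := by
    by_contra h
    push Not at h
    exact h1 (eq_top_iff.2 fun x _ => h x)
  have hv0 : v ≠ 0 := by
    rintro rfl
    exact hv W.zero_mem
  obtain ⟨g, hg, e⟩ := sp_transitive m u v hu0 hv0
  have h2 := (mem_subspaceStabilizer_iff W g).1 (hle hg) u
  rw [glEquiv_apply, e] at h2
  exact hv (h2.1 huW)

end Cfsg.Agent.Lib.Helper80.AS
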