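import Cfsg.Agent.Lib.Helper80.AS.PS0

set_option autoImplicit false

namespace Cfsg.Agent.Lib.Helper80.AS

open Cfsg Cfsg.Geo
open Cfsg.Agent.Lib.Helper95
open scoped MatrixGroups Matrix Kronecker

variable {F : Type*} [Field F]

/-- PS2. -/
theorem not_le_decomp (m : ℕ) {t d : ℕ} (D : Fin t → Submodule F (Fin m ⊕ Fin m → F))
    (hD : IsMDecomposition d D) : ¬ spGL m F ≤ decompositionStabilizer D := by
  intro hle
  have ht := hD.two_le
  set i0 : Fin t := ⟨0, by omega⟩ with hi0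
  set i1 : Fin t := ⟨1, by omega⟩ with hi1
  have h01 : i1 ≠ i0 := by
    intro h
    have := congrArg Fin.val h
    simp [hi0, hi1] at this
  have hne : ∀ i, D i ≠ ⊥ := by
    intro i h
    have h1 := hD.finrank_eq i
    rw [h, finrank_bot] at h1
    have := hD.pos
    omega
  obtain ⟨u0, hu0, hu0'⟩ := Submodule.exists_mem_ne_zero_of_ne_bot (hne i0)
  obtain ⟨u1, hu1, hu1'⟩ := Submodule.exists_mem_ne_zero_of_ne_bot (hne i1)
  have hdis := Submodule.disjoint_def.1 (hD.indep i0)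
  have hle' : ∀ j, j ≠ i0 → D j ≤ ⨆ (k) (_ : k ≠ i0), D k := fun j hj =>
    le_iSup₂ (f := fun k (_ : k ≠ i0) => D k) j hj
  have hsum : u0 + u1 ≠ 0 := by
    intro h
    apply hu0'
    apply hdis u0 hu0
    have : u0 = - u1 := eq_neg_of_add_eq_zero_left h
    rw [this]
    exact Submodule.neg_mem _ (hle' i1 h01 hu1)
  obtain ⟨g, hg, e⟩ := sp_transitive m u0 (u0 + u1) hu0' hsum
  obtain ⟨σ, hσ⟩ := hle hg
  have hw : u0 + u1 ∈ D (σ i0) := by
    rw [← hσ i0, ← e]
    exact ⟨u0, hu0, by simp [Matrix.toLin'_apply]⟩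
  by_cases hj : σ i0 = i0
  · rw [hj] at hw
    apply hu1'
    apply hdis u1 _ (hle' i1 h01 hu1)
    have : u1 = (u0 + u1) - u0 := by abel
    rw [this]
    exact Submodule.sub_mem _ hw hu0
  · apply hu0'
    apply hdis u0 hu0
    have : u0 = (u0 + u1) - u1 := by abel
    rw [this]
    exact Submodule.sub_mem _ (hle' _ hj hw) (hle' i1 h01 hu1)

end Cfsg.Agent.Lib.Helper80.AS
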