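import Cfsg.Agent.Lib.Helper80.AS.PSAux

set_option autoImplicit false

namespace Cfsg.Agent.Lib.Helper80.AS

open Cfsg Cfsg.Geo Module
open Cfsg.Agent.Lib.Helper95
open scoped MatrixGroups Matrix Kronecker

variable {F : Type*} [Field F]

/-- a subalgebra all of whose members have every vector as an eigenvector is `⊥`. -/
theorem ps3_nonscalar {ι : Type} [Fintype ι] [DecidableEq ι] [Nonempty ι] (r : ℕ) (hr : 1 < r)
    (K : Subalgebra F (Matrix ι ι F)) (hK : finrank F K = r) :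
    ∃ k ∈ K, ∃ v : ι → F, k *ᵥ v ∉ Submodule.span F {v} := by
  by_contra hcon
  push Not at hcon
  have hbot : K = ⊥ := by
    rw [eq_bot_iff]
    intro k hk
    have h1 : ∀ v, ¬ LinearIndependent F ![v, Matrix.toLin' k v] := by
      intro v hli
      obtain ⟨c, hc⟩ := Submodule.mem_span_singleton.1 (hcon k hk v)
      have h2 := LinearIndependent.pair_iff.1 hli c (-1) (by
        rw [Matrix.toLin'_apply, ← hc]; simp)
      have h3 : (-1 : F) = 0 := h2.2
      simp at h3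
    obtain ⟨a, ha⟩ := LinearMap.exists_eq_smul_id_of_forall_notLinearIndependent h1
    rw [Algebra.mem_bot]
    refine ⟨a, ?_⟩
    rw [Algebra.algebraMap_eq_smul_one]
    apply Matrix.toLin'.injective
    rw [ha, map_smul, Matrix.toLin'_one]
    rfl
  rw [hbot, Subalgebra.finrank_bot] at hK
  omega

/-- PS3. -/
theorem not_le_fieldNormalizer (m : ℕ) (hm : 2 ≤ m) (r : ℕ) (hr : 1 < r) (hrm : r ≤ m)
    (K : Subalgebra F (Matrix (Fin m ⊕ Fin m) (Fin m ⊕ Fin m) F)) (hK : IsFieldSubalgebra r K) :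
    ¬ spGL m F ≤ subalgebraNormalizer K := by
  intro hle
  haveI : Nonempty (Fin m ⊕ Fin m) := ⟨Sum.inl ⟨0, by omega⟩⟩
  obtain ⟨k, hk, v, hkv⟩ := ps3_nonscalar r hr K hK.finrank_eq
  set ev : Matrix (Fin m ⊕ Fin m) (Fin m ⊕ Fin m) F →ₗ[F] (Fin m ⊕ Fin m → F) :=
    (LinearMap.applyₗ v) ∘ₗ (Matrix.toLin' (R := F)).toLinearMap with hev
  have hev' : ∀ x, ev x = x *ᵥ v := by
    intro x
    simp [hev, Matrix.toLin'_apply]
  set S : Submodule F (Fin m ⊕ Fin m → F) := (Subalgebra.toSubmodule K).map ev with hS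
  have hSr : finrank F S ≤ r := by
    have h1 : finrank F S ≤ finrank F (Subalgebra.toSubmodule K) :=
      Submodule.finrank_map_le ev (Subalgebra.toSubmodule K)
    have h2 : finrank F (Subalgebra.toSubmodule K) = r := hK.finrank_eq
    omega
  have hmemS : ∀ x ∈ K, x *ᵥ v ∈ S := fun x hx => ⟨x, hx, hev' x⟩
  obtain ⟨x0, hx0, hx0S⟩ := psaux_perp_notMem m v S (by omega)
  obtain ⟨ψ, hψ0, hψS⟩ := Submodule.exists_dual_map_eq_bot_of_notMem hx0S inferInstance
  obtain ⟨x1, hx1, hx1w⟩ := psaux_perp_ne m v (k *ᵥ v) hkv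
  obtain ⟨u, huv, huw, huψ⟩ := exists_mem_ne_zero_both (LinearMap.ker (sympB m F v))
    (sympB m F (k *ᵥ v)) ψ ⟨x1, LinearMap.mem_ker.2 hx1, hx1w⟩ ⟨x0, LinearMap.mem_ker.2 hx0, hψ0⟩
  have huS : u ∉ S := by
    intro h
    apply huψ
    have : ψ u ∈ S.map ψ := ⟨u, h, rfl⟩
    rw [hψS] at this
    exact (Submodule.mem_bot F).1 this
  obtain ⟨t, ht, htx⟩ := ps0_stv m u (1 : F)
  have htv : (t : Matrix (Fin m ⊕ Fin m) (Fin m ⊕ Fin m) F) *ᵥ v = v := by
    rw [htx, ← sympB_apply, LinearMap.mem_ker.1 huv]; simp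
  have htv' : ((t⁻¹ : GL (Fin m ⊕ Fin m) F) : Matrix (Fin m ⊕ Fin m) (Fin m ⊕ Fin m) F) *ᵥ v = v := by
    conv_lhs => rw [← htv]
    rw [Matrix.mulVec_mulVec, ← Units.val_mul, inv_mul_cancel, Units.val_one, Matrix.one_mulVec]
  have h1 := (hle ht k).1 hk
  have h2 := hmemS _ h1
  rw [← Matrix.mulVec_mulVec, ← Matrix.mulVec_mulVec, htv', htx, ← sympB_apply, one_mul] at h2
  have h3 : (sympB m F (k *ᵥ v) u) • u ∈ S := by
    have := S.sub_mem h2 (hmemS k hk)
    simpa using this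
  exact huS ((S.smul_mem_iff huw).1 h3)

end Cfsg.Agent.Lib.Helper80.AS
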