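import Cfsg.Agent.Lib.Helper80.AS.PS0
import Cfsg.Agent.Lib.Helper80.AS.TMEM
import Cfsg.Agent.Lib.Helper80.AS.TMUL

set_option autoImplicit false

namespace Cfsg.Agent.Lib.Helper80.AS

open Cfsg Cfsg.Geo Module
open scoped MatrixGroups Matrix Kronecker

variable {F : Type*} [Field F]

theorem ps4_kron_mulVec {s k : ℕ} (A : Matrix (Fin s) (Fin s) F) (B : Matrix (Fin k) (Fin k) F)
    (a : Fin s → F) (b : Fin k → F) :
    (A ⊗ₖ B) *ᵥ (fun p : Fin s × Fin k => a p.1 * b p.2) =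
      fun p => (A *ᵥ a) p.1 * (B *ᵥ b) p.2 := by
  ext ⟨i, j⟩
  simp only [Matrix.mulVec, dotProduct, Matrix.kroneckerMap_apply, Fintype.sum_prod_type]
  rw [Finset.sum_mul_sum]
  refine Finset.sum_congr rfl fun i' _ => Finset.sum_congr rfl fun j' _ => by ring

theorem ps4_inj {ι : Type} [Fintype ι] [DecidableEq ι] (P : GL ι F) {y z : ι → F}
    (h : (P : Matrix ι ι F) *ᵥ y = (P : Matrix ι ι F) *ᵥ z) : y = z := by
  have h1 := congrArg (fun w => ((P⁻¹ : GL ι F) : Matrix ι ι F) *ᵥ w) h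
  simpa [Matrix.mulVec_mulVec, tmul_inv_mul] using h1

/-- PS4. -/
theorem not_le_tensor (m : ℕ) {s k : ℕ} (hs : 1 < s) (hk : 1 < k) (e : (Fin m ⊕ Fin m) ≃ Fin s × Fin k)
    (P : GL (Fin m ⊕ Fin m) F) : ¬ spGL m F ≤ tensorProductSubgroup s k e P := by
  intro hle
  obtain ⟨i0, i1, hi⟩ : ∃ i0 i1 : Fin s, i0 ≠ i1 :=
    ⟨⟨0, by omega⟩, ⟨1, hs⟩, by intro h; simpa using congrArg Fin.val h⟩
  obtain ⟨j0, j1, hj⟩ : ∃ j0 j1 : Fin k, j0 ≠ j1 :=
    ⟨⟨0, by omega⟩, ⟨1, hk⟩, by intro h; simpa using congrArg Fin.val h⟩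
  set x0 : Fin s × Fin k → F :=
    fun p => (Pi.single i0 1 : Fin s → F) p.1 * (Pi.single j0 1 : Fin k → F) p.2 with hx0
  set x1 : Fin s × Fin k → F :=
    fun p => (Pi.single i0 1 : Fin s → F) p.1 * (Pi.single j0 1 : Fin k → F) p.2 +
      (Pi.single i1 1 : Fin s → F) p.1 * (Pi.single j1 1 : Fin k → F) p.2 with hx1
  have hne : ∀ x : Fin s × Fin k → F, x (i0, j0) = 1 →
      (P : Matrix (Fin m ⊕ Fin m) (Fin m ⊕ Fin m) F) *ᵥ (x ∘ e) ≠ 0 := by
    intro x hx h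
    have h1 : x ∘ e = 0 := ps4_inj P (by rw [h, Matrix.mulVec_zero])
    have h2 := congrFun h1 (e.symm (i0, j0))
    simp [hx] at h2
  have hx00 : x0 (i0, j0) = 1 := by simp [hx0]
  have hx100 : x1 (i0, j0) = 1 := by simp [hx1, hi]
  have hx111 : x1 (i1, j1) = 1 := by simp [hx1, hi.symm]
  have hx101 : x1 (i0, j1) = 0 := by simp [hx1, hi, hj.symm]
  obtain ⟨g, hg, hgu⟩ := sp_transitive m _ _ (hne x0 hx00) (hne x1 hx100)
  obtain ⟨A, B, hAB⟩ := (mem_tensor_iff e P g).1 (hle hg)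
  rw [hAB, tmat_mulVec] at hgu
  have h1 := ps4_inj P hgu
  have h2 : ∀ p, (((A : Matrix (Fin s) (Fin s) F) ⊗ₖ (B : Matrix (Fin k) (Fin k) F)) *ᵥ x0) p
      = x1 p := by
    intro p
    have := congrFun h1 (e.symm p)
    simpa using this
  rw [hx0, ps4_kron_mulVec] at h2
  have e00 := h2 (i0, j0)
  have e11 := h2 (i1, j1)
  have e01 := h2 (i0, j1)
  rw [hx100] at e00
  rw [hx111] at e11
  rw [hx101] at e01
  simp only at e00 e11 e01
  rcases mul_eq_zero.1 e01 with h | h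
  · rw [h, zero_mul] at e00
    exact zero_ne_one e00
  · rw [h, mul_zero] at e11
    exact zero_ne_one e11

end Cfsg.Agent.Lib.Helper80.AS
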