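import Cfsg.Agent.Lib.Helper80.AS.PS0

set_option autoImplicit false

namespace Cfsg.Agent.Lib.Helper80.AS

open Cfsg Cfsg.Geo Module
open scoped MatrixGroups Matrix Kronecker

variable {F : Type*} [Field F]

/-- multiples of `F₀`-rational vectors. -/
def ps5X (ι : Type) (F₀ : Subfield F) : Set (ι → F) :=
  {x | ∃ (c : F) (u : ι → F), (∀ i, u i ∈ F₀) ∧ x = c • u}

/-- the subgroup of `GL` stabilising a set of vectors. -/
def ps5T {ι : Type} [Fintype ι] [DecidableEq ι] (X : Set (ι → F)) : Subgroup (GL ι F) where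
  carrier := {g | ∀ v, v ∈ X ↔ (g : Matrix ι ι F) *ᵥ v ∈ X}
  mul_mem' {a b} ha hb := by
    intro v
    rw [Units.val_mul, ← Matrix.mulVec_mulVec]
    exact (hb v).trans (ha _)
  one_mem' := by
    intro v
    simp
  inv_mem' {a} ha := by
    intro v
    have h := ha (((a⁻¹ : GL ι F) : Matrix ι ι F) *ᵥ v)
    rw [Matrix.mulVec_mulVec, ← Units.val_mul, mul_inv_cancel, Units.val_one, Matrix.one_mulVec] at h
    exact h.symm

theorem ps5_le {ι : Type} [Fintype ι] [DecidableEq ι] (X : Set (ι → F)) (R : Subgroup (GL ι F))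
    (h : ∀ g ∈ R, ∀ v ∈ X, (g : Matrix ι ι F) *ᵥ v ∈ X) : R ≤ ps5T X := by
  intro g hg v
  refine ⟨h g hg v, fun hv => ?_⟩
  have h1 := h g⁻¹ (R.inv_mem hg) _ hv
  rwa [Matrix.mulVec_mulVec, ← Units.val_mul, inv_mul_cancel, Units.val_one, Matrix.one_mulVec] at h1

theorem ps5_sup_le {ι : Type} [Fintype ι] [DecidableEq ι] (F₀ : Subfield F) :
    (Matrix.GeneralLinearGroup.map (n := ι) (F₀.subtype : F₀ →+* F)).range ⊔ scalars ι F ≤
      ps5T (ps5X ι F₀) := by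
  apply sup_le
  · apply ps5_le
    rintro _ ⟨g0, rfl⟩ _ ⟨c, u, hu, rfl⟩
    refine ⟨c, _, ?_, Matrix.mulVec_smul _ _ _⟩
    intro i
    simp only [Matrix.mulVec, dotProduct]
    apply sum_mem
    intro j _
    apply mul_mem _ (hu j)
    simp [Matrix.GeneralLinearGroup.map]
  · apply ps5_le
    intro g hg _ hx
    obtain ⟨c, u, hu, rfl⟩ := hx
    obtain ⟨d, hd⟩ := (mem_scalars_iff g).1 hg
    refine ⟨(d : F) * c, u, hu, ?_⟩
    rw [hd, Matrix.smul_mulVec, Matrix.one_mulVec, smul_smul]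

/-- PS5. -/
theorem not_le_subfield (m : ℕ) (hm : 1 ≤ m) (F₀ : Subfield F) (h : F₀ ≠ ⊤) (P : GL (Fin m ⊕ Fin m) F) :
    ¬ spGL m F ≤ subfieldSubgroup F₀ P := by
  intro hle
  obtain ⟨a, ha⟩ : ∃ a : F, a ∉ F₀ := by
    by_contra hc
    push Not at hc
    exact h (eq_top_iff.2 fun x _ => hc x)
  set i : Fin m ⊕ Fin m := Sum.inl ⟨0, by omega⟩ with hi
  set j : Fin m ⊕ Fin m := Sum.inr ⟨0, by omega⟩ with hj
  have hij : i ≠ j := by simp [hi, hj]
  set x0 : Fin m ⊕ Fin m → F := Pi.single i 1 with hx0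
  set x1 : Fin m ⊕ Fin m → F := Pi.single i 1 + Pi.single j a with hx1
  have hinj : ∀ {y z : Fin m ⊕ Fin m → F},
      (P : Matrix (Fin m ⊕ Fin m) (Fin m ⊕ Fin m) F) *ᵥ y =
        (P : Matrix (Fin m ⊕ Fin m) (Fin m ⊕ Fin m) F) *ᵥ z → y = z := by
    intro y z hyz
    have h1 := congrArg (fun w => ((P⁻¹ : GL (Fin m ⊕ Fin m) F) :
      Matrix (Fin m ⊕ Fin m) (Fin m ⊕ Fin m) F) *ᵥ w) hyz
    simp only [Matrix.mulVec_mulVec, ← Units.val_mul, inv_mul_cancel, Units.val_one,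
      Matrix.one_mulVec] at h1
    exact h1
  have hne : ∀ x : Fin m ⊕ Fin m → F, x i = 1 →
      (P : Matrix (Fin m ⊕ Fin m) (Fin m ⊕ Fin m) F) *ᵥ x ≠ 0 := by
    intro x hx h0
    have h1 : x = 0 := hinj (by rw [h0, Matrix.mulVec_zero])
    rw [h1] at hx
    simp at hx
  have hx0i : x0 i = 1 := by simp [hx0]
  have hx1i : x1 i = 1 := by simp [hx1, hij]
  have hx1j : x1 j = a := by simp [hx1, hij.symm]
  obtain ⟨g, hg, hgu⟩ := sp_transitive m _ _ (hne x0 hx0i) (hne x1 hx1i)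
  obtain ⟨g0, hg0, rfl⟩ := hle hg
  have hg0' := ps5_sup_le F₀ hg0
  have e1 : ((MulAut.conj P).toMonoidHom g0 : GL (Fin m ⊕ Fin m) F) = P * g0 * P⁻¹ := rfl
  have e0 : ((P⁻¹ : GL (Fin m ⊕ Fin m) F) : Matrix (Fin m ⊕ Fin m) (Fin m ⊕ Fin m) F) *
      (P : Matrix (Fin m ⊕ Fin m) (Fin m ⊕ Fin m) F) = 1 := by
    rw [← Units.val_mul, inv_mul_cancel, Units.val_one]
  rw [e1, Units.val_mul, Units.val_mul, Matrix.mulVec_mulVec, mul_assoc, e0, mul_one,
    ← Matrix.mulVec_mulVec] at hgu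
  have h2 := hinj hgu
  have hx0X : x0 ∈ ps5X (Fin m ⊕ Fin m) F₀ := by
    refine ⟨1, x0, ?_, (one_smul _ _).symm⟩
    intro l
    by_cases hl : l = i
    · rw [hl, hx0i]; exact one_mem _
    · simp [hx0, hl, zero_mem]
  have h3 := (hg0' x0).1 hx0X
  rw [h2] at h3
  obtain ⟨c, u, hu, hcu⟩ := h3
  have e2 : c * u i = 1 := by
    have := congrFun hcu i
    rw [hx1i] at this
    simpa using this.symm
  have e3 : c * u j = a := by
    have := congrFun hcu j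
    rw [hx1j] at this
    simpa using this.symm
  apply ha
  have hui : u i ≠ 0 := by
    intro h0
    rw [h0, mul_zero] at e2
    exact zero_ne_one e2
  have : a = u j * (u i)⁻¹ := by
    have hc : c = (u i)⁻¹ := eq_inv_of_mul_eq_one_left e2
    rw [← e3, hc]; ring
  rw [this]
  exact mul_mem (hu j) (inv_mem (hu i))

end Cfsg.Agent.Lib.Helper80.AS
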