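import Cfsg.Agent.Lib.Helper80.AS.PSAux

set_option autoImplicit false

namespace Cfsg.Agent.Lib.Helper80.AS

open Cfsg Cfsg.Geo Module
open Cfsg.Agent.Lib.Helper95
open scoped MatrixGroups Matrix Kronecker

variable {F : Type*} [Field F]

theorem ps6_span_rank (m : ℕ) (hm : 2 ≤ m) (u : Fin m ⊕ Fin m → F) :
    finrank F (Submodule.span F {u}) + 1 < 2 * m := by
  have := finrank_span_le_card (R := F) ({u} : Set (Fin m ⊕ Fin m → F))
  simp at this
  omega

/-- PS6. -/
theorem not_le_quadSim [Fintype F] (m : ℕ) (hm : 2 ≤ m) (h2 : ¬ Odd (Fintype.card F))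
    (Q : (Fin m ⊕ Fin m → F) → F) (hQ : IsNondegenerateQuadraticForm Q)
    (hpol : ∀ u v, QuadraticMap.polar Q u v = sympForm m F u v) :
    ¬ spGL m F ≤ quadSimilarityGroup Q := by
  intro hle
  have hadd : ∀ x y, Q (x + y) = Q x + Q y + sympB m F x y := by
    intro x y
    rw [sympB_apply, ← hpol, QuadraticMap.polar]; ring
  have key : ∀ u : Fin m ⊕ Fin m → F, u ≠ 0 → Q u = -1 := by
    intro u hu
    obtain ⟨t, ht, htx⟩ := ps0_stv m u (1 : F)
    obtain ⟨c, hc⟩ := hle ht
    have hform : ∀ x, Q x + (sympB m F x u) ^ 2 * (Q u + 1) = (c : F) * Q x := by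
      intro x
      rw [← hc x, htx, one_mul, ← sympB_apply, hadd, hQ.smul, map_smul, smul_eq_mul]
      ring
    -- a non-singular vector in u⊥
    obtain ⟨x, hx, hxu⟩ := psaux_perp_notMem m u (Submodule.span F {u}) (ps6_span_rank m hm u)
    obtain ⟨y, hy, hxy⟩ := psaux_perp_ne m u x hxu
    have hsw : ∀ z, sympB m F u z = 0 → sympB m F z u = 0 := by
      intro z hz
      rw [alt_swap (sympB_isAlt m), hz, neg_zero]
    have hex : ∃ z, sympB m F z u = 0 ∧ Q z ≠ 0 := by
      by_contra hcon
      push Not at hcon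
      have e1 := hcon x (hsw x hx)
      have e2 := hcon y (hsw y hy)
      have e3 := hcon (x + y) (by rw [map_add, LinearMap.add_apply, hsw x hx, hsw y hy, add_zero])
      rw [hadd, e1, e2] at e3
      apply hxy
      simpa using e3
    obtain ⟨z, hz, hQz⟩ := hex
    have hc1 : (c : F) = 1 := by
      have h := hform z
      rw [hz] at h
      have h' : (1 : F) * Q z = (c : F) * Q z := by rw [← h]; ring
      exact (mul_right_cancel₀ hQz h').symm
    obtain ⟨w, hw⟩ := psaux_exists_ne m u hu
    have hw' : sympB m F w u ≠ 0 := by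
      rw [alt_swap (sympB_isAlt m)]
      simpa using hw
    have h := hform w
    rw [hc1, one_mul] at h
    have h3 : (sympB m F w u) ^ 2 * (Q u + 1) = 0 := by
      have := h
      linear_combination this
    rcases mul_eq_zero.1 h3 with h4 | h4
    · exact absurd (pow_eq_zero_iff (two_ne_zero) |>.1 h4) hw'
    · exact eq_neg_of_add_eq_zero_left h4
  -- contradiction
  have hu : (Pi.single (Sum.inl ⟨0, by omega⟩) 1 : Fin m ⊕ Fin m → F) ≠ 0 := by
    intro h
    have := congrFun h (Sum.inl ⟨0, by omega⟩)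
    simp at this
  set u : Fin m ⊕ Fin m → F := Pi.single (Sum.inl ⟨0, by omega⟩) 1 with hudef
  obtain ⟨y, hy, hyu⟩ := psaux_perp_notMem m u (Submodule.span F {u}) (ps6_span_rank m hm u)
  have hy0 : y ≠ 0 := by
    rintro rfl
    exact hyu (Submodule.zero_mem _)
  have huy : u + y ≠ 0 := by
    intro h
    apply hyu
    have : y = (-1 : F) • u := by
      rw [neg_one_smul]; exact eq_neg_of_add_eq_zero_right h
    rw [this]
    exact Submodule.smul_mem _ _ (Submodule.mem_span_singleton_self u)
  have h := hadd u y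
  rw [key u hu, key y hy0, key _ huy, hy] at h
  have : (1 : F) = 0 := by linear_combination h
  exact one_ne_zero this

end Cfsg.Agent.Lib.Helper80.AS
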