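import Cfsg.Agent.Lib.Helper80.AS.Defs
import Cfsg.Agent.Lib.Helper66.ASP4.SYMP

set_option autoImplicit false

namespace Cfsg.Agent.Lib.Helper80.AS

open Cfsg Cfsg.Geo
open scoped MatrixGroups Matrix Kronecker

variable {F : Type*} [Field F]

/-- SF. -/
theorem sympForm_isSymplectic (m : ℕ) : IsSymplecticForm (sympForm m F) :=
  Cfsg.Agent.Lib.Helper66.ASP4.symp_isSymplectic m

/-- SF. -/
theorem spGL_le_sim (m : ℕ) : spGL m F ≤ similarityGroup (sympForm m F) := by
  intro g hg
  refine ⟨1, fun u v => ?_⟩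
  rw [Units.val_one, one_mul]
  exact hg u v

end Cfsg.Agent.Lib.Helper80.AS
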