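import Cfsg.Agent.Lib.Helper80.AS.Main
import Cfsg.Agent.Lib.Helper80.AS.SF
import Cfsg.Agent.Lib.Helper80.AS.PS1
import Cfsg.Agent.Lib.Helper80.AS.PS2
import Cfsg.Agent.Lib.Helper80.AS.PS3
import Cfsg.Agent.Lib.Helper80.AS.PS4
import Cfsg.Agent.Lib.Helper80.AS.PS5
import Cfsg.Agent.Lib.Helper80.AS.PS6

set_option autoImplicit false

namespace Cfsg.Agent.Lib.Helper80.AS

open Cfsg Cfsg.Geo
open scoped MatrixGroups Matrix Kronecker

variable {F : Type*} [Field F]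

theorem fn_eq_of_max {G : Type*} [Group G] {K H X : Subgroup G} (hH : IsMaximalIn K H) (hX : H ≤ X)
    (hK : ¬ K ≤ X) : H = X ⊓ K := by
  rcases hH.2 (X ⊓ K) (le_inf hX hH.1.le) inf_le_right with h | h
  · exact h.symm
  · exact absurd (h ▸ inf_le_left) hK

theorem fn_ne_top_of_ts (m : ℕ) (hm : 0 < m) (W : Submodule F (Fin m ⊕ Fin m → F))
    (hW : IsTotallySingularFor (sympForm m F) W) : W ≠ ⊤ := by
  rintro rfl
  have hf := sympForm_isSymplectic (F := F) m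
  let v : Fin m ⊕ Fin m → F := Pi.single (Sum.inl ⟨0, hm⟩) 1
  have hv : v ≠ 0 := by
    intro h
    have := congrFun h (Sum.inl ⟨0, hm⟩)
    simp [v] at this
  obtain ⟨⟨x, hx⟩, -⟩ := hf.nondegenerate v hv
  exact hx (hW x trivial v trivial)

theorem fn_ne_top_of_finrank (m : ℕ) (W : Submodule F (Fin m ⊕ Fin m → F))
    (hW : Module.finrank F W < m) : W ≠ ⊤ := by
  rintro rfl
  rw [finrank_top, Module.finrank_fintype_fun_eq_card] at hW
  simp at hW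

theorem fn_subfield_ne_top [Fintype F] (F₀ : Subfield F) (r : ℕ) (hr : r.Prime)
    (h : Fintype.card F = Nat.card F₀ ^ r) : F₀ ≠ ⊤ := by
  rintro rfl
  have h1 : Nat.card (⊤ : Subfield F) = Fintype.card F := by
    rw [← Nat.card_eq_fintype_card]
    exact Nat.card_congr (Subfield.topEquiv (K := F)).toEquiv
  rw [h1] at h
  have h2 : 1 < Fintype.card F := Fintype.one_lt_card
  have h3 : (Fintype.card F) ^ 1 = (Fintype.card F) ^ r := by rw [pow_one]; exact h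
  have := Nat.pow_right_injective h2 h3
  exact hr.one_lt.ne this

/-- the maximal subgroups of `Sp_{2m}(q)`, `m` an odd prime. -/
theorem final [Fintype F] (m : ℕ) (hm : m.Prime) (hm2 : m ≠ 2)
    (H : Subgroup (GL (Fin m ⊕ Fin m) F)) (hH : IsMaximalIn (spGL m F) H) :
    (∃ W : Submodule F (Fin m ⊕ Fin m → F), W ≠ ⊥ ∧ IsTotallySingularFor (sympForm m F) W ∧
      H = subspaceStabilizer W ⊓ spGL m F) ∨
    (∃ W : Submodule F (Fin m ⊕ Fin m → F), W ≠ ⊥ ∧ IsNondegenerateOn (sympForm m F) W ∧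
      Module.finrank F W < m ∧ H = subspaceStabilizer W ⊓ spGL m F) ∨
    (3 ≤ Fintype.card F ∧ ∃ D : Fin m → Submodule F (Fin m ⊕ Fin m → F),
      IsNondegenerateMDecomposition (sympForm m F) 2 D ∧ H = decompositionStabilizer D ⊓ spGL m F) ∨
    (Odd (Fintype.card F) ∧ ∃ D : Fin 2 → Submodule F (Fin m ⊕ Fin m → F), IsMDecomposition m D ∧
      (∀ i, IsTotallySingularFor (sympForm m F) (D i)) ∧ H = decompositionStabilizer D ⊓ spGL m F) ∨
    (∃ K : Subalgebra F (Matrix (Fin m ⊕ Fin m) (Fin m ⊕ Fin m) F), IsFieldSubalgebra m K ∧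
      IsSelfAdjointFor (sympForm m F) K ∧
      (∀ k ∈ K, ∀ v : (Fin m ⊕ Fin m → F), (sympForm m F) (Matrix.mulVec k v) v = 0) ∧
      H = subalgebraNormalizer K ⊓ spGL m F) ∨
    (Odd (Fintype.card F) ∧ ∃ K : Subalgebra F (Matrix (Fin m ⊕ Fin m) (Fin m ⊕ Fin m) F),
      IsFieldSubalgebra 2 K ∧ IsAdjointClosedFor (sympForm m F) K ∧
      ¬ IsSelfAdjointFor (sympForm m F) K ∧ H = subalgebraNormalizer K ⊓ spGL m F) ∨
    (Odd (Fintype.card F) ∧ (m = 3 → 5 ≤ Fintype.card F) ∧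
      ∃ (e : (Fin m ⊕ Fin m) ≃ Fin 2 × Fin m) (P : GL (Fin m ⊕ Fin m) F)
        (f₁ : (Fin 2 → F) → (Fin 2 → F) → F) (f₂ : (Fin m → F) → (Fin m → F) → F),
        IsSymplecticForm f₁ ∧ IsSymmetricForm f₂ ∧ IsTensorFormStructure id (sympForm m F) f₁ f₂ e P ∧
        H = tensorProductSubgroup 2 m e P ⊓ spGL m F) ∨
    (∃ (F₀ : Subfield F) (r : ℕ) (P : GL (Fin m ⊕ Fin m) F) (ζ : F), r.Prime ∧
      Fintype.card F = Nat.card F₀ ^ r ∧ ζ ≠ 0 ∧ IsFormRationalStructure (sympForm m F) F₀ ζ P ∧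
      H = subfieldSubgroup F₀ P ⊓ spGL m F) ∨
    (¬ Odd (Fintype.card F) ∧ ∃ Q : (Fin m ⊕ Fin m → F) → F, IsNondegenerateQuadraticForm Q ∧
      (∀ u v : (Fin m ⊕ Fin m → F), QuadraticMap.polar Q u v = (sympForm m F) u v) ∧
      H = quadSimilarityGroup Q ⊓ spGL m F) ∨
    InSymplecticResidualClass H := by
  have h2m : 2 ≤ m := hm.two_le
  have hcard : Fintype.card (Fin m ⊕ Fin m) = 2 * m := by simp; omega
  rcases main m hm hm2 hcard (sympForm m F) (sympForm_isSymplectic m) H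
    (hH.1.le.trans (spGL_le_sim m)) with h | h
  swap
  · exact Or.inr (Or.inr (Or.inr (Or.inr (Or.inr (Or.inr (Or.inr (Or.inr (Or.inr h))))))))
  rcases h with ⟨W, h0, h1, h2⟩ | ⟨W, h0, h1, h2, h3⟩ | ⟨hq, D, h1, h2⟩ | ⟨hq, D, h1, h2, h3⟩ |
    ⟨K, h1, h2, h3, h4⟩ | ⟨hq, K, h1, h2, h3, h4⟩ | ⟨hq, hq', e, P, f₁, f₂, h1, h2, h3, h4⟩ |
    ⟨F₀, r, P, ζ, h1, h2, h3, h4, h5⟩ | ⟨hq, Q, h1, h2, h3⟩
  · exact Or.inl ⟨W, h0, h1, fn_eq_of_max hH h2
      (not_le_subspace m W h0 (fn_ne_top_of_ts m (by omega) W h1))⟩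
  · exact Or.inr (Or.inl ⟨W, h0, h1, h2, fn_eq_of_max hH h3
      (not_le_subspace m W h0 (fn_ne_top_of_finrank m W h2))⟩)
  · exact Or.inr (Or.inr (Or.inl ⟨hq, D, h1, fn_eq_of_max hH h2 (not_le_decomp m D h1.decomp)⟩))
  · exact Or.inr (Or.inr (Or.inr (Or.inl ⟨hq, D, h1, h2, fn_eq_of_max hH h3 (not_le_decomp m D h1)⟩)))
  · exact Or.inr (Or.inr (Or.inr (Or.inr (Or.inl ⟨K, h1, h2, h3, fn_eq_of_max hH h4
      (not_le_fieldNormalizer m h2m m (by omega) le_rfl K h1)⟩))))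
  · exact Or.inr (Or.inr (Or.inr (Or.inr (Or.inr (Or.inl ⟨hq, K, h1, h2, h3, fn_eq_of_max hH h4
      (not_le_fieldNormalizer m h2m 2 (by omega) h2m K h1)⟩)))))
  · exact Or.inr (Or.inr (Or.inr (Or.inr (Or.inr (Or.inr (Or.inl ⟨hq, hq', e, P, f₁, f₂, h1, h2, h3,
      fn_eq_of_max hH h4 (not_le_tensor m (by omega) (by omega) e P)⟩))))))
  · exact Or.inr (Or.inr (Or.inr (Or.inr (Or.inr (Or.inr (Or.inr (Or.inl ⟨F₀, r, P, ζ, h1, h2, h3, h4,
      fn_eq_of_max hH h5 (not_le_subfield m (by omega) F₀ (fn_subfield_ne_top F₀ r h1 h2) P)⟩)))))))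
  · exact Or.inr (Or.inr (Or.inr (Or.inr (Or.inr (Or.inr (Or.inr (Or.inr (Or.inl ⟨hq, Q, h1, h2,
      fn_eq_of_max hH h3 (not_le_quadSim m h2m hq Q h1 h2)⟩))))))))

end Cfsg.Agent.Lib.Helper80.AS
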