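import Cfsg.Agent.Lib.Helper80.AS.Defs12

set_option autoImplicit false

namespace Cfsg.Agent.Lib.Helper80.AS

open Cfsg Cfsg.Geo
open Cfsg.Agent.Lib.Helper77.Asch (NormBy MinOver)
open scoped MatrixGroups Matrix Kronecker

variable {ι : Type} [Fintype ι] [DecidableEq ι] {F : Type*} [Field F]

/-- MONOX (13 easy cases). -/
theorem InGeo12.mono [Fintype F] {f : (ι → F) → (ι → F) → F} {H Γ : Subgroup (GL ι F)} (h : H ≤ Γ)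
    (hΓ : InGeo12 f Γ) : InGeo12 f H := by
  rcases hΓ with ⟨W, h0, h1, h2⟩ | ⟨W, h0, h1, h2, h3⟩ | ⟨h0, D, h1, h2⟩ | ⟨D, h1, h2⟩ | ⟨D, h1, h2⟩ |
    ⟨h0, D, h1, h2, h3⟩ | ⟨K, h0, h1, h2, h3⟩ | ⟨K, h0, h1, h2, h3⟩ | ⟨h0, K, h1, h2, h3, h4⟩ |
    ⟨h0, e, P, f₁, f₂, h2, h3, h4, h5⟩ | ⟨h0, h1, e, P, f₁, f₂, h2, h3, h4, h5⟩ |
    ⟨F₀, r, P, ζ, h0, h1, h2, h3, h4⟩ | ⟨h0, Q, h1, h2, h3⟩
  · exact Or.inl ⟨W, h0, h1, h.trans h2⟩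
  · exact Or.inr (Or.inl ⟨W, h0, h1, h2, h.trans h3⟩)
  · exact Or.inr (Or.inr (Or.inl ⟨h0, D, h1, h.trans h2⟩))
  · exact Or.inr (Or.inr (Or.inr (Or.inl ⟨D, h1, h.trans h2⟩)))
  · exact Or.inr (Or.inr (Or.inr (Or.inr (Or.inl ⟨D, h1, h.trans h2⟩))))
  · exact Or.inr (Or.inr (Or.inr (Or.inr (Or.inr (Or.inl ⟨h0, D, h1, h2, h.trans h3⟩)))))
  · exact Or.inr (Or.inr (Or.inr (Or.inr (Or.inr (Or.inr (Or.inl ⟨K, h0, h1, h2, h.trans h3⟩))))))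
  · exact Or.inr (Or.inr (Or.inr (Or.inr (Or.inr (Or.inr (Or.inr (Or.inl
      ⟨K, h0, h1, h2, h.trans h3⟩)))))))
  · exact Or.inr (Or.inr (Or.inr (Or.inr (Or.inr (Or.inr (Or.inr (Or.inr (Or.inl
      ⟨h0, K, h1, h2, h3, h.trans h4⟩))))))))
  · exact Or.inr (Or.inr (Or.inr (Or.inr (Or.inr (Or.inr (Or.inr (Or.inr (Or.inr (Or.inl
      ⟨h0, e, P, f₁, f₂, h2, h3, h4, h.trans h5⟩)))))))))
  · exact Or.inr (Or.inr (Or.inr (Or.inr (Or.inr (Or.inr (Or.inr (Or.inr (Or.inr (Or.inr (Or.inl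
      ⟨h0, h1, e, P, f₁, f₂, h2, h3, h4, h.trans h5⟩))))))))))
  · exact Or.inr (Or.inr (Or.inr (Or.inr (Or.inr (Or.inr (Or.inr (Or.inr (Or.inr (Or.inr (Or.inr (Or.inl
      ⟨F₀, r, P, ζ, h0, h1, h2, h3, h.trans h4⟩)))))))))))
  · exact Or.inr (Or.inr (Or.inr (Or.inr (Or.inr (Or.inr (Or.inr (Or.inr (Or.inr (Or.inr (Or.inr (Or.inr
      ⟨h0, Q, h1, h2, h3.trans' h⟩)))))))))))

end Cfsg.Agent.Lib.Helper80.AS
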