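import Cfsg.Agent.Lib.Helper80.AS.Defs12
import Cfsg.Agent.Lib.Helper80.AS.SAP
import Cfsg.Agent.Lib.Helper80.AS.CA1
import Cfsg.Agent.Lib.Helper80.AS.CA2
import Cfsg.Agent.Lib.Helper80.AS.CA3
import Cfsg.Agent.Lib.Helper80.AS.DSUM
import Cfsg.Agent.Lib.Helper80.AS.NDD
import Cfsg.Agent.Lib.Helper80.AS.Q2D
import Cfsg.Agent.Lib.Helper80.AS.EVENW

set_option autoImplicit false

namespace Cfsg.Agent.Lib.Helper80.AS

open Cfsg Cfsg.Geo
open Cfsg.Agent.Lib.Helper77.Asch (NormBy MinOver)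
open scoped MatrixGroups Matrix Kronecker

variable {ι : Type} [Fintype ι] [DecidableEq ι] {F : Type*} [Field F]

theorem t1ax_arith {t d : ℕ} (ht : 2 ≤ t) (hd : Even d) (h : t * d = 12) :
    (t = 6 ∧ d = 2) ∨ (t = 3 ∧ d = 4) ∨ (t = 2 ∧ d = 6) := by
  obtain ⟨k, rfl⟩ := hd
  have ht12 : t ≤ 12 := by
    rcases Nat.eq_zero_or_pos (k + k) with h0 | h0
    · rw [h0] at h; omega
    · nlinarith
  have hk12 : k ≤ 6 := by nlinarith
  interval_cases t <;> interval_cases k <;> simp_all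

/-- T1AX (assembly; T1A for dimension 12). -/
theorem comm_cases12_a [Fintype F] (hcard : Fintype.card ι = 12)
    (f : (ι → F) → (ι → F) → F) (hf : IsSymplecticForm f) (Γ : Subgroup (GL ι F))
    (hΓ : Γ ≤ similarityGroup f) (hirr : ActsIrreducibly (matrixSet Γ))
    (E : Subalgebra F (Matrix ι ι F)) (hc : IsComm E) (hn : Γ ≤ subalgebraNormalizer E) :
    InGeo12 f Γ ∨ ∀ x ∈ E, SelfAdj f x → x = 0 ∨ ∃ y : Matrix ι ι F, x * y = 1 := by
  obtain ⟨E₀, hE₀, hn₀⟩ := exists_selfAdj f hf.bilinear Γ hΓ E hc hn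
  have hc₀ : IsComm E₀ := fun x hx y hy => hc x ((hE₀ x).1 hx).1 y ((hE₀ y).1 hy).1
  rcases field_or_idempotent E₀ hc₀ (no_nilpotent Γ hirr E₀ hc₀ hn₀) with hfield | ⟨e, he, h1, h2, h3⟩
  · right
    intro x hx hsa
    by_cases h : x = 0
    · exact Or.inl h
    · obtain ⟨y, -, hy⟩ := hfield.inv x ((hE₀ x).2 ⟨hx, hsa⟩) h
      exact Or.inr ⟨y, hy⟩
  · left
    obtain ⟨t, d, D, hD, hst, hp⟩ := decomp_of_idempotent Γ hirr E₀ hc₀ hn₀ e he h1 h2 h3
    have hnd := nondeg_decomp f hf E₀ (fun x hx => ((hE₀ x).1 hx).2) D hD hp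
    have ht := hD.two_le
    have heven : Even d := by
      have := even_finrank_of_nondeg f hf (D ⟨0, by omega⟩) (hnd.nondegenerate ⟨0, by omega⟩)
      rwa [hD.finrank_eq] at this
    rcases t1ax_arith ht heven ((decomp_card D hD).trans hcard) with ⟨rfl, rfl⟩ | ⟨rfl, rfl⟩ | ⟨rfl, rfl⟩
    · by_cases hq : 3 ≤ Fintype.card F
      · exact Or.inr (Or.inr (Or.inl ⟨hq, D, hnd, hst⟩))
      · have hq2 : Fintype.card F = 2 := by
          have := Fintype.one_lt_card (α := F)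
          omega
        obtain ⟨Q, hQ1, hQ2, hQ3⟩ := quad_of_decomp_two hq2 f hf D hnd
        refine Or.inr (Or.inr (Or.inr (Or.inr (Or.inr (Or.inr (Or.inr (Or.inr (Or.inr (Or.inr
          (Or.inr (Or.inr ⟨?_, Q, hQ1, hQ2, (le_inf hst hΓ).trans hQ3⟩)))))))))))
        rw [hq2]; decide
    · exact Or.inr (Or.inr (Or.inr (Or.inl ⟨D, hnd, hst⟩)))
    · exact Or.inr (Or.inr (Or.inr (Or.inr (Or.inl ⟨D, hnd, hst⟩))))

end Cfsg.Agent.Lib.Helper80.AS
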