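import Cfsg.Agent.Lib.Helper80.AS.T1C
import Cfsg.Agent.Lib.Helper80.AS.Defs12

set_option autoImplicit false

namespace Cfsg.Agent.Lib.Helper80.AS

open Cfsg Cfsg.Geo
open Cfsg.Agent.Lib.Helper77.Asch (NormBy MinOver)
open scoped MatrixGroups Matrix Kronecker

variable {ι : Type} [Fintype ι] [DecidableEq ι] {F : Type*} [Field F]

/-- T1CX (assembly; compare T1C). -/
theorem comm_cases12_c [Fintype F] (hcard : Fintype.card ι = 12)
    (f : (ι → F) → (ι → F) → F) (hf : IsSymplecticForm f) (Γ : Subgroup (GL ι F))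
    (hΓ : Γ ≤ similarityGroup f)
    (E : Subalgebra F (Matrix ι ι F)) (hn : Γ ≤ subalgebraNormalizer E)
    (hadj : IsAdjointClosedFor f E) (e : ℕ) (hE : IsFieldSubalgebra e E) :
    InGeo12 f Γ ∨ IsScal E := by
  have : Nonempty ι := by
    rw [← Fintype.card_pos_iff, hcard]; omega
  have hdvd : e ∣ 12 := hcard ▸ deg_dvd e E hE
  have hepos : 0 < e := Nat.pos_of_dvd_of_pos hdvd (by omega)
  by_cases h3e : 3 ∣ e
  · left
    obtain ⟨K', hK', hmem⟩ := exists_subfield_alg E e 3 hE hepos h3e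
    have hadj' := subfield_alg_adj f hf E K' _ hmem hadj
    have hsa := selfAdj_of_odd f hf K' 3 hK' (by decide) hadj'
    exact Or.inr (Or.inr (Or.inr (Or.inr (Or.inr (Or.inr (Or.inr (Or.inl
      ⟨K', hK', hsa, alt_of_selfAdj f hf K' 3 hK' hsa,
        hn.trans (subfield_alg_norm E K' _ hmem)⟩)))))))
  · by_cases h1 : e = 1
    · right
      subst h1
      have hbot : E = ⊥ := Subalgebra.finrank_eq_one_iff.1 hE.finrank_eq
      intro x hx
      rw [hbot] at hx
      obtain ⟨c, rfl⟩ := Algebra.mem_bot.1 hx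
      exact ⟨c, Algebra.algebraMap_eq_smul_one c⟩
    · left
      have h2e : 2 ∣ e := by
        have hle : e ≤ 12 := Nat.le_of_dvd (by norm_num) hdvd
        interval_cases e <;> omega
      obtain ⟨K', hK', hmem⟩ := exists_subfield_alg E e 2 hE hepos h2e
      have hadj' := subfield_alg_adj f hf E K' _ hmem hadj
      have hn' := hn.trans (subfield_alg_norm E K' _ hmem)
      by_cases hsa : IsSelfAdjointFor f K'
      · exact Or.inr (Or.inr (Or.inr (Or.inr (Or.inr (Or.inr (Or.inl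
          ⟨K', hK', hsa, alt_of_selfAdj f hf K' 2 hK' hsa, hn'⟩))))))
      · by_cases hq : Odd (Fintype.card F)
        · exact Or.inr (Or.inr (Or.inr (Or.inr (Or.inr (Or.inr (Or.inr (Or.inr (Or.inl
            ⟨hq, K', hK', hadj', hsa, hn'⟩))))))))
        · obtain ⟨Q, hQ1, hQ2, hQ3⟩ := quad_of_unitary_field hq f hf K' hK' hadj' hsa
          exact Or.inr (Or.inr (Or.inr (Or.inr (Or.inr (Or.inr (Or.inr (Or.inr (Or.inr (Or.inr
            (Or.inr (Or.inr ⟨hq, Q, hQ1, hQ2, (le_inf hn' hΓ).trans hQ3⟩)))))))))))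

end Cfsg.Agent.Lib.Helper80.AS
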