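import Cfsg.Agent.Lib.Helper80.AS.Defs12

/-! Ladder ASCHS12 (S5868), rung SKEV: an invertible skew matrix has even size (char not 2). -/

set_option autoImplicit false

namespace Cfsg.Agent.Lib.Helper80.AS

open Cfsg Cfsg.Geo
open scoped MatrixGroups Matrix Kronecker

variable {F : Type*} [Field F]

theorem even_of_skew (h2 : (2 : F) ≠ 0) {s : ℕ} (J : Matrix (Fin s) (Fin s) F) (h : Jᵀ = -J)
    (hd : J.det ≠ 0) : Even s := by
  by_contra hodd
  rw [Nat.not_even_iff_odd] at hodd
  have h1 : J.det = (-1) ^ s * J.det := by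
    conv_lhs => rw [← Matrix.det_transpose, h, Matrix.det_neg, Fintype.card_fin]
  rw [hodd.neg_one_pow] at h1
  have h3 : (2 : F) * J.det = 0 := by linear_combination h1
  rcases mul_eq_zero.mp h3 with h4 | h4
  · exact h2 h4
  · exact hd h4

end Cfsg.Agent.Lib.Helper80.AS
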