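import Cfsg.Agent.Lib.Helper80.AS.Defs12
import Cfsg.Agent.Lib.Helper80.AS.PAR
import Cfsg.Agent.Lib.Helper80.AS.TSIGN
import Cfsg.Agent.Lib.Helper80.AS.SWAP
import Cfsg.Agent.Lib.Helper80.AS.SKEV
import Cfsg.Agent.Lib.Helper80.AS.TNA
import Cfsg.Agent.Lib.Helper80.AS.TQ2
import Cfsg.Agent.Lib.Helper80.AS.O2ALG
import Cfsg.Agent.Lib.Helper80.AS.TSTR
import Cfsg.Agent.Lib.Helper80.AS.T33G

/-! Ladder ASCHS12, rung TFINX (helper98). -/

set_option autoImplicit false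

namespace Cfsg.Agent.Lib.Helper80.AS

open Cfsg Cfsg.Geo
open Cfsg.Agent.Lib.Helper77.Asch (NormBy MinOver)
open scoped MatrixGroups Matrix Kronecker

variable {ι : Type} [Fintype ι] [DecidableEq ι] {F : Type*} [Field F]

/-- the oriented odd case of TFINX: `J₁` skew, `J₂` symmetric. -/
theorem tfinx_odd [Fintype F] [Nonempty ι] (h2 : (2 : F) ≠ 0) (f : (ι → F) → (ι → F) → F)
    (hf : IsSymplecticForm f) (Γ : Subgroup (GL ι F)) (hΓ : Γ ≤ similarityGroup f)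
    (hT1 : ∀ E : Subalgebra F (Matrix ι ι F), IsComm E → Γ ≤ subalgebraNormalizer E →
      IsAdjointClosedFor f E → InGeo12 f Γ ∨ IsScal E)
    {s k : ℕ} (hs : 1 < s) (hk : 1 < k) (hsk : s * k = 12) (e : ι ≃ Fin s × Fin k) (P : GL ι F)
    (J₁ : Matrix (Fin s) (Fin s) F) (J₂ : Matrix (Fin k) (Fin k) F) (hJ : GramTensor f e P J₁ J₂)
    (hΓt : Γ ≤ tensorProductSubgroup s k e P) (h1 : J₁ᵀ = -J₁) (h3 : J₂ᵀ = J₂) : InGeo12 f Γ := by
  have hq : Odd (Fintype.card F) := odd_card_iff.mpr h2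
  obtain ⟨hd1, hd2, _⟩ := tensor_sign f hf e P J₁ J₂ hJ
  have hev : Even s := even_of_skew h2 J₁ h1 hd1
  have hcases : (s = 2 ∧ k = 6) ∨ (s = 4 ∧ k = 3) ∨ (s = 6 ∧ k = 2) := by
    have hs12 : s ≤ 12 := Nat.le_of_dvd (by norm_num) ⟨k, hsk.symm⟩
    obtain ⟨r, hr⟩ := hev
    interval_cases s <;> omega
  rcases hcases with ⟨rfl, rfl⟩ | ⟨rfl, rfl⟩ | ⟨rfl, rfl⟩
  · obtain ⟨f₁, f₂, hf₁, hf₂, hstr⟩ := tensor_struct h2 f hf e P J₁ J₂ hJ h1 h3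
    exact Or.inr (Or.inr (Or.inr (Or.inr (Or.inr (Or.inr (Or.inr (Or.inr (Or.inr
      (Or.inl ⟨hq, e, P, f₁, f₂, hf₁, hf₂, hstr, hΓt⟩)))))))))
  · by_cases hq3 : Fintype.card F = 3
    · obtain ⟨D, hD, hle⟩ := tensor_three_gen hq3 f hf e P J₁ J₂ hJ h1 h3 Γ hΓ hΓt
      exact Or.inr (Or.inr (Or.inr (Or.inl ⟨D, hD, hle⟩)))
    · obtain ⟨f₁, f₂, hf₁, hf₂, hstr⟩ := tensor_struct h2 f hf e P J₁ J₂ hJ h1 h3
      have h5 : 5 ≤ Fintype.card F := by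
        have h1 : 1 < Fintype.card F := Fintype.one_lt_card
        obtain ⟨r, hr⟩ := hq
        omega
      exact Or.inr (Or.inr (Or.inr (Or.inr (Or.inr (Or.inr (Or.inr (Or.inr (Or.inr (Or.inr
        (Or.inl ⟨hq, h5, e, P, f₁, f₂, hf₁, hf₂, hstr, hΓt⟩))))))))))
  · obtain ⟨E, hc, hn, hadj, hns⟩ := exists_alg_of_two h2 f hf e P J₁ J₂ hJ h3 Γ hΓ hΓt
    exact (hT1 E hc hn hadj).resolve_right hns

/-- TFINX (assembly).  `tensor_sign`.  `q` even: a non-zero diagonal entry of `J₂` (or of `J₁`, after `tensor_swap`, `gram_swap`) contradicts `hirr` by `tensor_nonalt`; else `quad_of_tensor_alt`, last alternative.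
`q` odd: after a swap `J₁ᵀ = -J₁`, `J₂ᵀ = J₂`; `s` even (`even_of_skew`), `s k = 12`, `1 < s`, `1 < k`: `(s,k) = (2,6)`: `tensor_struct`, tenth alternative; `(4,3)`: `q = 3` `tensor_three_gen` fourth alternative, else eleventh;
`(6,2)`: `exists_alg_of_two` and `hT1` give `InGeo12` (the algebra is not scalar). -/
theorem tensor_final12 [Fintype F] [Nonempty ι] (hcard : Fintype.card ι = 12) (f : (ι → F) → (ι → F) → F)
    (hf : IsSymplecticForm f) (Γ : Subgroup (GL ι F)) (hΓ : Γ ≤ similarityGroup f)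
    (hirr : ActsIrreducibly (matrixSet Γ))
    (hT1 : ∀ E : Subalgebra F (Matrix ι ι F), IsComm E → Γ ≤ subalgebraNormalizer E →
      IsAdjointClosedFor f E → InGeo12 f Γ ∨ IsScal E)
    {s k : ℕ} (hs : 1 < s) (hk : 1 < k) (e : ι ≃ Fin s × Fin k) (P : GL ι F)
    (J₁ : Matrix (Fin s) (Fin s) F) (J₂ : Matrix (Fin k) (Fin k) F) (hJ : GramTensor f e P J₁ J₂)
    (hΓt : Γ ≤ tensorProductSubgroup s k e P) : InGeo12 f Γ := by
  have hsk : s * k = 12 := by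
    have h := Fintype.card_congr e
    rw [hcard, Fintype.card_prod, Fintype.card_fin, Fintype.card_fin] at h
    exact h.symm
  have hΓt' : Γ ≤ tensorProductSubgroup k s (e.trans (Equiv.prodComm _ _)) P := by
    rw [← tensor_swap e P]; exact hΓt
  have hJ' := gram_swap f e P J₁ J₂ hJ
  by_cases h2 : (2 : F) = 0
  · have hq : ¬ Odd (Fintype.card F) := fun h => (odd_card_iff.mp h) h2
    by_cases hd2 : ∃ i, J₂ i i ≠ 0
    · exact absurd hirr (tensor_nonalt h2 hk f hf e P J₁ J₂ hJ hd2 Γ hΓ hΓt)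
    by_cases hd1 : ∃ i, J₁ i i ≠ 0
    · exact absurd hirr (tensor_nonalt h2 hs f hf (e.trans (Equiv.prodComm _ _)) P J₂ J₁ hJ' hd1 Γ hΓ hΓt')
    push Not at hd1 hd2
    obtain ⟨Q, hQ1, hQ2, hQ3⟩ := quad_of_tensor_alt hq f hf e P J₁ J₂ hJ hd1 hd2
    exact Or.inr (Or.inr (Or.inr (Or.inr (Or.inr (Or.inr (Or.inr (Or.inr (Or.inr (Or.inr
      (Or.inr (Or.inr ⟨hq, Q, hQ1, hQ2, (le_inf hΓt hΓ).trans hQ3⟩)))))))))))
  · obtain ⟨_, _, ⟨h1, h3⟩ | ⟨h1, h3⟩⟩ := tensor_sign f hf e P J₁ J₂ hJ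
    · exact tfinx_odd h2 f hf Γ hΓ hT1 hk hs (by rw [mul_comm]; exact hsk)
        (e.trans (Equiv.prodComm _ _)) P J₂ J₁ hJ' hΓt' h3 h1
    · exact tfinx_odd h2 f hf Γ hΓ hT1 hs hk hsk e P J₁ J₂ hJ hΓt h1 h3

end Cfsg.Agent.Lib.Helper80.AS
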