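import Cfsg.Agent.Lib.Helper80.AS.Defs12
import Cfsg.Agent.Lib.Helper80.AS.ENVN
import Cfsg.Agent.Lib.Helper80.AS.ENVA
import Cfsg.Agent.Lib.Helper80.AS.ENVS
import Cfsg.Agent.Lib.Helper80.AS.TENS
import Cfsg.Agent.Lib.Helper80.AS.S1K1
import Cfsg.Agent.Lib.Helper80.AS.TNORM
import Cfsg.Agent.Lib.Helper80.AS.TFORM
import Cfsg.Agent.Lib.Helper80.AS.TFINX

/-! Ladder ASCHS12, rung T2X. -/

set_option autoImplicit false

namespace Cfsg.Agent.Lib.Helper80.AS

open Cfsg Cfsg.Geo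
open Cfsg.Agent.Lib.Helper77.Asch (NormBy MinOver)
open scoped MatrixGroups Matrix Kronecker

variable {ι : Type} [Fintype ι] [DecidableEq ι] {F : Type*} [Field F]

/-- T2X (assembly; copy T2). -/
theorem tensor_cases12 [Fintype F] (hcard : Fintype.card ι = 12)
    (f : (ι → F) → (ι → F) → F) (hf : IsSymplecticForm f) (Γ : Subgroup (GL ι F))
    (hΓ : Γ ≤ similarityGroup f) (hirr : ActsIrreducibly (matrixSet Γ))
    (hT1 : ∀ E : Subalgebra F (Matrix ι ι F), IsComm E → Γ ≤ subalgebraNormalizer E →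
      IsAdjointClosedFor f E → InGeo12 f Γ ∨ IsScal E)
    (N : Subgroup (GL ι F))
    (hN : N ≤ Γ) (hnorm : NormBy Γ N) (hcen : IsScal (cen (env N))) :
    InGeo12 f Γ ∨ N ≤ scalars ι F ∨ ActsAbsolutelyIrreducibly (matrixSet N) := by
  have hne : Nonempty ι := by
    apply Fintype.card_pos_iff.mp
    rw [hcard]
    norm_num
  have hn := env_norm Γ N hnorm
  obtain ⟨s, k, e, P, hB⟩ := exists_leftFactor Γ hirr (env N) hn hcen
  have hsk : s * k = 12 := by
    rw [← hcard, Fintype.card_congr e, Fintype.card_prod, Fintype.card_fin, Fintype.card_fin]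
  have hadj := env_adj f hf.bilinear N (hN.trans hΓ)
  have hΓt : Γ ≤ tensorProductSubgroup s k e P := hn.trans (norm_le_tensor (env N) e P hB)
  obtain ⟨J₁, J₂, hJ⟩ := tensor_gram f hf (env N) e P hB hadj
  have hs0 : s ≠ 0 := by rintro rfl; simp at hsk
  have hk0 : k ≠ 0 := by rintro rfl; simp at hsk
  by_cases hs1 : s = 1
  · subst hs1
    exact Or.inr (Or.inl (le_scalars_of_env N (scal_of_leftFactor_one (env N) e P hB)))
  by_cases hk1 : k = 1
  · subst hk1
    exact Or.inr (Or.inr (absIrr_of_env_top N (top_of_leftFactor_one (env N) e P hB)))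
  exact Or.inl (tensor_final12 hcard f hf Γ hΓ hirr hT1 (by omega) (by omega) e P J₁ J₂ hJ hΓt)

end Cfsg.Agent.Lib.Helper80.AS
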