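import Cfsg.Agent.Lib.Helper80.AS.Defs12
import Cfsg.Agent.Lib.Helper80.AS.CL2A
import Cfsg.Agent.Lib.Helper80.AS.CL2B

/-! Ladder ASCHS12 (helper80), rung T3X (helper56). -/

set_option autoImplicit false

namespace Cfsg.Agent.Lib.Helper80.AS

open Cfsg Cfsg.Geo
open Cfsg.Agent.Lib.Helper77.Asch (NormBy MinOver)
open scoped MatrixGroups Matrix Kronecker

variable {ι : Type} [Fintype ι] [DecidableEq ι] {F : Type*} [Field F]

/-- T3X (assembly). -/
theorem not_class_two12 [Fintype F] (hcard : Fintype.card ι = 12)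
    (Γ N : Subgroup (GL ι F)) (hmin : MinOver Γ (scalars ι F) N)
    (habs : ActsAbsolutelyIrreducibly (matrixSet N)) (hab : ⁅N, N⁆ ≤ scalars ι F) : False := by
  have hne : Nonempty ι := Fintype.card_pos_iff.mp (by rw [hcard]; omega)
  have h1 := card_quot_eq_sq N hmin.lt.le habs hab
  obtain ⟨r, j, hr, h2⟩ := card_quot_prime_pow Γ (scalars ι F) N hmin hab
  rw [h1, hcard] at h2
  have h3 : 2 ∣ r ^ j := by
    rw [← h2]
    norm_num
  have h4 : 3 ∣ r ^ j := by
    rw [← h2]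
    norm_num
  have h5 : 2 = r := (Nat.prime_dvd_prime_iff_eq Nat.prime_two hr).1 (Nat.prime_two.dvd_of_dvd_pow h3)
  have h6 : 3 = r := (Nat.prime_dvd_prime_iff_eq Nat.prime_three hr).1 (Nat.prime_three.dvd_of_dvd_pow h4)
  omega

end Cfsg.Agent.Lib.Helper80.AS
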