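import Cfsg.Agent.Lib.Helper80.AS.TMUL

/-! Ladder ASCHS, rung TCOMM: the commutant of the left factor `M_s(F) ⊗ 1` is `1 ⊗ M_k(F)`. -/

set_option autoImplicit false

namespace Cfsg.Agent.Lib.Helper80.AS

open Cfsg Cfsg.Geo
open scoped MatrixGroups Matrix Kronecker

variable {ι : Type} [Fintype ι] [DecidableEq ι] {F : Type*} [Field F]

theorem tcomm_left {s k : ℕ} (C : Matrix (Fin s × Fin k) (Fin s × Fin k) F) (p q i j : Fin s) (a b : Fin k) :
    (C * ((Matrix.single p q (1 : F)) ⊗ₖ (1 : Matrix (Fin k) (Fin k) F))) (i, a) (j, b) =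
      if q = j then C (i, a) (p, b) else 0 := by
  rw [Matrix.mul_apply, Fintype.sum_prod_type]
  simp only [Matrix.kroneckerMap_apply, Matrix.single_apply, Matrix.one_apply]
  rw [Finset.sum_eq_single p, Finset.sum_eq_single b]
  · by_cases h : q = j <;> simp [h]
  · intro c _ hc
    simp [hc]
  · intro h; exact absurd (Finset.mem_univ _) h
  · intro l _ hl
    apply Finset.sum_eq_zero
    intro c _
    simp [Ne.symm hl]
  · intro h; exact absurd (Finset.mem_univ _) h

theorem tcomm_right {s k : ℕ} (C : Matrix (Fin s × Fin k) (Fin s × Fin k) F) (p q i j : Fin s) (a b : Fin k) :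
    (((Matrix.single p q (1 : F)) ⊗ₖ (1 : Matrix (Fin k) (Fin k) F)) * C) (i, a) (j, b) =
      if p = i then C (q, a) (j, b) else 0 := by
  rw [Matrix.mul_apply, Fintype.sum_prod_type]
  simp only [Matrix.kroneckerMap_apply, Matrix.single_apply, Matrix.one_apply]
  rw [Finset.sum_eq_single q, Finset.sum_eq_single a]
  · by_cases h : p = i <;> simp [h]
  · intro c _ hc
    simp [Ne.symm hc]
  · intro h; exact absurd (Finset.mem_univ _) h
  · intro l _ hl
    apply Finset.sum_eq_zero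
    intro c _
    simp [Ne.symm hl]
  · intro h; exact absurd (Finset.mem_univ _) h

/-- pure matrix form. -/
theorem tcomm_core {s k : ℕ} (C : Matrix (Fin s × Fin k) (Fin s × Fin k) F)
    (h : ∀ x : Matrix (Fin s) (Fin s) F, C * (x ⊗ₖ (1 : Matrix (Fin k) (Fin k) F)) =
      (x ⊗ₖ (1 : Matrix (Fin k) (Fin k) F)) * C) :
    ∃ y : Matrix (Fin k) (Fin k) F, C = (1 : Matrix (Fin s) (Fin s) F) ⊗ₖ y := by
  rcases Nat.eq_zero_or_pos s with rfl | hs
  · refine ⟨0, ?_⟩
    ext ⟨i, _⟩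
    exact i.elim0
  · let o : Fin s := ⟨0, hs⟩
    refine ⟨Matrix.of (fun a b => C (o, a) (o, b)), ?_⟩
    ext ⟨i, a⟩ ⟨j, b⟩
    change C (i, a) (j, b) = (1 : Matrix (Fin s) (Fin s) F) i j * C (o, a) (o, b)
    rw [Matrix.one_apply]
    by_cases hij : i = j
    · subst hij
      rw [if_pos rfl, one_mul]
      have h1 := congrFun (congrFun (h (Matrix.single i o 1)) (i, a)) (o, b)
      rw [tcomm_left, tcomm_right, if_pos rfl, if_pos rfl] at h1
      exact h1
    · rw [if_neg hij, zero_mul]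
      have h1 := congrFun (congrFun (h (Matrix.single j j 1)) (i, a)) (j, b)
      rw [tcomm_left, tcomm_right, if_pos rfl, if_neg (Ne.symm hij)] at h1
      exact h1

theorem comm_leftFactor {s k : ℕ} (e : ι ≃ Fin s × Fin k) (P : GL ι F) (c : Matrix ι ι F)
    (hc : ∀ x : Matrix (Fin s) (Fin s) F, c * tmat e P (x ⊗ₖ (1 : Matrix (Fin k) (Fin k) F)) =
      tmat e P (x ⊗ₖ (1 : Matrix (Fin k) (Fin k) F)) * c) :
    ∃ y : Matrix (Fin k) (Fin k) F, c = tmat e P ((1 : Matrix (Fin s) (Fin s) F) ⊗ₖ y) := by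
  obtain ⟨C, rfl⟩ := tmat_surjective e P c
  obtain ⟨y, hy⟩ := tcomm_core C (fun x => by
    apply tmat_injective e P
    rw [tmat_mul, tmat_mul]
    exact hc x)
  exact ⟨y, by rw [hy]⟩

end Cfsg.Agent.Lib.Helper80.AS
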