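import Cfsg.Agent.Lib.Helper80.AS.Defs
import Cfsg.Agent.Lib.Helper80.AS.TMUL
import Cfsg.Agent.Lib.Helper80.AS.MEMB
import Cfsg.Agent.Lib.Helper80.AS.TCOMM

set_option autoImplicit false

namespace Cfsg.Agent.Lib.Helper80.AS

open Cfsg Cfsg.Geo
open Cfsg.Agent.Lib.Helper77.Asch (NormBy MinOver)
open scoped MatrixGroups Matrix Kronecker

variable {ι : Type} [Fintype ι] [DecidableEq ι] {F : Type*} [Field F]

theorem tdvd_one_kron_inj {s k : ℕ} (hs : 0 < s) (y₁ y₂ : Matrix (Fin k) (Fin k) F)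
    (h : (1 : Matrix (Fin s) (Fin s) F) ⊗ₖ y₁ = (1 : Matrix (Fin s) (Fin s) F) ⊗ₖ y₂) : y₁ = y₂ := by
  ext a b
  have h1 := congrFun (congrFun h (⟨0, hs⟩, a)) (⟨0, hs⟩, b)
  simpa [Matrix.kroneckerMap_apply] using h1

/-- TDVD. -/
theorem dvd_of_commuting [Nonempty ι] {s k : ℕ} (e : ι ≃ Fin s × Fin k) (P h : GL ι F)
    (hcomm : ∀ x y : Matrix (Fin s) (Fin s) F,
      ((h : Matrix ι ι F) * tmat e P (x ⊗ₖ (1 : Matrix (Fin k) (Fin k) F)) * ((h⁻¹ : GL ι F) : Matrix ι ι F)) *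
          tmat e P (y ⊗ₖ (1 : Matrix (Fin k) (Fin k) F)) =
        tmat e P (y ⊗ₖ (1 : Matrix (Fin k) (Fin k) F)) *
          ((h : Matrix ι ι F) * tmat e P (x ⊗ₖ (1 : Matrix (Fin k) (Fin k) F)) * ((h⁻¹ : GL ι F) : Matrix ι ι F))) :
    s ∣ k := by
  have hs : 0 < s := by
    obtain ⟨i⟩ := ‹Nonempty ι›
    exact Nat.pos_of_ne_zero (by rintro rfl; exact (e i).1.elim0)
  obtain ⟨L, hL⟩ : ∃ L : Matrix (Fin s) (Fin s) F → Matrix ι ι F, ∀ x, L x =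
      (h : Matrix ι ι F) * tmat e P (x ⊗ₖ (1 : Matrix (Fin k) (Fin k) F)) *
        ((h⁻¹ : GL ι F) : Matrix ι ι F) := ⟨_, fun _ => rfl⟩
  obtain ⟨J, hJ⟩ : ∃ J : Matrix (Fin k) (Fin k) F → Matrix ι ι F, ∀ y, J y =
      tmat e P ((1 : Matrix (Fin s) (Fin s) F) ⊗ₖ y) := ⟨_, fun _ => rfl⟩
  have hJinj : Function.Injective J := by
    intro y₁ y₂ h12
    rw [hJ, hJ] at h12
    exact tdvd_one_kron_inj hs _ _ (tmat_injective e P h12)
  have hJmul : ∀ y₁ y₂, J (y₁ * y₂) = J y₁ * J y₂ := by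
    intro y₁ y₂
    rw [hJ, hJ, hJ, ← tmat_mul, ← Matrix.mul_kronecker_mul, one_mul]
  have hJadd : ∀ y₁ y₂, J (y₁ + y₂) = J y₁ + J y₂ := by
    intro y₁ y₂
    rw [hJ, hJ, hJ, ← tmat_add, ← Matrix.kronecker_add]
  have hJsmul : ∀ (c : F) y, J (c • y) = c • J y := by
    intro c y
    rw [hJ, hJ, ← tmat_smul, ← Matrix.kronecker_smul]
  have hJone : J 1 = 1 := by
    rw [hJ, Matrix.one_kronecker_one, tmat_one]
  have hLmul : ∀ x₁ x₂, L (x₁ * x₂) = L x₁ * L x₂ := by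
    intro x₁ x₂
    rw [hL, hL, hL]
    have h1 : (x₁ * x₂) ⊗ₖ (1 : Matrix (Fin k) (Fin k) F) =
        (x₁ ⊗ₖ (1 : Matrix (Fin k) (Fin k) F)) * (x₂ ⊗ₖ (1 : Matrix (Fin k) (Fin k) F)) := by
      rw [← Matrix.mul_kronecker_mul, one_mul]
    rw [h1, tmat_mul]
    calc _ = (h : Matrix ι ι F) * tmat e P (x₁ ⊗ₖ (1 : Matrix (Fin k) (Fin k) F)) * 1 *
          tmat e P (x₂ ⊗ₖ (1 : Matrix (Fin k) (Fin k) F)) * ((h⁻¹ : GL ι F) : Matrix ι ι F) := by
          simp only [mul_one, mul_assoc]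
      _ = _ := by rw [← tmul_inv_mul h]; simp only [mul_assoc]
  have hLadd : ∀ x₁ x₂, L (x₁ + x₂) = L x₁ + L x₂ := by
    intro x₁ x₂
    rw [hL, hL, hL, Matrix.add_kronecker, tmat_add, mul_add, add_mul]
  have hLsmul : ∀ (c : F) x, L (c • x) = c • L x := by
    intro c x
    rw [hL, hL, Matrix.smul_kronecker, tmat_smul, Matrix.mul_smul, Matrix.smul_mul]
  have hLone : L 1 = 1 := by
    rw [hL, Matrix.one_kronecker_one, tmat_one, mul_one, tmul_mul_inv]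
  have hex : ∀ x, ∃ y, L x = J y := by
    intro x
    obtain ⟨y, hy⟩ := comm_leftFactor e P (L x) (fun z => by rw [hL]; exact hcomm x z)
    exact ⟨y, by rw [hy, hJ]⟩
  choose ψ hψ using hex
  obtain ⟨k', e', _, _⟩ := matrix_embed (ι := Fin k) hs
    ({ toFun := ψ
       map_one' := hJinj (by rw [← hψ, hLone, hJone])
       map_mul' := fun x₁ x₂ => hJinj (by rw [← hψ, hLmul, hJmul, ← hψ, ← hψ])
       map_zero' := hJinj (by
        have h0 : L 0 = 0 := by simpa using hLsmul 0 0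
        have h0' : J 0 = 0 := by simpa using hJsmul 0 0
        rw [← hψ, h0, h0'])
       map_add' := fun x₁ x₂ => hJinj (by rw [← hψ, hLadd, hJadd, ← hψ, ← hψ])
       commutes' := fun c => hJinj (by
        rw [← hψ, Algebra.algebraMap_eq_smul_one, Algebra.algebraMap_eq_smul_one, hLsmul, hJsmul,
          hLone, hJone]) } : Matrix (Fin s) (Fin s) F →ₐ[F] Matrix (Fin k) (Fin k) F)
  have hcard := Fintype.card_congr e'
  rw [Fintype.card_prod, Fintype.card_fin, Fintype.card_fin, Fintype.card_fin] at hcard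
  exact ⟨k', hcard⟩

end Cfsg.Agent.Lib.Helper80.AS
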