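import Cfsg.Agent.Lib.Helper80.AS.Defs12
import Cfsg.Agent.Lib.Helper80.AS.TMUL
import Cfsg.Agent.Lib.Helper80.AS.MEMB
import Cfsg.Agent.Lib.Helper80.AS.TCOMM
import Cfsg.Agent.Lib.Helper80.AS.TDVD

/-! Ladder ASCHS12 (S5868), rung POWDVD: `t` pairwise commuting copies of `M_s(F)` in `M_n(F)` force
`s ^ t ∣ n`. -/

set_option autoImplicit false

namespace Cfsg.Agent.Lib.Helper80.AS

open Cfsg Cfsg.Geo
open Cfsg.Agent.Lib.Helper77.Asch (NormBy MinOver)
open scoped MatrixGroups Matrix Kronecker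

theorem powdvd_aux {F : Type*} [Field F] {s : ℕ} (hs : 0 < s) (t : ℕ) :
    ∀ (ι : Type) [Fintype ι] [DecidableEq ι]
      (φ : Fin t → (Matrix (Fin s) (Fin s) F →ₐ[F] Matrix ι ι F)),
      (∀ i j, i ≠ j → ∀ x y, φ i x * φ j y = φ j y * φ i x) → s ^ t ∣ Fintype.card ι := by
  induction t with
  | zero => intro ι _ _ φ _; simp
  | succ t ih =>
    intro ι _ _ φ hcomm
    obtain ⟨k, e, P, hφ⟩ := matrix_embed hs (φ 0)
    obtain ⟨J, hJ⟩ : ∃ J : Matrix (Fin k) (Fin k) F → Matrix ι ι F, ∀ y, J y =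
        tmat e P ((1 : Matrix (Fin s) (Fin s) F) ⊗ₖ y) := ⟨_, fun _ => rfl⟩
    have hJinj : Function.Injective J := by
      intro y₁ y₂ h12
      rw [hJ, hJ] at h12
      exact tdvd_one_kron_inj hs _ _ (tmat_injective e P h12)
    have hJmul : ∀ y₁ y₂, J (y₁ * y₂) = J y₁ * J y₂ := by
      intro y₁ y₂
      rw [hJ, hJ, hJ, ← tmat_mul, ← Matrix.mul_kronecker_mul, one_mul]
    have hJadd : ∀ y₁ y₂, J (y₁ + y₂) = J y₁ + J y₂ := by
      intro y₁ y₂
      rw [hJ, hJ, hJ, ← tmat_add, ← Matrix.kronecker_add]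
    have hJsmul : ∀ (c : F) y, J (c • y) = c • J y := by
      intro c y
      rw [hJ, hJ, ← tmat_smul, ← Matrix.kronecker_smul]
    have hJone : J 1 = 1 := by
      rw [hJ, Matrix.one_kronecker_one, tmat_one]
    have hJzero : J 0 = 0 := by simpa using hJsmul 0 0
    have hex : ∀ (i : Fin t) x, ∃ y, φ i.succ x = J y := by
      intro i x
      obtain ⟨y, hy⟩ := comm_leftFactor e P (φ i.succ x) (fun z => by
        rw [← hφ]; exact hcomm _ _ (Fin.succ_ne_zero i) x z)
      exact ⟨y, by rw [hy, hJ]⟩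
    choose ψ hψ using hex
    have h1 := ih (Fin k) (fun i =>
      ({ toFun := ψ i
         map_one' := hJinj (by rw [← hψ, map_one, hJone])
         map_mul' := fun x₁ x₂ => hJinj (by rw [← hψ, map_mul, hJmul, ← hψ, ← hψ])
         map_zero' := hJinj (by rw [← hψ, map_zero, hJzero])
         map_add' := fun x₁ x₂ => hJinj (by rw [← hψ, map_add, hJadd, ← hψ, ← hψ])
         commutes' := fun c => hJinj (by
          rw [← hψ, Algebra.algebraMap_eq_smul_one, Algebra.algebraMap_eq_smul_one, map_smul,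
            hJsmul, map_one, hJone]) } : Matrix (Fin s) (Fin s) F →ₐ[F] Matrix (Fin k) (Fin k) F))
      (by
        intro i j hij x y
        apply hJinj
        change J (ψ i x * ψ j y) = J (ψ j y * ψ i x)
        rw [hJmul, hJmul, ← hψ, ← hψ]
        exact hcomm _ _ (fun h => hij (Fin.succ_injective _ h)) x y)
    have hcard := Fintype.card_congr e
    rw [Fintype.card_prod, Fintype.card_fin, Fintype.card_fin] at hcard
    rw [Fintype.card_fin] at h1
    rw [hcard, pow_succ, mul_comm]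
    exact Nat.mul_dvd_mul_left s h1

variable {ι : Type} [Fintype ι] [DecidableEq ι] {F : Type*} [Field F]

/-- POWDVD. -/
theorem pow_dvd_of_commuting [Nonempty ι] {s : ℕ} (hs : 0 < s) (t : ℕ)
    (φ : Fin t → (Matrix (Fin s) (Fin s) F →ₐ[F] Matrix ι ι F))
    (hcomm : ∀ i j, i ≠ j → ∀ x y, φ i x * φ j y = φ j y * φ i x) : s ^ t ∣ Fintype.card ι :=
  powdvd_aux hs t ι φ hcomm

end Cfsg.Agent.Lib.Helper80.AS
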