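import Cfsg.Agent.Lib.Helper80.AS.Defs12

/-! Ladder ASCHS12 (S5868), rung SPANB: products of `t` conjugates of a `d`-dimensional algebra span
at most `d ^ t` dimensions. -/

set_option autoImplicit false

namespace Cfsg.Agent.Lib.Helper80.AS

open Cfsg Cfsg.Geo
open scoped MatrixGroups Matrix Kronecker

variable {ι : Type} [Fintype ι] [DecidableEq ι] {F : Type*} [Field F]

theorem card_sq_le (B : Subalgebra F (Matrix ι ι F)) (d t : ℕ) (hd : Module.finrank F B = d)
    (h : Fin t → GL ι F)
    (hspan : Submodule.span F {y : Matrix ι ι F | ∃ a : Fin t → Matrix ι ι F, (∀ i, a i ∈ B) ∧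
      y = (List.ofFn (fun i => (h i : Matrix ι ι F) * a i * (((h i)⁻¹ : GL ι F) : Matrix ι ι F))).prod} = ⊤) :
    Fintype.card ι ^ 2 ≤ d ^ t := by
  classical
  have b : Module.Basis (Fin d) F B := Module.finBasisOfFinrankEq F B hd
  let L : Fin t → (Matrix ι ι F →ₗ[F] Matrix ι ι F) := fun i =>
    (LinearMap.mulLeft F (h i : Matrix ι ι F)) ∘ₗ
      (LinearMap.mulRight F (((h i)⁻¹ : GL ι F) : Matrix ι ι F))
  let f : MultilinearMap F (fun _ : Fin t => Matrix ι ι F) (Matrix ι ι F) :=
    (MultilinearMap.mkPiAlgebraFin F t (Matrix ι ι F)).compLinearMap L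
  have hf : ∀ a : Fin t → Matrix ι ι F, f a =
      (List.ofFn (fun i => (h i : Matrix ι ι F) * a i * (((h i)⁻¹ : GL ι F) : Matrix ι ι F))).prod := by
    intro a
    simp [f, L, mul_assoc]
  let S : Set (Matrix ι ι F) :=
    Set.range (fun c : Fin t → Fin d => f (fun i => ((b (c i) : B) : Matrix ι ι F)))
  have claim : ∀ a : Fin t → Matrix ι ι F, (∀ i, a i ∈ B) → f a ∈ Submodule.span F S := by
    intro a ha
    have h1 : a = fun i => ∑ j, (b.repr ⟨a i, ha i⟩ j) • ((b j : B) : Matrix ι ι F) := by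
      funext i
      have h2 := b.sum_repr ⟨a i, ha i⟩
      calc a i = ((⟨a i, ha i⟩ : B) : Matrix ι ι F) := rfl
        _ = ((∑ j, (b.repr ⟨a i, ha i⟩ j) • b j : B) : Matrix ι ι F) := by rw [h2]
        _ = _ := by
          rw [AddSubmonoidClass.coe_finsetSum]
          rfl
    rw [h1, MultilinearMap.map_sum]
    refine Submodule.sum_mem _ (fun r _ => ?_)
    rw [MultilinearMap.map_smul_univ]
    exact Submodule.smul_mem _ _ (Submodule.subset_span ⟨r, rfl⟩)
  have h1 : (⊤ : Submodule F (Matrix ι ι F)) ≤ Submodule.span F S := by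
    rw [← hspan]
    refine Submodule.span_le.mpr ?_
    rintro y ⟨a, ha, rfl⟩
    rw [← hf]
    exact claim a ha
  have h2 : Module.finrank F (Submodule.span F S) ≤ Fintype.card (Fin t → Fin d) :=
    finrank_range_le_card _
  have h3 : Module.finrank F (Submodule.span F S) = Fintype.card ι ^ 2 := by
    rw [top_le_iff.mp h1, finrank_top, Module.finrank_matrix]
    simp [sq]
  rw [h3] at h2
  simpa using h2

end Cfsg.Agent.Lib.Helper80.AS
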