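import Cfsg.Agent.Lib.Helper80.AS.Defs12
import Cfsg.Agent.Lib.Helper80.AS.TMUL
import Cfsg.Agent.Lib.Helper80.AS.ENVN
import Cfsg.Agent.Lib.Helper80.AS.S1K1
import Cfsg.Agent.Lib.Helper80.AS.TENS
import Cfsg.Agent.Lib.Helper80.AS.SQD
import Cfsg.Agent.Lib.Helper80.AS.BURN
import Cfsg.Agent.Lib.Helper80.AS.POWDVD
import Cfsg.Agent.Lib.Helper80.AS.SPANB

/-! Ladder ASCHS12 (S5868), rung PERF: a central product of `t` conjugates acting absolutely irreducibly
forces the dimension to be a `t`-th power. -/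

set_option autoImplicit false

namespace Cfsg.Agent.Lib.Helper80.AS

open Cfsg Cfsg.Geo
open Cfsg.Agent.Lib.Helper77.Asch (NormBy MinOver)
open scoped MatrixGroups Matrix Kronecker

variable {ι : Type} [Fintype ι] [DecidableEq ι] {F : Type*} [Field F]

/-- conjugation by a unit as an algebra endomorphism -/
def perfConj (u : GL ι F) : Matrix ι ι F →ₐ[F] Matrix ι ι F where
  toFun X := (u : Matrix ι ι F) * X * ((u⁻¹ : GL ι F) : Matrix ι ι F)
  map_one' := by rw [mul_one, tmul_mul_inv]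
  map_mul' X Y := by
    calc (u : Matrix ι ι F) * (X * Y) * ((u⁻¹ : GL ι F) : Matrix ι ι F)
        = (u : Matrix ι ι F) * X * 1 * Y * ((u⁻¹ : GL ι F) : Matrix ι ι F) := by
          simp only [mul_one, mul_assoc]
      _ = _ := by rw [← tmul_inv_mul u]; simp only [mul_assoc]
  map_zero' := by simp
  map_add' X Y := by rw [mul_add, add_mul]
  commutes' c := by
    rw [Algebra.algebraMap_eq_smul_one, Matrix.mul_smul, Matrix.smul_mul, mul_one, tmul_mul_inv]

theorem perfConj_apply (u : GL ι F) (X : Matrix ι ι F) :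
    perfConj u X = (u : Matrix ι ι F) * X * ((u⁻¹ : GL ι F) : Matrix ι ι F) := rfl

theorem perf_comm (L : Subgroup (GL ι F)) (u v : GL ι F)
    (hc : ∀ x ∈ L, ∀ y ∈ L, (u * x * u⁻¹) * (v * y * v⁻¹) = (v * y * v⁻¹) * (u * x * u⁻¹)) :
    ∀ X ∈ env L, ∀ Y ∈ env L, perfConj u X * perfConj v Y = perfConj v Y * perfConj u X := by
  intro X hX Y hY
  have hX' : perfConj u X ∈ Algebra.adjoin F (perfConj u '' matrixSet L) := by
    rw [← AlgHom.map_adjoin]; exact ⟨X, hX, rfl⟩
  have hY' : perfConj v Y ∈ Algebra.adjoin F (perfConj v '' matrixSet L) := by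
    rw [← AlgHom.map_adjoin]; exact ⟨Y, hY, rfl⟩
  refine (Algebra.commute_of_mem_adjoin_of_forall_mem_commute hY' ?_)
  rintro _ ⟨_, ⟨y, hy, rfl⟩, rfl⟩
  refine (Algebra.commute_of_mem_adjoin_of_forall_mem_commute hX' ?_).symm
  rintro _ ⟨_, ⟨x, hx, rfl⟩, rfl⟩
  have h1 := congrArg (fun w : GL ι F => (w : Matrix ι ι F)) (hc x hx y hy)
  simp only [Units.val_mul] at h1
  exact h1.symm

/-- PERF. -/
theorem perfect_power [Finite F] [Nonempty ι] (N L : Subgroup (GL ι F))
    (habs : ActsAbsolutelyIrreducibly (matrixSet N))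
    (hL : L ≤ N) (hnorm : NormBy N L) (hna : ∃ a ∈ L, ∃ b ∈ L, a * b ≠ b * a)
    (hfac : ∀ g ∈ N, ∃ a ∈ L, ∃ c : GL ι F, g = a * c ∧ ∀ x ∈ L, c * x = x * c) (t : ℕ) (h : Fin t → GL ι F)
    (hcomm : ∀ i j, i ≠ j → ∀ x ∈ L, ∀ y ∈ L,
        (h i * x * (h i)⁻¹) * (h j * y * (h j)⁻¹) = (h j * y * (h j)⁻¹) * (h i * x * (h i)⁻¹))
    (hprod : ∀ g ∈ N, ∃ (z : GL ι F) (a : Fin t → GL ι F), z ∈ scalars ι F ∧ (∀ i, a i ∈ L) ∧
        g = z * (List.ofFn (fun i => h i * a i * (h i)⁻¹)).prod) :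
    ∃ s : ℕ, 1 < s ∧ Fintype.card ι = s ^ t := by
  have hcen : IsScal (cen (env L)) := by
    intro z hz
    apply habs.2 z
    rintro _ ⟨g, hg, rfl⟩
    obtain ⟨a, ha, c, rfl, hc⟩ := hfac g hg
    have h1 : (a : Matrix ι ι F) * z = z * (a : Matrix ι ι F) :=
      (Subalgebra.mem_centralizer_iff F).1 hz.2 _ (sqd_mem_env L a ha)
    have h2 : (c : Matrix ι ι F) * z = z * (c : Matrix ι ι F) :=
      sqd_comm_env L c (fun x hx => by
        rw [← Units.val_mul, ← Units.val_mul, hc x hx]) z hz.1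
    change z * ((a * c : GL ι F) : Matrix ι ι F) = ((a * c : GL ι F) : Matrix ι ι F) * z
    rw [Units.val_mul, ← mul_assoc, ← h1, mul_assoc, ← h2, mul_assoc]
  obtain ⟨s, k, e, P, hB⟩ := exists_leftFactor N habs.1 (env L) (env_norm N L hnorm) hcen
  have hs0 : s ≠ 0 := by
    obtain ⟨i⟩ := ‹Nonempty ι›
    rintro rfl
    exact (e i).1.elim0
  have hs1 : s ≠ 1 := by
    rintro rfl
    obtain ⟨a, ha, b, hb, hab⟩ := hna
    apply hab
    obtain ⟨ca, hca⟩ := scal_of_leftFactor_one _ e P hB _ (sqd_mem_env L a ha)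
    apply Units.ext
    rw [Units.val_mul, Units.val_mul, hca, Matrix.smul_mul, Matrix.mul_smul, one_mul, mul_one]
  have ht0 : tmat e P 0 = 0 := by simpa using tmat_smul e P (0 : F) 0
  let φ₀ : Matrix (Fin s) (Fin s) F →ₐ[F] Matrix ι ι F :=
    { toFun := fun x => tmat e P (x ⊗ₖ (1 : Matrix (Fin k) (Fin k) F))
      map_one' := by rw [Matrix.one_kronecker_one, tmat_one]
      map_mul' := fun x y => by rw [← tmat_mul, ← Matrix.mul_kronecker_mul, one_mul]
      map_zero' := by rw [Matrix.zero_kronecker, ht0]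
      map_add' := fun x y => by rw [Matrix.add_kronecker, tmat_add]
      commutes' := fun c => by
        rw [Algebra.algebraMap_eq_smul_one, Matrix.smul_kronecker, tmat_smul,
          Matrix.one_kronecker_one, tmat_one, Algebra.algebraMap_eq_smul_one] }
  have hφ₀ : ∀ x, φ₀ x ∈ env L := fun x => (hB _).2 ⟨x, rfl⟩
  have h1 : s ^ t ∣ Fintype.card ι :=
    pow_dvd_of_commuting (Nat.pos_of_ne_zero hs0) t (fun i => (perfConj (h i)).comp φ₀)
      (fun i j hij x y => perf_comm L (h i) (h j) (hcomm i j hij) _ (hφ₀ x) _ (hφ₀ y))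
  have h2 : Module.finrank F (env L) ≤ s * s := by
    have h4 : Subalgebra.toSubmodule (env L) = LinearMap.range φ₀.toLinearMap := by
      ext y
      constructor
      · intro hy
        obtain ⟨x, rfl⟩ := (hB y).1 hy
        exact ⟨x, rfl⟩
      · rintro ⟨x, rfl⟩
        exact hφ₀ x
    have h5 : Module.finrank F (env L) = Module.finrank F (Subalgebra.toSubmodule (env L)) := rfl
    rw [h5, h4]
    refine (LinearMap.finrank_range_le _).trans ?_
    rw [Module.finrank_matrix]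
    simp
  have hspan : Submodule.span F {y : Matrix ι ι F | ∃ a : Fin t → Matrix ι ι F, (∀ i, a i ∈ env L) ∧
      y = (List.ofFn (fun i => (h i : Matrix ι ι F) * a i *
        (((h i)⁻¹ : GL ι F) : Matrix ι ι F))).prod} = ⊤ := by
    rw [eq_top_iff, ← span_eq_top N habs]
    refine Submodule.span_le.mpr ?_
    rintro _ ⟨g, hg, rfl⟩
    obtain ⟨z, a, hz, ha, rfl⟩ := hprod g hg
    obtain ⟨c, hc⟩ := (mem_scalars_iff z).1 hz
    have h6 : ((z * (List.ofFn fun i => h i * a i * (h i)⁻¹).prod : GL ι F) : Matrix ι ι F) =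
        (c : F) • (List.ofFn (fun i => (h i : Matrix ι ι F) * (a i : Matrix ι ι F) *
          (((h i)⁻¹ : GL ι F) : Matrix ι ι F))).prod := by
      rw [Units.val_mul, hc, Matrix.smul_mul, one_mul]
      congr 1
      rw [← Units.coeHom_apply, map_list_prod, List.map_ofFn]
      rfl
    change ((z * (List.ofFn fun i => h i * a i * (h i)⁻¹).prod : GL ι F) : Matrix ι ι F) ∈ _
    rw [h6]
    exact Submodule.smul_mem _ _ (Submodule.subset_span
      ⟨fun i => (a i : Matrix ι ι F), fun i => sqd_mem_env L _ (ha i), rfl⟩)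
  have h3 := card_sq_le (env L) _ t rfl h hspan
  refine ⟨s, by omega, ?_⟩
  have hn : 0 < Fintype.card ι := Fintype.card_pos
  have h7 : Fintype.card ι ^ 2 ≤ (s ^ t) ^ 2 := by
    calc Fintype.card ι ^ 2 ≤ (Module.finrank F (env L)) ^ t := h3
      _ ≤ (s * s) ^ t := Nat.pow_le_pow_left h2 t
      _ = (s ^ t) ^ 2 := by rw [← sq, ← pow_mul, ← pow_mul, mul_comm]
  have h8 : Fintype.card ι ≤ s ^ t := (Nat.pow_le_pow_iff_left (by norm_num)).1 h7
  exact le_antisymm h8 (Nat.le_of_dvd hn h1)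

end Cfsg.Agent.Lib.Helper80.AS
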