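import Cfsg.Agent.Lib.Helper80.AS.Defs12
import Cfsg.Agent.Lib.Helper80.AS.AG2T
import Cfsg.Agent.Lib.Helper80.AS.PERF

/-! Ladder ASCHS12 (helper80), rung T4X (helper56). -/

set_option autoImplicit false

namespace Cfsg.Agent.Lib.Helper80.AS

open Cfsg Cfsg.Geo
open Cfsg.Agent.Lib.Helper77.Asch (NormBy MinOver)
open scoped MatrixGroups Matrix Kronecker

variable {ι : Type} [Fintype ι] [DecidableEq ι] {F : Type*} [Field F]

theorem t4x_arith (s t : ℕ) (hs : 1 < s) (ht : 2 ≤ t) (h : 12 = s ^ t) : False := by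
  have h1 : s ^ 2 ≤ s ^ t := Nat.pow_le_pow_right (by omega) ht
  have h2 : s ≤ 3 := by
    by_contra hcon
    have : 4 ≤ s := by omega
    have : 4 ^ 2 ≤ s ^ 2 := Nat.pow_le_pow_left this 2
    omega
  have h3 : 2 ^ t ≤ s ^ t := Nat.pow_le_pow_left (by omega) t
  have h4 : t ≤ 3 := by
    by_contra hcon
    have : 4 ≤ t := by omega
    have : 2 ^ 4 ≤ 2 ^ t := Nat.pow_le_pow_right (by omega) this
    omega
  interval_cases s <;> interval_cases t <;> omega

theorem t4x_central (z : GL ι F) (hz : z ∈ scalars ι F) (g : GL ι F) : g * z = z * g := by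
  obtain ⟨c, hc⟩ := (mem_scalars_iff z).1 hz
  apply Units.ext
  rw [Units.val_mul, Units.val_mul, hc]
  simp

/-- T4X (assembly). -/
theorem simple_of_absIrr12 [Fintype F] (hcard : Fintype.card ι = 12)
    (Γ N : Subgroup (GL ι F)) (hmin : MinOver Γ (scalars ι F) N)
    (habs : ActsAbsolutelyIrreducibly (matrixSet N)) (hnab : ¬ ⁅N, N⁆ ≤ scalars ι F) :
    ∀ M : Subgroup (GL ι F), scalars ι F ≤ M → M ≤ N → NormBy N M → M = scalars ι F ∨ M = N := by
  haveI : Nonempty ι := by
    rw [← Fintype.card_pos_iff, hcard]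
    omega
  rcases simple_or_family Γ (scalars ι F) N t4x_central hmin hnab with
    h | ⟨L, t, h, ht, hL, hnorm, hna, hfac, hcomm, hprod⟩
  · exact h
  · obtain ⟨s, hs, hst⟩ := perfect_power N L habs hL hnorm hna hfac t h hcomm hprod
    rw [hcard] at hst
    exact (t4x_arith s t hs ht hst).elim

end Cfsg.Agent.Lib.Helper80.AS
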