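import Cfsg.Agent.Lib.Helper80.AS.Defs
import Cfsg.Agent.Lib.Helper95.Glue

set_option autoImplicit false

namespace Cfsg.Agent.Lib.Helper80.AS

open Cfsg Cfsg.Geo
open Cfsg.Agent.Lib.Helper95
open scoped MatrixGroups Matrix Kronecker

variable {F : Type*} [Field F]

theorem ps0_nondegOn (m : ℕ) : NondegOn (sympB m F) ⊤ := by
  intro u _ hu
  by_contra h
  push Not at h
  exact hu ((sympB_nondegenerate (F := F) m).1 u (fun x => h x Submodule.mem_top))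

/-- every isometry (as a linear equivalence) gives an element of `spGL`. -/
theorem ps0_of_iso (m : ℕ) (h : (Fin m ⊕ Fin m → F) ≃ₗ[F] (Fin m ⊕ Fin m → F))
    (hh : h ∈ isoGrp (sympB m F)) :
    ∃ g ∈ spGL m F, ∀ x, (g : Matrix (Fin m ⊕ Fin m) (Fin m ⊕ Fin m) F) *ᵥ x = h x := by
  refine ⟨glEquiv.symm h, ?_, fun x => glEquiv_symm_mulVec h x⟩
  rw [mem_spGL_iff, MulEquiv.apply_symm_apply]
  exact hh

/-- the symplectic transvection `x ↦ x + c f(x,u) u` as an element of `spGL`. -/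
theorem ps0_stv (m : ℕ) (u : Fin m ⊕ Fin m → F) (c : F) :
    ∃ g ∈ spGL m F, ∀ x, (g : Matrix (Fin m ⊕ Fin m) (Fin m ⊕ Fin m) F) *ᵥ x =
      x + (c * sympForm m F x u) • u := by
  obtain ⟨g, hg, h⟩ := ps0_of_iso m (stv (sympB m F) (sympB_isAlt m) u c)
    (stv_mem_isoGrp (sympB_isAlt m) u c)
  refine ⟨g, hg, fun x => ?_⟩
  rw [h x, stv_apply, sympB_apply]

/-- PS0. -/
theorem sp_transitive (m : ℕ) (u v : Fin m ⊕ Fin m → F) (hu : u ≠ 0) (hv : v ≠ 0) :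
    ∃ g ∈ spGL m F, (g : Matrix (Fin m ⊕ Fin m) (Fin m ⊕ Fin m) F) *ᵥ u = v := by
  obtain ⟨h, hh, e⟩ := transA (sympB_isAlt (F := F) m) (ps0_nondegOn m) (u := u) (v := v)
    Submodule.mem_top Submodule.mem_top hu hv
  obtain ⟨g, hg, h2⟩ := ps0_of_iso m h (tvGrp_le_isoGrp (sympB_isAlt m) ⊤ hh)
  exact ⟨g, hg, by rw [h2, e]⟩

end Cfsg.Agent.Lib.Helper80.AS
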