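import Cfsg.Agent.Lib.Helper80.AS.PS0

set_option autoImplicit false

namespace Cfsg.Agent.Lib.Helper80.AS

open Cfsg Cfsg.Geo Module
open Cfsg.Agent.Lib.Helper95
open scoped MatrixGroups Matrix Kronecker

variable {F : Type*} [Field F]

theorem psaux_exists_ne (m : ℕ) (w : Fin m ⊕ Fin m → F) (hw : w ≠ 0) :
    ∃ x, sympB m F w x ≠ 0 := by
  obtain ⟨x, _, hx⟩ := ps0_nondegOn (F := F) m w Submodule.mem_top hw
  exact ⟨x, hx⟩

/-- `w ∉ F v` : some `x ∈ v⊥` is not orthogonal to `w`. -/
theorem psaux_perp_ne (m : ℕ) (v w : Fin m ⊕ Fin m → F) (hw : w ∉ Submodule.span F {v}) :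
    ∃ x, sympB m F v x = 0 ∧ sympB m F w x ≠ 0 := by
  by_cases hv : v = 0
  · have hw0 : w ≠ 0 := by
      rintro rfl
      exact hw (Submodule.zero_mem _)
    obtain ⟨x, hx⟩ := psaux_exists_ne m w hw0
    exact ⟨x, by simp [hv], hx⟩
  · obtain ⟨y, hy⟩ := psaux_exists_ne m v hv
    by_contra hcon
    push Not at hcon
    apply hw
    have key : ∀ x, sympB m F (w - ((sympB m F v y)⁻¹ * sympB m F w y) • v) x = 0 := by
      intro x
      have h1 : sympB m F v (x - ((sympB m F v y)⁻¹ * sympB m F v x) • y) = 0 := by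
        rw [map_sub, map_smul, smul_eq_mul]
        field_simp
        ring
      have h2 := hcon _ h1
      rw [map_sub, map_smul, smul_eq_mul] at h2
      rw [map_sub, LinearMap.sub_apply, map_smul, LinearMap.smul_apply, smul_eq_mul]
      have h3 : sympB m F w x = (sympB m F v y)⁻¹ * sympB m F v x * sympB m F w y :=
        sub_eq_zero.1 h2
      rw [h3]; ring
    have h4 := (sympB_nondegenerate (F := F) m).1 _ key
    rw [sub_eq_zero.1 h4]
    exact Submodule.smul_mem _ _ (Submodule.mem_span_singleton_self v)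

/-- `v⊥` is not contained in a subspace of dimension `< 2m - 1`. -/
theorem psaux_perp_notMem (m : ℕ) (v : Fin m ⊕ Fin m → F) (S : Submodule F (Fin m ⊕ Fin m → F))
    (hS : finrank F S + 1 < 2 * m) : ∃ x, sympB m F v x = 0 ∧ x ∉ S := by
  by_contra hcon
  push Not at hcon
  have hle : LinearMap.ker (sympB m F v) ≤ S := fun x hx => hcon x (LinearMap.mem_ker.1 hx)
  have h1 := LinearMap.finrank_range_add_finrank_ker (sympB m F v)
  rw [finrank_sum_fin] at h1
  have h2 : finrank F (LinearMap.range (sympB m F v)) ≤ 1 := by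
    have := Submodule.finrank_le (LinearMap.range (sympB m F v))
    simpa using this
  have h3 := Submodule.finrank_mono hle
  omega

end Cfsg.Agent.Lib.Helper80.AS
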