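import Cfsg.Agent.Lib.Helper80.AS.Defs

set_option autoImplicit false

namespace Cfsg.Agent.Lib.Helper80.AS

open Cfsg Cfsg.Geo
open Cfsg.Agent.Lib.Helper77.Asch (NormBy MinOver)
open scoped MatrixGroups Matrix Kronecker

variable {ι : Type} [Fintype ι] [DecidableEq ι] {F : Type*} [Field F]

/-- the `B`-submodule `g⁻¹ m = {v | g v ∈ m}` for `g` normalising `B`. -/
def ss1Tr (B : Subalgebra F (Matrix ι ι F)) (g : GL ι F)
    (hg : ∀ k ∈ B, (g : Matrix ι ι F) * k * ((g⁻¹ : GL ι F) : Matrix ι ι F) ∈ B)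
    (m : Submodule B (ι → F)) : Submodule B (ι → F) where
  carrier := {v | (g : Matrix ι ι F) *ᵥ v ∈ m}
  zero_mem' := by
    show (g : Matrix ι ι F) *ᵥ 0 ∈ m
    rw [Matrix.mulVec_zero]; exact m.zero_mem
  add_mem' := by
    intro a b ha hb
    show (g : Matrix ι ι F) *ᵥ (a + b) ∈ m
    rw [Matrix.mulVec_add]; exact m.add_mem ha hb
  smul_mem' := by
    intro b v hv
    show (g : Matrix ι ι F) *ᵥ ((b : Matrix ι ι F) *ᵥ v) ∈ m
    have h1 : (g : Matrix ι ι F) *ᵥ ((b : Matrix ι ι F) *ᵥ v) =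
        ((g : Matrix ι ι F) * (b : Matrix ι ι F) * ((g⁻¹ : GL ι F) : Matrix ι ι F)) *ᵥ
          ((g : Matrix ι ι F) *ᵥ v) := by
      rw [Matrix.mulVec_mulVec, Matrix.mulVec_mulVec, mul_assoc, mul_assoc]
      congr 2
      rw [← Units.val_mul, inv_mul_cancel, Units.val_one, mul_one]
    rw [h1]
    exact m.smul_mem ⟨_, hg b b.2⟩ hv

theorem mem_ss1Tr (B : Subalgebra F (Matrix ι ι F)) (g : GL ι F)
    (hg : ∀ k ∈ B, (g : Matrix ι ι F) * k * ((g⁻¹ : GL ι F) : Matrix ι ι F) ∈ B)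
    (m : Submodule B (ι → F)) (v : ι → F) :
    v ∈ ss1Tr B g hg m ↔ (g : Matrix ι ι F) *ᵥ v ∈ m := Iff.rfl

/-- translation by a normalising element is an order automorphism of the lattice of submodules. -/
def ss1Iso (B : Subalgebra F (Matrix ι ι F)) (g : GL ι F)
    (hg : ∀ k ∈ B, (g : Matrix ι ι F) * k * ((g⁻¹ : GL ι F) : Matrix ι ι F) ∈ B)
    (hg' : ∀ k ∈ B, ((g⁻¹ : GL ι F) : Matrix ι ι F) * k * (((g⁻¹)⁻¹ : GL ι F) : Matrix ι ι F) ∈ B) :
    Submodule B (ι → F) ≃o Submodule B (ι → F) where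
  toFun := ss1Tr B g hg
  invFun := ss1Tr B g⁻¹ hg'
  left_inv := by
    intro m
    ext v
    rw [mem_ss1Tr, mem_ss1Tr, Matrix.mulVec_mulVec, ← Units.val_mul, mul_inv_cancel, Units.val_one,
      Matrix.one_mulVec]
  right_inv := by
    intro m
    ext v
    rw [mem_ss1Tr, mem_ss1Tr, Matrix.mulVec_mulVec, ← Units.val_mul, inv_mul_cancel, Units.val_one,
      Matrix.one_mulVec]
  map_rel_iff' := by
    intro m m'
    constructor
    · intro h v hv
      have h1 : ((g⁻¹ : GL ι F) : Matrix ι ι F) *ᵥ v ∈ ss1Tr B g hg m := by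
        rw [mem_ss1Tr, Matrix.mulVec_mulVec, ← Units.val_mul, mul_inv_cancel, Units.val_one,
          Matrix.one_mulVec]
        exact hv
      have h2 : ((g⁻¹ : GL ι F) : Matrix ι ι F) *ᵥ v ∈ ss1Tr B g hg m' := h h1
      rwa [mem_ss1Tr, Matrix.mulVec_mulVec, ← Units.val_mul, mul_inv_cancel, Units.val_one,
          Matrix.one_mulVec] at h2
    · intro h v hv
      exact h hv

/-- SS1 (Clifford). -/
theorem semisimple_of_norm (Γ : Subgroup (GL ι F)) (hirr : ActsIrreducibly (matrixSet Γ))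
    (B : Subalgebra F (Matrix ι ι F)) (hn : Γ ≤ subalgebraNormalizer B) : IsSemisimpleRing B := by
  classical
  have hnorm : ∀ g ∈ Γ, ∀ k ∈ B, (g : Matrix ι ι F) * k * ((g⁻¹ : GL ι F) : Matrix ι ι F) ∈ B :=
    fun g hg k hk => (hn hg k).mp hk
  set WB : Submodule B (ι → F) := sSup {m : Submodule B (ι → F) | IsSimpleModule B m} with hWB
  have hinv : ∀ g ∈ Γ, ∀ v ∈ WB, (g : Matrix ι ι F) *ᵥ v ∈ WB := by
    intro g hg
    have h1 : WB ≤ ss1Tr B g (hnorm g hg) WB := by
      apply sSup_le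
      intro m hm v hv
      rw [mem_ss1Tr]
      have hm' : IsSimpleModule B m := hm
      rw [isSimpleModule_iff_isAtom] at hm'
      have h2 : IsAtom (ss1Iso B g⁻¹ (hnorm _ (Γ.inv_mem hg))
          (hnorm _ (Γ.inv_mem (Γ.inv_mem hg))) m) :=
        (OrderIso.isAtom_iff _ _).mpr hm'
      rw [← isSimpleModule_iff_isAtom] at h2
      have h3 : ss1Iso B g⁻¹ (hnorm _ (Γ.inv_mem hg))
          (hnorm _ (Γ.inv_mem (Γ.inv_mem hg))) m ≤ WB := le_sSup h2
      apply h3
      show ((g⁻¹ : GL ι F) : Matrix ι ι F) *ᵥ ((g : Matrix ι ι F) *ᵥ v) ∈ m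
      rw [Matrix.mulVec_mulVec, ← Units.val_mul, inv_mul_cancel, Units.val_one, Matrix.one_mulVec]
      exact hv
    exact h1
  have hart : IsArtinian B (ι → F) := isArtinian_of_tower F inferInstance
  have htop : WB = ⊤ := by
    rcases hirr (WB.restrictScalars F) (by
      rintro _ ⟨g, hg, rfl⟩
      rintro _ ⟨v, hv, rfl⟩
      exact hinv g hg v hv) with h | h
    · have hbot : WB = ⊥ := by
        rw [eq_bot_iff]
        intro v hv
        have : v ∈ WB.restrictScalars F := hv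
        rw [h] at this
        exact this
      rcases eq_bot_or_exists_atom_le (⊤ : Submodule B (ι → F)) with h1 | ⟨a, ha, _⟩
      · rw [hbot, h1]
      · exfalso
        have h2 : a ≤ WB := le_sSup (by
          show IsSimpleModule B a
          rw [isSimpleModule_iff_isAtom]; exact ha)
        rw [hbot, le_bot_iff] at h2
        exact ha.1 h2
    · rw [eq_top_iff]
      intro v _
      have : v ∈ WB.restrictScalars F := by rw [h]; trivial
      exact this
  have hss : IsSemisimpleModule B (ι → F) := IsSemisimpleModule.of_sSup_simples_eq_top htop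
  let f : B →ₗ[B] (ι → (ι → F)) :=
    LinearMap.pi (fun i => LinearMap.toSpanSingleton B (ι → F) (Pi.single i 1))
  have hf : Function.Injective f := by
    rw [← LinearMap.ker_eq_bot, LinearMap.ker_eq_bot']
    intro b hb
    apply Subtype.ext
    show (b : Matrix ι ι F) = 0
    ext r c
    have h1 := congrFun (congrFun hb c) r
    have h2 : ((b : Matrix ι ι F) *ᵥ Pi.single c 1) r = 0 := h1
    simpa using h2
  exact IsSemisimpleModule.of_injective f hf

end Cfsg.Agent.Lib.Helper80.AS
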