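import Cfsg.Agent.Lib.Helper80.AS.AG2S
import Cfsg.Agent.Lib.Helper80.AS.SQD

set_option autoImplicit false

namespace Cfsg.Agent.Lib.Helper80.AS

open Cfsg Cfsg.Geo
open Cfsg.Agent.Lib.Helper77.Asch (NormBy MinOver)
open scoped MatrixGroups Matrix Kronecker

variable {ι : Type} [Fintype ι] [DecidableEq ι] {F : Type*} [Field F]

theorem t4_arith (m s : ℕ) (hm : m.Prime) (hm2 : m ≠ 2) (hs : 1 < s) (h : s * s ∣ 2 * m) : False := by
  obtain ⟨p, hp, hps⟩ := Nat.exists_prime_and_dvd (show s ≠ 1 by omega)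
  have h1 : p * p ∣ 2 * m := (Nat.mul_dvd_mul hps hps).trans h
  have h2 : p ∣ 2 * m := (Dvd.intro _ rfl).trans h1
  rcases (Nat.Prime.dvd_mul hp).1 h2 with h3 | h3
  · have hp2 : p = 2 := (Nat.prime_dvd_prime_iff_eq hp Nat.prime_two).1 h3
    subst hp2
    have h4 : 2 ∣ m := Nat.dvd_of_mul_dvd_mul_left (by norm_num) h1
    exact hm2 ((Nat.prime_dvd_prime_iff_eq Nat.prime_two hm).1 h4).symm
  · have hpm : p = m := (Nat.prime_dvd_prime_iff_eq hp hm).1 h3
    subst hpm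
    have h4 : p ∣ 2 := Nat.dvd_of_mul_dvd_mul_right hp.pos h1
    exact hm2 ((Nat.prime_dvd_prime_iff_eq hp Nat.prime_two).1 h4)

theorem t4_central (z : GL ι F) (hz : z ∈ scalars ι F) (g : GL ι F) : g * z = z * g := by
  obtain ⟨c, hc⟩ := (mem_scalars_iff z).1 hz
  apply Units.ext
  rw [Units.val_mul, Units.val_mul, hc]
  simp

/-- T4 (assembly). -/
theorem simple_of_absIrr [Fintype F] (m : ℕ) (hm : m.Prime) (hm2 : m ≠ 2) (hcard : Fintype.card ι = 2 * m)
    (Γ N : Subgroup (GL ι F)) (hmin : MinOver Γ (scalars ι F) N)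
    (habs : ActsAbsolutelyIrreducibly (matrixSet N)) (hnab : ¬ ⁅N, N⁆ ≤ scalars ι F) :
    ∀ M : Subgroup (GL ι F), scalars ι F ≤ M → M ≤ N → NormBy N M → M = scalars ι F ∨ M = N := by
  haveI : Nonempty ι := by
    rw [← Fintype.card_pos_iff, hcard]
    have := hm.pos
    omega
  rcases simple_or_commuting Γ (scalars ι F) N t4_central hmin hnab with
    h | ⟨L, h, hL, hnorm, hna, hfac, hcomm⟩
  · exact h
  · obtain ⟨s, hs, hdvd⟩ := sq_dvd N L habs hL hnorm hna hfac h hcomm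
    rw [hcard] at hdvd
    exact (t4_arith m s hm hm2 hs hdvd).elim

end Cfsg.Agent.Lib.Helper80.AS
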